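import Cfsg.Agent.Blocks.Major
import Cfsg.Agent.Blocks.InducedDefect
import Cfsg.Agent.Blocks.StableCover
import Cfsg.Agent.Blocks.RegularRank
import Cfsg.Agent.Clifford.ExtCriteria
import Mathlib.Analysis.Fourier.FiniteAbelian.PontryaginDuality

/-!
# Stable blocks below blocks with abelian defect groups
-/

set_option linter.unusedSectionVars false
set_option linter.style.haveILetI false

namespace CfsgLib.Blocks

open Cfsg CfsgLib.CharBasics CfsgLib.Clifford CfsgLib.ZStar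
open scoped ComplexConjugate

universe u

variable {G : Type u} [Group G] [Fintype G] {p : ℕ} {M : Ideal AlgInt}

/-- No member of a block vanishes on the whole section of an element central in a defect group. -/
theorem exists_section_apply_ne_zero (hM : IsPModular p M) {B : Set (IrrCharacter G)} (hB : IsPBlock M B)
    {D : Subgroup G} (hD : IsDefectGroup p M B D) {u : G} (huD : u ∈ D) (huc : ∀ d ∈ D, d * u = u * d)
    {χ : IrrCharacter G} (hχ : χ ∈ B) :
    ∃ y : G, ¬ p ∣ orderOf y ∧ (χ : G → ℂ) (u * y) ≠ 0 := by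
  classical
  haveI := Fintype.ofFinite (Subgroup.centralizer ({u} : Set G))
  haveI : Fintype (IrrCharacter G) := @Fintype.ofFinite _ finite_irrCharacter
  obtain ⟨k, -, hk⟩ := (Nat.dvd_prime_pow hM.1).1 (show orderOf u ∣ p ^ blockDefect p B by
    rw [← card_defectGroup hM hB hD]; exact Subgroup.orderOf_dvd_natCard D huD)
  have hx : ∃ k : ℕ, orderOf u = p ^ k := ⟨k, hk⟩
  have hDC : D ≤ Subgroup.centralizer ({u} : Set G) := fun d hd =>
    Subgroup.mem_centralizer_singleton_iff.2 (huc d hd)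
  obtain ⟨b, hind, hge⟩ := exists_inducing_defect_ge hM (ZStar.isPGroup_zpowers hM.1 hx)
    (ZStar.mem_centralizer_zpowers u) hB hD (Subgroup.zpowers_le.2 huD) hDC
  have hdef := le_antisymm (blockDefect_le_induced hM hind) hge
  obtain ⟨ξ₀, h₀, hmin₀, he₀⟩ := exists_min_degExp hM hind.1
  obtain ⟨χ₁, hχ₁, hmin₁, he₁⟩ := exists_min_degExp hM hB
  have hh1 : blockHeight p B (χ₁ : G → ℂ) = 0 := by rw [blockHeight_eq he₁, Nat.sub_self]
  have hN : p ^ (k + 1) ≠ 0 := pow_ne_zero _ hM.1.ne_zero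
  have hdvd : orderOf u ∣ p ^ (k + 1) := hk ▸ pow_dvd_pow _ (Nat.le_succ k)
  by_contra hcon
  push Not at hcon
  refine major_not_mem hM hx hind (K := k + 1) hdvd h₀ hmin₀ (by rw [← hdef, blockDefect_eq he₀]) hχ hχ₁ hh1 ?_
  have hsec : ∀ y, secVal p u b (χ : G → ℂ) y = 0 := fun y => by
    by_cases hy : p ∣ orderOf y
    · exact if_pos hy
    rw [secVal_eq_kernel hM hind.1 _ hy, Finset.sum_eq_zero, mul_zero]
    intro z _
    split_ifs with hz
    · rw [zero_mul]
    · rw [shiftFun, hcon z (by rwa [Subgroup.orderOf_coe]), zero_mul]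
  rw [aeval_contribPoly hM hN hdvd hmin₀, Finset.sum_eq_zero fun y _ => by rw [hsec, zero_mul], mul_zero, zero_div]
  exact memLocalIdeal_zero hM

variable {N : Subgroup G} [hN : N.Normal] [Fintype N] {b : Set (IrrCharacter N)}

/-- The linear character of `G` belonging to a character of the quotient. -/
noncomputable def quotLin (ψ : AddChar (Additive (G ⧸ N)) ℂ) : G →* ℂ where
  toFun g := ψ (Additive.ofMul (g : G ⧸ N))
  map_one' := by
    rw [QuotientGroup.mk_one, ofMul_one, AddChar.map_zero_eq_one]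
  map_mul' g h := by
    rw [QuotientGroup.mk_mul, ofMul_mul, AddChar.map_add_eq_mul]

theorem quotLin_coe (ψ : AddChar (Additive (G ⧸ N)) ℂ) (n : N) : quotLin ψ n = 1 := by
  show ψ (Additive.ofMul (((n : G)) : G ⧸ N)) = 1
  rw [(QuotientGroup.eq_one_iff (n : G)).2 n.2, ofMul_one, AddChar.map_zero_eq_one]

theorem quotLin_mul_self (hcomm : IsMulCommutative (G ⧸ N)) {f : G → ℂ} (c : IrrCharacter G)
    (hf : f = (c : G → ℂ)) (hne : ∀ ψ : AddChar (Additive (G ⧸ N)) ℂ,
      (fun g => quotLin ψ g * f g) = f → ψ = 1) :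
    classInner (fun n : N => f n) (fun n : N => f n) = 1 := by
  classical
  subst hf
  letI : CommGroup (G ⧸ N) := { (inferInstance : Group (G ⧸ N)) with mul_comm := hcomm.is_comm.comm }
  haveI := Fintype.ofFinite (G ⧸ N)
  have h1 : ∑ ψ : AddChar (Additive (G ⧸ N)) ℂ,
      classInner (fun g => quotLin ψ g * (c : G → ℂ) g) (c : G → ℂ) = 1 := by
    rw [Finset.sum_eq_single 1]
    · rw [show (fun g => quotLin (1 : AddChar (Additive (G ⧸ N)) ℂ) g * (c : G → ℂ) g) = (c : G → ℂ) from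
        funext fun g => by simp [quotLin]]
      exact classInner_self c.2
    · intro ψ _ hψ
      exact classInner_ne (isIrrCharacter_linear_mul c.2 _) c.2 fun h => hψ (hne ψ h)
    · simp
  simp only [classInner_eq] at h1 ⊢
  rw [← Finset.mul_sum, Finset.sum_comm] at h1
  have h2 : ∀ g : G, ∑ ψ : AddChar (Additive (G ⧸ N)) ℂ, quotLin ψ g * (c : G → ℂ) g * conj ((c : G → ℂ) g) =
      if g ∈ N then (N.index : ℂ) * ((c : G → ℂ) g * conj ((c : G → ℂ) g)) else 0 := by
    intro g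
    simp only [mul_assoc, ← Finset.sum_mul]
    rw [show ∑ ψ : AddChar (Additive (G ⧸ N)) ℂ, quotLin ψ g =
      ∑ ψ : AddChar (Additive (G ⧸ N)) ℂ, ψ (Additive.ofMul (g : G ⧸ N)) from rfl, AddChar.sum_apply_eq_ite]
    simp only [ofMul_eq_zero, QuotientGroup.eq_one_iff]
    split_ifs
    · rw [Fintype.card_eq_nat_card, Nat.card_congr Additive.toMul, Subgroup.index_eq_card]
    · simp
  rw [Finset.sum_congr rfl fun g _ => h2 g, ← Finset.sum_filter, ← Finset.mul_sum,
    Finset.sum_subtype (p := fun g => g ∈ N) _ (fun g => by simp) (fun g => (c : G → ℂ) g * conj ((c : G → ℂ) g))] at h1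
  rw [← h1, ← Subgroup.index_mul_card N, Nat.cast_mul]
  field_simp [Nat.cast_ne_zero.2 (Subgroup.index_ne_zero_of_finite (H := N)),
    Nat.cast_ne_zero.2 (Nat.card_pos (α := N)).ne']

/-- Stable blocks of a normal subgroup of `p`-power index below a block with abelian defect group. -/
theorem abelian_stable_cover (hM : IsPModular p M) (hidx : ∃ k : ℕ, N.index = p ^ k) (hb : IsPBlock M b)
    (hst : ∀ g : G, StabilizesBlock N b g) {B : Set (IrrCharacter G)} (hB : IsPBlock M B)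
    (hcov : ∃ χ ∈ B, ∃ θ ∈ b, classInner (fun n : N => (χ : G → ℂ) n) (θ : N → ℂ) ≠ 0) {P : Subgroup G}
    (hP : IsDefectGroup p M B P) (hPab : ∀ x ∈ P, ∀ y ∈ P, x * y = y * x) :
    N ⊔ P = ⊤ ∧ IsDefectGroup p M b ((P ⊓ N).subgroupOf N) ∧
      (∀ χ ∈ B, ∃ θ ∈ b, ∀ n : N, (χ : G → ℂ) n = (θ : N → ℂ) n) ∧
      (∀ θ ∈ b, Nat.card {χ : IrrCharacter G // χ ∈ B ∧ ∀ n : N, (χ : G → ℂ) n = (θ : N → ℂ) n} = N.index) ∧
      Nat.card B = N.index * Nat.card b ∧ blockRank p B = blockRank p b := by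
  classical
  haveI : Fintype (IrrCharacter G) := @Fintype.ofFinite _ finite_irrCharacter
  haveI : Fintype (IrrCharacter N) := @Fintype.ofFinite _ finite_irrCharacter
  obtain ⟨χ₁, hχ₁, θ₁, hθ₁, hne₁⟩ := hcov
  obtain ⟨B₀, hB₀, hB₀c⟩ := exists_block_above hM hidx hb hst
  have hBB : B = B₀ := by
    have e : blockElt B₀ = extElt N (blockElt b) := by
      ext g
      rw [coeff_blockElt, hB₀c, subgroupBlockCoeff]
      by_cases hg : g ∈ N
      · rw [dif_pos hg, coeff_extElt_mem N _ hg, coeff_blockElt]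
      · rw [dif_neg hg, coeff_extElt_of_notMem N _ hg]
    refine IsPBlock.eq_of_mem hM hB hB₀ hχ₁ ?_
    by_contra hn
    have h := omega_extElt_stable hst χ₁ hne₁
    rw [← e, omega_blockElt, if_neg hn, if_pos hθ₁] at h
    exact zero_ne_one h
  obtain ⟨hNP, hbD⟩ := defectGroup_above hM hidx hb hst hB (hBB ▸ hB₀c) hP
  have hsurj : ∀ q : G ⧸ N, ∃ u ∈ P, (u : G ⧸ N) = q := by
    intro q
    obtain ⟨g, rfl⟩ := QuotientGroup.mk_surjective q
    have hg : g ∈ ((N ⊔ P : Subgroup G) : Set G) := by rw [hNP]; trivial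
    rw [Subgroup.normal_mul] at hg
    obtain ⟨n, hn, u, hu, rfl⟩ := hg
    refine ⟨u, hu, ?_⟩
    show (u : G ⧸ N) = ((n * u : G) : G ⧸ N)
    rw [QuotientGroup.mk_mul, (QuotientGroup.eq_one_iff n).2 hn, one_mul]
  have hcomm : IsMulCommutative (G ⧸ N) := ⟨⟨fun a c => by
    obtain ⟨u, hu, rfl⟩ := hsurj a
    obtain ⟨v, hv, rfl⟩ := hsurj c
    rw [← QuotientGroup.mk_mul, ← QuotientGroup.mk_mul, hPab u hu v hv]⟩⟩
  have hregN : ∀ y : G, ¬ p ∣ orderOf y → y ∈ N := fun y hy => by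
    obtain ⟨k, hk⟩ := hidx
    rw [← QuotientGroup.eq_one_iff, ← orderOf_eq_one_iff]
    refine Nat.dvd_one.1 ?_
    rw [← ((hM.1.coprime_iff_not_dvd.2 hy).pow_left k)]
    refine Nat.dvd_gcd ?_ (orderOf_map_dvd (QuotientGroup.mk' N) y)
    rw [← hk, Subgroup.index_eq_card]
    exact orderOf_dvd_natCard _
  letI : CommGroup (G ⧸ N) := { (inferInstance : Group (G ⧸ N)) with mul_comm := hcomm.is_comm.comm }
  haveI := Fintype.ofFinite (G ⧸ N)
  have hsep : ∀ χ ∈ B, ∀ ψ φ : AddChar (Additive (G ⧸ N)) ℂ,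
      (fun g => quotLin ψ g * (χ : G → ℂ) g) = (fun g => quotLin φ g * (χ : G → ℂ) g) → ψ = φ := by
    intro χ hχ ψ φ h
    ext q
    obtain ⟨u, hu, hq⟩ := hsurj q.toMul
    obtain ⟨y, hy, hne⟩ := exists_section_apply_ne_zero hM hB hP hu (fun d hd => hPab d hd u hu) hχ
    have h1 := mul_right_cancel₀ hne (congrFun h (u * y))
    rw [map_mul, map_mul, quotLin_coe ψ ⟨y, hregN y hy⟩, quotLin_coe φ ⟨y, hregN y hy⟩, mul_one, mul_one] at h1
    have h2 : ψ (Additive.ofMul (u : G ⧸ N)) = φ (Additive.ofMul (u : G ⧸ N)) := h1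
    rwa [hq] at h2
  have hirr : ∀ χ ∈ B, IsIrrCharacter N (fun n : N => (χ : G → ℂ) n) := fun χ hχ =>
    isIrr_of_norm_one (CharBasics.isCharacter_restrict (isCharacter_of_irr χ.2) N)
      (quotLin_mul_self hcomm χ rfl fun ψ h => hsep χ hχ ψ 1 (by
        rw [h]; funext g; simp [quotLin]))
  have hres : ∀ χ ∈ B, ∃ θ ∈ b, ∀ n : N, (χ : G → ℂ) n = (θ : N → ℂ) n := by
    intro χ hχ
    obtain ⟨θ, hθ, hne⟩ := exists_constituent_mem_block hM hb hB hχ₁ hθ₁ hne₁ hχ
    refine ⟨θ, hθ, fun n => ?_⟩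
    have : (θ : N → ℂ) = fun n : N => (χ : G → ℂ) n := by
      by_contra hd
      exact hne (classInner_ne (hirr χ hχ) θ.2 fun h => hd h.symm)
    rw [this]
  have hover : ∀ θ ∈ b, ∀ χ : IrrCharacter G,
      classInner (fun n : N => (χ : G → ℂ) n) (θ : N → ℂ) ≠ 0 → χ ∈ B := fun θ hθ χ hne =>
    (IsPBlock.mem_iff hM hB hχ₁).2
      (sameBlock_of_constituents hM hidx ((IsPBlock.mem_iff hM hb hθ₁).1 hθ) hne₁ hne)
  have hfib : ∀ θ ∈ b,
      Nat.card {χ : IrrCharacter G // χ ∈ B ∧ ∀ n : N, (χ : G → ℂ) n = (θ : N → ℂ) n} = N.index := by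
    intro θ hθ
    obtain ⟨χ₀, hχ₀⟩ := exists_over_character (G := G) θ
    have hmem := hover θ hθ χ₀ hχ₀
    obtain ⟨θ', -, heq⟩ := hres χ₀ hmem
    have hθ' : θ' = θ := by
      by_contra hd
      refine hχ₀ ?_
      rw [show (fun n : N => (χ₀ : G → ℂ) n) = (θ' : N → ℂ) from funext heq]
      exact classInner_ne θ'.2 θ.2 fun h => hd (Subtype.ext h)
    subst hθ'
    have key : ∀ ψ : AddChar (Additive (G ⧸ N)) ℂ, ∀ n : N,
        quotLin ψ (n : G) * (χ₀ : G → ℂ) n = (θ' : N → ℂ) n := fun ψ n => by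
      rw [quotLin_coe, one_mul, heq]
    let f : AddChar (Additive (G ⧸ N)) ℂ →
        {χ : IrrCharacter G // χ ∈ B ∧ ∀ n : N, (χ : G → ℂ) n = (θ' : N → ℂ) n} := fun ψ =>
      ⟨⟨fun g => quotLin ψ g * (χ₀ : G → ℂ) g, isIrrCharacter_linear_mul χ₀.2 _⟩, hover θ' hθ _ (by
        rw [show (fun n : N => quotLin ψ (n : G) * (χ₀ : G → ℂ) n) = (θ' : N → ℂ) from funext (key ψ),
          classInner_self θ'.2]
        exact one_ne_zero), key ψ⟩
    have hf : Function.Bijective f := by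
      refine ⟨fun ψ φ h => hsep χ₀ hmem ψ φ (congrArg (fun x => (x.1 : G → ℂ)) h), fun χ => ?_⟩
      obtain ⟨l, hl, hχl⟩ := extension_eq_linear_mul θ'.2 χ₀.2 heq χ.1.2 χ.2.2
      let lq : G ⧸ N →* ℂ := QuotientGroup.lift N l fun n hn => hl ⟨n, hn⟩
      refine ⟨⟨fun a => lq a.toMul, by simp, fun a c => by simp⟩, Subtype.ext (Subtype.ext ?_)⟩
      rw [hχl]
      rfl
    rw [← Nat.card_congr (Equiv.ofBijective f hf), Nat.card_eq_fintype_card, AddChar.card_eq,
      Fintype.card_eq_nat_card, Nat.card_congr Additive.toMul, Subgroup.index_eq_card]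
  choose r hr hrn using fun χ : B => hres χ.1 χ.2
  refine ⟨hNP, hbD, hres, hfib, ?_, ?_⟩
  · rw [← Nat.card_congr (Equiv.sigmaFiberEquiv fun χ : B => (⟨r χ, hr χ⟩ : b)), Nat.card_sigma,
      Finset.sum_congr rfl (g := fun _ => N.index) fun θ _ => ?_, Finset.sum_const, Finset.card_univ,
      smul_eq_mul, mul_comm, Nat.card_eq_fintype_card (α := b)]
    rw [← hfib θ θ.2]
    refine Nat.card_congr
      { toFun := fun χ => ⟨χ.1.1, χ.1.2, fun n => by
          rw [hrn χ.1 n, show r χ.1 = θ.1 from congrArg Subtype.val χ.2]⟩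
        invFun := fun χ => ⟨⟨χ.1, χ.2.1⟩, Subtype.ext (Subtype.ext (funext fun n =>
          (hrn ⟨χ.1, χ.2.1⟩ n).symm.trans (χ.2.2 n)))⟩
        left_inv := fun χ => rfl
        right_inv := fun χ => rfl }
  · let L : (G → ℂ) →ₗ[ℂ] (N → ℂ) := LinearMap.funLeft ℂ ℂ (fun n : N => (n : G))
    have hL : ∀ χ : IrrCharacter G, ∀ θ : IrrCharacter N, (∀ n : N, (χ : G → ℂ) n = (θ : N → ℂ) n) →
        L (pRegularPart p (χ : G → ℂ)) = pRegularPart p (θ : N → ℂ) := fun χ θ h => funext fun n => by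
      show pRegularPart p (χ : G → ℂ) n = _
      simp only [pRegularPart_eq, Subgroup.orderOf_coe, h]
    set W := Submodule.span ℂ ((fun χ : IrrCharacter G => pRegularPart p (χ : G → ℂ)) '' B) with hW
    have himg : W.map L = Submodule.span ℂ ((fun θ : IrrCharacter N => pRegularPart p (θ : N → ℂ)) '' b) := by
      rw [hW, Submodule.map_span]
      congr 1
      ext v
      constructor
      · rintro ⟨_, ⟨χ, hχ, rfl⟩, rfl⟩
        obtain ⟨θ, hθ, h⟩ := hres χ hχ
        exact ⟨θ, hθ, (hL χ θ h).symm⟩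
      · rintro ⟨θ, hθ, rfl⟩
        obtain ⟨χ₀, hχ₀⟩ := exists_over_character (G := G) θ
        obtain ⟨θ', -, h⟩ := hres χ₀ (hover θ hθ χ₀ hχ₀)
        have hθ' : θ' = θ := by
          by_contra hd
          refine hχ₀ ?_
          rw [show (fun n : N => (χ₀ : G → ℂ) n) = (θ' : N → ℂ) from funext h]
          exact classInner_ne θ'.2 θ.2 fun h' => hd (Subtype.ext h')
        exact ⟨_, ⟨χ₀, hover θ hθ χ₀ hχ₀, rfl⟩, hθ' ▸ hL χ₀ θ' h⟩
    have hvan : ∀ v ∈ W, ∀ g : G, g ∉ N → v g = 0 := by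
      intro v hv
      induction hv using Submodule.span_induction with
      | mem v hv =>
        obtain ⟨χ, -, rfl⟩ := hv
        intro g hg
        simp only [pRegularPart_apply]
        rw [if_pos (by_contra fun h => hg (hregN g h))]
      | zero => exact fun g _ => rfl
      | add v w _ _ h1 h2 => intro g hg; rw [Pi.add_apply, h1 g hg, h2 g hg, add_zero]
      | smul c v _ h1 => intro g hg; rw [Pi.smul_apply, h1 g hg, smul_zero]
    rw [blockRank, blockRank, ← hW, ← himg, ← LinearMap.range_domRestrict]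
    refine (LinearMap.finrank_range_of_inj fun v w h => Subtype.ext (funext fun g => ?_)).symm
    by_cases hg : g ∈ N
    · exact congrFun h ⟨g, hg⟩
    · rw [hvan v v.2 g hg, hvan w w.2 g hg]

end CfsgLib.Blocks
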