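import Cfsg.Agent.Blocks.HeightZero

/-!
# The exact `p`-part of the sum of the squares of the degrees in a block

For a member `θ` of height zero the combination `A χ(1) - B ⟨χ, θ⟩°` is divisible by `p` beyond the degrees, and
it is the multiplicity vector of a class function vanishing on the `p`-singular elements.
-/

set_option linter.unusedSectionVars false
set_option linter.style.haveILetI false

namespace CfsgLib.Blocks

open Cfsg CfsgLib.CharBasics
open scoped ComplexConjugate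

variable {G : Type*} [Group G] [Fintype G] {p : ℕ} {M : Ideal AlgInt}

/-- An integral combination of characters vanishing on the `p`-singular elements has degree divisible by the
`p`-part of the group order. -/
theorem pow_dvd_degree_of_vanish (hp : p.Prime) [Fintype (IrrCharacter G)] (n : IrrCharacter G → ℤ)
    (hv : ∀ g : G, p ∣ orderOf g → ∑ χ : IrrCharacter G, (n χ : ℂ) * (χ : G → ℂ) g = 0) :
    (p : ℤ) ^ (Nat.card G).factorization p ∣ ∑ χ : IrrCharacter G, n χ * (charDegree (χ : G → ℂ) : ℤ) := by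
  classical
  haveI := Fact.mk hp
  obtain ⟨P⟩ : Nonempty (Sylow p G) := inferInstance
  haveI : Fintype (P : Subgroup G) := Fintype.ofFinite _
  have hnat : ∀ χ : IrrCharacter G, ∃ k : ℕ, classInner (fun s : (P : Subgroup G) => (χ : G → ℂ) s)
      ((oneChar : IrrCharacter ↥(P : Subgroup G)) : ↥(P : Subgroup G) → ℂ) = k := fun χ =>
    classInner_character_nat (isCharacter_restrict (isCharacter_of_irr χ.2) _) _
  choose k hk using hnat
  refine ⟨∑ χ : IrrCharacter G, n χ * k χ, ?_⟩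
  have hS : (Nat.card (P : Subgroup G) : ℂ) ≠ 0 := Nat.cast_ne_zero.2 Nat.card_pos.ne'
  have h1 : ∀ χ : IrrCharacter G, ∑ s : (P : Subgroup G), (χ : G → ℂ) s = (Nat.card (P : Subgroup G) : ℂ) * k χ := by
    intro χ
    rw [← hk, show ((oneChar : IrrCharacter ↥(P : Subgroup G)) : ↥(P : Subgroup G) → ℂ) = fun _ => 1 from rfl,
      classInner_one, mul_inv_cancel_left₀ hS]
  have h2 : ∑ χ : IrrCharacter G, (n χ : ℂ) * ∑ s : (P : Subgroup G), (χ : G → ℂ) s =
      ∑ χ : IrrCharacter G, (n χ : ℂ) * (χ : G → ℂ) 1 := by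
    simp only [Finset.mul_sum]
    rw [Finset.sum_comm, Finset.sum_eq_single (1 : (P : Subgroup G))]
    · simp
    · intro s _ hs
      refine hv _ ?_
      obtain ⟨j, hj⟩ := IsPGroup.iff_orderOf.1 P.2 s
      rw [Subgroup.orderOf_coe, hj]
      refine dvd_pow_self p fun h0 => hs ?_
      rw [← orderOf_eq_one_iff, hj, h0, pow_zero]
    · simp
  rw [P.card_eq_multiplicity] at h1
  have h3 : ((∑ χ : IrrCharacter G, n χ * (charDegree (χ : G → ℂ) : ℤ) : ℤ) : ℂ) =
      (((p : ℤ) ^ (Nat.card G).factorization p * ∑ χ : IrrCharacter G, n χ * k χ : ℤ) : ℂ) := by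
    push_cast
    rw [Finset.mul_sum]
    calc ∑ χ : IrrCharacter G, (n χ : ℂ) * (charDegree (χ : G → ℂ) : ℂ)
        = ∑ χ : IrrCharacter G, (n χ : ℂ) * (χ : G → ℂ) 1 :=
          Finset.sum_congr rfl fun χ _ => by rw [apply_one (isCharacter_of_irr χ.2)]
      _ = ∑ χ : IrrCharacter G, (n χ : ℂ) * ∑ s : (P : Subgroup G), (χ : G → ℂ) s := h2.symm
      _ = _ := Finset.sum_congr rfl fun χ _ => by rw [h1]; push_cast; ring
  exact_mod_cast h3

/-- The `p`-part of the sum of the squares of the degrees of a block. -/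
theorem exists_sum_sq_degree (hM : IsPModular p M) {B : Set (IrrCharacter G)} (hB : IsPBlock M B) :
    ∃ k : ℕ, ¬ p ∣ k ∧ ∑ᶠ χ ∈ B, charDegree (χ : G → ℂ) ^ 2 =
      p ^ (2 * (Nat.card G).factorization p - blockDefect p B) * k := by
  classical
  haveI : Fintype (IrrCharacter G) := @Fintype.ofFinite _ finite_irrCharacter
  have hp := hM.1
  obtain ⟨θ, hθ, hmin, hs⟩ := exists_min_degExp hM hB
  set a := (Nat.card G).factorization p with ha
  set e := degExp p θ with he
  set z : IrrCharacter G → ℤ := fun χ => regInt p (θ : G → ℂ) (χ : G → ℂ) with hz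
  set δ : IrrCharacter G → ℤ := fun χ => if χ ∈ B then (charDegree (χ : G → ℂ) : ℤ) else 0 with hδ
  have hea : e ≤ a := degExp_le hp θ
  have hexp : 2 * a - blockDefect p B = a + e := by
    rw [blockDefect_eq hs]; omega
  -- the congruence
  have hcong : ∀ χ, (p : ℤ) ^ (2 * e + 1) ∣ z θ * δ χ - (charDegree (θ : G → ℂ) : ℤ) * z χ := by
    intro χ
    by_cases hχ : χ ∈ B
    · have h0 := omega_sub_mem_of_sameBlock hM ((IsPBlock.mem_iff hM hB hθ).1 hχ)
        (isClassElt_regElt (p := p) (isCharacter_of_irr θ.2)) (isIntegralElt_regElt hM (isCharacter_of_irr θ.2))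
      rw [omega_regElt, omega_regElt, regSum_eq_regInt hp (isCharacter_of_irr θ.2) (isCharacter_of_irr θ.2),
        regSum_eq_regInt hp (isCharacter_of_irr χ.2) (isCharacter_of_irr θ.2), regInt_comm hp χ θ] at h0
      set m := Nat.card G / p ^ (Nat.card G).factorization p with hm
      obtain ⟨c, c', hc, hc1, hcm, hc'⟩ := exists_degree_eq (p := p) hp χ
      obtain ⟨d, d', hd, hd1, hdm, hd'⟩ := exists_degree_eq (p := p) hp θ
      have hmne : (m : ℂ) ≠ 0 := ordCompl_ne_zero_cast (G := G) p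
      obtain ⟨w, hw⟩ : ∃ w : ℤ, w = z θ * δ χ - (charDegree (θ : G → ℂ) : ℤ) * z χ := ⟨_, rfl⟩
      rw [← hw]
      have hwC : (w : ℂ) / (p : ℂ) ^ (2 * e) =
          ((p : ℂ) ^ (degExp p χ - e) * (c * d) / m) *
            ((z θ : ℂ) * m / (θ : G → ℂ) 1 - (z χ : ℂ) * m / (χ : G → ℂ) 1) := by
        rw [hw]
        simp only [hδ, if_pos hχ]
        push_cast
        rw [← apply_one (isCharacter_of_irr θ.2), ← apply_one (isCharacter_of_irr χ.2), hc1, hd1,
          show degExp p χ = (degExp p χ - e) + e by have := hmin χ hχ; omega, pow_add, Nat.add_sub_cancel]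
        have hc0 : (c : ℂ) ≠ 0 := Nat.cast_ne_zero.2 fun h => hc (h ▸ dvd_zero p)
        have hd0 : (d : ℂ) ≠ 0 := Nat.cast_ne_zero.2 fun h => hd (h ▸ dvd_zero p)
        have hp0 : (p : ℂ) ≠ 0 := Nat.cast_ne_zero.2 hp.ne_zero
        field_simp
        ring
      have hin : MemLocalIdeal M ((w : ℂ) / (p : ℂ) ^ (2 * e)) := by
        rw [hwC]
        refine memLocalIdeal_mul_left hM ?_ h0
        rw [div_eq_mul_inv]
        exact memLocalRing_mul hM (memLocalRing_mul hM (memLocalRing_pow hM (memLocalRing_natCast hM p) _)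
          (memLocalRing_mul hM (memLocalRing_natCast hM c) (memLocalRing_natCast hM d)))
          (memLocalRing_natCast_inv hM (Nat.not_dvd_ordCompl hp Nat.card_pos.ne'))
      obtain ⟨u, hu⟩ := pow_dvd_of_memLocalRing hM _ _ (memLocalRing_of_memLocalIdeal hin)
      have hu' : MemLocalIdeal M (u : ℂ) := by
        convert hin using 1
        rw [hu]; push_cast
        rw [mul_div_cancel_left₀ _ (pow_ne_zero _ (Nat.cast_ne_zero.2 hp.ne_zero))]
      obtain ⟨v, hv⟩ := (memLocalIdeal_intCast_iff hM u).1 hu'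
      exact ⟨v, by rw [hu, hv]; ring⟩
    · simp only [hδ, if_neg hχ, hz, regInt_eq_zero_of_notMem hM hB hθ hχ]
      simp
  choose r hr using hcong
  -- the class function with multiplicities `r` vanishes on singular elements
  have hm0 : ((Nat.card G / p ^ (Nat.card G).factorization p : ℕ) : ℂ) ≠ 0 := ordCompl_ne_zero_cast (G := G) p
  have hG0 : (Nat.card G : ℂ) ≠ 0 := Nat.cast_ne_zero.2 Nat.card_pos.ne'
  have hcut : ∀ g : G, (Nat.card G : ℂ)⁻¹ * ((Nat.card G / p ^ (Nat.card G).factorization p : ℕ) : ℂ) *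
      ∑ χ : IrrCharacter G, (z χ : ℂ) * (χ : G → ℂ) g = if p ∣ orderOf g then 0 else (θ : G → ℂ) g := by
    intro g
    have hcl : IsClassFunction G (fun x => if p ∣ orderOf x then 0 else (θ : G → ℂ) x) := fun x h => by
      have e : orderOf (h * x * h⁻¹) = orderOf x :=
        orderOf_injective (MulAut.conj h).toMonoidHom (MulAut.conj h).injective x
      simp only [e, isClassFunction (isCharacter_of_irr θ.2) x h]
    conv_rhs => rw [show (if p ∣ orderOf g then 0 else (θ : G → ℂ) g) =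
      (fun x => if p ∣ orderOf x then 0 else (θ : G → ℂ) x) g from rfl, classFun_expand hcl]
    rw [Finset.sum_apply, Finset.mul_sum]
    refine Finset.sum_congr rfl fun χ _ => ?_
    rw [Pi.smul_apply, smul_eq_mul, regSum_eq_classInner,
      regSum_eq_regInt hp (isCharacter_of_irr θ.2) (isCharacter_of_irr χ.2)]
    ring
  have hδC : ∀ g : G, ∑ χ : IrrCharacter G, (δ χ : ℂ) * (χ : G → ℂ) g =
      ∑ᶠ χ ∈ B, (χ : G → ℂ) g * conj ((χ : G → ℂ) 1) := fun g => by
    rw [finsum_mem_def, finsum_eq_sum_of_fintype]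
    refine Finset.sum_congr rfl fun χ _ => ?_
    simp only [Set.indicator_apply, hδ]
    split_ifs
    · push_cast
      rw [apply_one (isCharacter_of_irr χ.2), Complex.conj_natCast, mul_comm]
    · simp
  have hrv : ∀ g : G, p ∣ orderOf g → ∑ χ : IrrCharacter G, (r χ : ℂ) * (χ : G → ℂ) g = 0 := by
    intro g hg
    have h1 := hcut g
    rw [if_pos hg, mul_eq_zero] at h1
    have h1' := h1.resolve_left (mul_ne_zero (inv_ne_zero hG0) hm0)
    have h2 : ∑ χ : IrrCharacter G, (δ χ : ℂ) * (χ : G → ℂ) g = 0 := by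
      rw [hδC]; exact weak_block_orth' hM hB (by rw [orderOf_one]; exact hp.not_dvd_one) hg
    refine (mul_eq_zero.1 (?_ : (p : ℂ) ^ (2 * e + 1) * _ = 0)).resolve_left
      (pow_ne_zero _ (Nat.cast_ne_zero.2 hp.ne_zero))
    rw [Finset.mul_sum]
    calc ∑ χ : IrrCharacter G, (p : ℂ) ^ (2 * e + 1) * ((r χ : ℂ) * (χ : G → ℂ) g)
        = ∑ χ : IrrCharacter G, ((z θ : ℂ) * (δ χ : ℂ) - (charDegree (θ : G → ℂ) : ℂ) * (z χ : ℂ)) * (χ : G → ℂ) g := by
          refine Finset.sum_congr rfl fun χ _ => ?_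
          have := congrArg (fun t : ℤ => (t : ℂ)) (hr χ)
          push_cast at this
          rw [this]; ring
      _ = 0 := by
          simp only [sub_mul, Finset.sum_sub_distrib, mul_assoc, ← Finset.mul_sum, h1', h2, mul_zero, sub_zero]
  obtain ⟨k₀, hk₀⟩ := pow_dvd_degree_of_vanish hp r hrv
  -- the degree of the cut function
  have hzdeg : ∑ χ : IrrCharacter G, z χ * (charDegree (χ : G → ℂ) : ℤ) =
      (p : ℤ) ^ a * (charDegree (θ : G → ℂ) : ℤ) := by
    have h1 := hcut 1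
    rw [if_neg (by rw [orderOf_one]; exact hp.not_dvd_one)] at h1
    have h2 : ((∑ χ : IrrCharacter G, z χ * (charDegree (χ : G → ℂ) : ℤ) : ℤ) : ℂ) =
        (((p : ℤ) ^ a * (charDegree (θ : G → ℂ) : ℤ) : ℤ) : ℂ) := by
      push_cast
      simp only [← apply_one (isCharacter_of_irr (Subtype.prop _))]
      rw [← h1, ← Nat.cast_pow]
      rw [show (Nat.card G : ℂ) = ((p ^ a : ℕ) : ℂ) * ((Nat.card G / p ^ (Nat.card G).factorization p : ℕ) : ℂ) by
        rw [← Nat.cast_mul, Nat.ordProj_mul_ordCompl_eq_self]]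
      have : ((p ^ a : ℕ) : ℂ) ≠ 0 := Nat.cast_ne_zero.2 (pow_ne_zero _ hp.ne_zero)
      field_simp
    exact_mod_cast h2
  obtain ⟨A, hA⟩ : (p : ℤ) ^ e ∣ z θ := pow_dvd_regInt hM θ θ
  have hAp : ¬ (p : ℤ) ∣ A := fun h => regInt_self_not_dvd hM hB hθ hmin (by
    show (p : ℤ) ^ (e + 1) ∣ z θ
    rw [hA, pow_succ]; exact mul_dvd_mul_left _ h)
  obtain ⟨c, hc⟩ : p ^ e ∣ charDegree (θ : G → ℂ) := Nat.ordProj_dvd _ _
  have hcp : ¬ p ∣ c := fun h => Nat.pow_succ_factorization_not_dvd (charDegree_pos θ.2).ne' hp (by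
    show p ^ (e + 1) ∣ _
    rw [hc, pow_succ]; exact mul_dvd_mul_left _ h)
  have hsum : ((∑ᶠ χ ∈ B, charDegree (χ : G → ℂ) ^ 2 : ℕ) : ℤ) =
      ∑ χ : IrrCharacter G, δ χ * (charDegree (χ : G → ℂ) : ℤ) := by
    rw [finsum_mem_def, finsum_eq_sum_of_fintype, Nat.cast_sum]
    refine Finset.sum_congr rfl fun χ _ => ?_
    simp only [Set.indicator_apply, hδ]
    split_ifs <;> push_cast <;> ring
  set S₂ := ∑ᶠ χ ∈ B, charDegree (χ : G → ℂ) ^ 2 with hS₂
  have hkey : A * (S₂ : ℤ) = (p : ℤ) ^ (a + e) * ((c : ℤ) ^ 2 + p * k₀) := by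
    refine mul_left_cancel₀ (pow_ne_zero e (Int.natCast_ne_zero.2 hp.ne_zero)) ?_
    rw [← mul_assoc, ← hA, hsum, Finset.mul_sum]
    calc ∑ χ : IrrCharacter G, z θ * (δ χ * (charDegree (χ : G → ℂ) : ℤ))
        = ∑ χ : IrrCharacter G, ((p : ℤ) ^ (2 * e + 1) * (r χ * (charDegree (χ : G → ℂ) : ℤ)) +
            (charDegree (θ : G → ℂ) : ℤ) * (z χ * (charDegree (χ : G → ℂ) : ℤ))) := by
          refine Finset.sum_congr rfl fun χ _ => ?_
          linear_combination (charDegree (χ : G → ℂ) : ℤ) * hr χ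
      _ = _ := by
          rw [Finset.sum_add_distrib, ← Finset.mul_sum, ← Finset.mul_sum, hk₀, hzdeg, hc]
          push_cast
          ring
  have hcop : IsCoprime ((p : ℤ) ^ (a + e)) A :=
    (((Nat.prime_iff_prime_int.1 hp).coprime_iff_not_dvd).2 hAp).pow_left
  obtain ⟨k, hk⟩ := hcop.dvd_of_dvd_mul_left ⟨_, hkey⟩
  have hpk : ¬ (p : ℤ) ∣ k := by
    intro h
    rw [hk] at hkey
    have h2 : A * k = (c : ℤ) ^ 2 + p * k₀ :=
      mul_left_cancel₀ (pow_ne_zero (a + e) (Int.natCast_ne_zero.2 hp.ne_zero)) (by linear_combination hkey)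
    have h3 : (p : ℤ) ∣ (c : ℤ) ^ 2 := (dvd_add_left (dvd_mul_right _ _)).1 (h2 ▸ h.mul_left A)
    exact hcp (Int.natCast_dvd_natCast.1 ((Nat.prime_iff_prime_int.1 hp).dvd_of_dvd_pow h3))
  have hk0 : 0 ≤ k := by
    have := Int.natCast_nonneg S₂
    rw [hk] at this
    exact nonneg_of_mul_nonneg_right this (pow_pos (by exact_mod_cast hp.pos) _)
  obtain ⟨k', rfl⟩ := Int.eq_ofNat_of_zero_le hk0
  refine ⟨k', fun h => hpk (Int.natCast_dvd_natCast.2 h), ?_⟩
  rw [hexp]
  exact_mod_cast hk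

end CfsgLib.Blocks
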