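import Cfsg.Agent.Blocks.NilBlock.Contrib
import Cfsg.Agent.Blocks.Star.Action
import Cfsg.Agent.Blocks.InertialIndex
import Cfsg.Agent.Blocks.Major

/-!
# Heights against the center of a defect group

The contributions of a character to the subsections at the central elements of a defect group are
bounded by the inertial index times the order of the defect group, and each is divisible by the
`p`-part belonging to the height.
-/

set_option autoImplicit false
set_option linter.unusedSectionVars false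
set_option linter.style.haveILetI false

namespace CfsgLib.CentralHeight

open Cfsg CfsgLib CfsgLib.Blocks CfsgLib.CharBasics CfsgLib.PairAlg CfsgLib.NilBlock Polynomial
open scoped ComplexConjugate

attribute [local instance] residueField residue_charP

universe u

variable {p : ℕ} [Fact p.Prime] {M : Ideal AlgInt} {G : Type u} [Group G] [Fintype G]

noncomputable local instance instFintypeSubgroupCentralHeight (K : Subgroup G) : Fintype K := Fintype.ofFinite K

/-- The multiplicities at all prime-to-order powers. -/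
theorem aeval_shiftPoly_pow {x : G} (χ : IrrCharacter G) (ξ : IrrCharacter (cen x)) {j : ℕ}
    (hj : j.Coprime (orderOf x)) :
    aeval (zetaRoot (orderOf x) ^ j) (shiftPoly x χ ξ) =
      classInner (fun c : cen x => (χ : G → ℂ) (x ^ j * c)) (ξ : cen x → ℂ) := by
  classical
  have hN : orderOf x ≠ 0 := (orderOf_pos x).ne'
  haveI : NeZero (orderOf x) := ⟨hN⟩
  obtain ⟨r, f, hf, hs⟩ := exists_decomp (CfsgLib.CharBasics.isCharacter_restrict (isCharacter_of_irr χ.2) (cen x))
  set x' : cen x := ⟨x, Subgroup.mem_centralizer_singleton_iff.2 rfl⟩ with hx'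
  have hxz : x' ∈ Subgroup.center (cen x) :=
    Subgroup.mem_center_iff.2 fun c => Subtype.ext (Subgroup.mem_centralizer_singleton_iff.1 c.2)
  set ε := fun i => f i x' / f i 1 with hε
  have hmul : ∀ i c, f i (x' * c) = ε i * f i c := fun i c => by
    have h := center_mul (hf i) hxz c
    rw [hε]
    field_simp [apply_one_ne_zero (hf i)]
    linear_combination h
  have hpw : ∀ i (m : ℕ) c, f i (x' ^ m * c) = ε i ^ m * f i c := by
    intro i m c
    induction m with
    | zero => simp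
    | succ m ih => rw [pow_succ', mul_assoc, hmul, ih, pow_succ']; ring
  have hroot : ∀ i, ∃ e < orderOf x, zetaRoot (orderOf x) ^ e = ε i := fun i => by
    refine (zetaRoot_prim hN).eq_pow_of_pow_eq_one ?_
    have h1 := hpw i (orderOf x) 1
    rw [show x' ^ orderOf x = 1 from Subtype.ext (by simp [hx', pow_orderOf_eq_one]), one_mul] at h1
    exact (mul_eq_right₀ (apply_one_ne_zero (hf i))).1 h1.symm
  choose e he hee using hroot
  set A : ℤ[X] := ∑ i, if (⟨f i, hf i⟩ : IrrCharacter (cen x)) = ξ then X ^ e i else 0 with hA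
  have hAval : ∀ m : ℕ, aeval (zetaRoot (orderOf x) ^ m) A =
      classInner (fun c : cen x => (χ : G → ℂ) (x ^ m * c)) (ξ : cen x → ℂ) := by
    intro m
    have hshift : (fun c : cen x => (χ : G → ℂ) (x ^ m * c)) = ∑ i, ε i ^ m • f i := by
      funext c
      have h := congrFun hs (x' ^ m * c)
      simp only [Finset.sum_apply] at h ⊢
      simp only [Pi.smul_apply, smul_eq_mul]
      rw [← Finset.sum_congr rfl (fun i _ => hpw i m c)]
      exact h
    rw [hA, map_sum, hshift, classInner_sum_left]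
    refine Finset.sum_congr rfl fun i _ => ?_
    rw [classInner_smul_left, classInner_irr ⟨f i, hf i⟩ ξ]
    split_ifs <;> simp [← hee i, ← pow_mul, mul_comm]
  have h0 : aeval (zetaRoot (orderOf x)) (A - shiftPoly x χ ξ) = 0 := by
    rw [map_sub, aeval_shiftPoly]
    have := hAval 1
    rw [pow_one, pow_one] at this
    rw [this, sub_eq_zero]
    rfl
  have h1 := aeval_conjugate_eq_zero hN h0 hj
  rw [map_sub, sub_eq_zero, hAval] at h1
  exact h1.symm

/-- The contributions at a power of `x`, from the values on the block of the centralizer of `x`. -/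
theorem aeval_contribPoly_pow (hM : IsPModular p M) {x : G} {b : Set (IrrCharacter (cen x))}
    {ξ₀ : IrrCharacter (cen x)} {N : ℕ} (hN : N ≠ 0) (hxN : orderOf x ∣ N)
    (hmin₀ : ∀ ρ ∈ b, degExp p ξ₀ ≤ degExp p ρ) {j : ℕ} (hj : j.Coprime N) (χ : IrrCharacter G) :
    aeval (zetaRoot N ^ j) (contribPoly p N x b (degExp p ξ₀) χ χ) =
      (p : ℂ) ^ ((Nat.card (cen x)).factorization p - degExp p ξ₀) / (Nat.card (cen x) : ℂ) *
        KS p (x ^ j) (coef x b) (χ : G → ℂ) (χ : G → ℂ) := by
  classical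
  haveI : Fintype (IrrCharacter (cen x)) := @Fintype.ofFinite _ finite_irrCharacter
  have hjo : j.Coprime (orderOf x) := Nat.Coprime.coprime_dvd_right hxN hj
  set φ : cen x → ℂ := fun c => (χ : G → ℂ) (x ^ j * c) with hφ
  have hcomm : ∀ y : G, Commute (x ^ j) y ↔ Commute x y := by
    intro y
    refine ⟨fun h => ?_, fun h => h.pow_left j⟩
    obtain ⟨m, hm⟩ := exists_pow_eq_self_of_coprime hjo
    rw [← hm]; exact h.pow_left m
  have hφc : IsClassFunction (cen x) φ := by
    intro w d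
    have hd : (d : G) * x ^ j = x ^ j * d :=
      ((Commute.symm (Subgroup.mem_centralizer_singleton_iff.1 d.2 : Commute (d : G) x)).pow_left j).symm.eq
    show (χ : G → ℂ) (x ^ j * ((d * w * d⁻¹ : cen x) : G)) = (χ : G → ℂ) (x ^ j * (w : G))
    rw [show x ^ j * ((d * w * d⁻¹ : cen x) : G) = (d : G) * (x ^ j * w) * (d : G)⁻¹ by
      simp only [Subgroup.coe_mul, Subgroup.coe_inv, ← mul_assoc, hd]]
    exact isClassFunction (isCharacter_of_irr χ.2) _ _
  set s : cen x → ℂ := fun y => if p ∣ orderOf y then 0 else blockPart b φ y with hs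
  have hSV : ∀ y : cen x, SV p (x ^ j) (coef x b) (χ : G → ℂ) y = s y := by
    intro y
    have hc : Commute (x ^ j) (y : G) :=
      (hcomm _).2 (Subgroup.mem_centralizer_singleton_iff.1 y.2 : Commute (y : G) x).symm
    rw [hs, SV, Subgroup.orderOf_coe]
    refine if_congr (by simp [hc]) rfl ?_
    rw [← ZStar.sum_blockCoeff_mul b hφc y,
      ← Finset.sum_subset (Finset.subset_univ (Finset.univ.map ⟨fun k : cen x => (k : G), Subtype.val_injective⟩))
        (fun h _ hh => by
          rw [coef, subgroupBlockCoeff, dif_neg, zero_mul]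
          exact fun hm => hh (Finset.mem_map.2 ⟨⟨h, hm⟩, Finset.mem_univ _, rfl⟩)), Finset.sum_map]
    refine Finset.sum_congr rfl fun k _ => ?_
    simp [coef, subgroupBlockCoeff, hφ, mul_assoc]
  have hKS : KS p (x ^ j) (coef x b) (χ : G → ℂ) (χ : G → ℂ) = ∑ y : cen x, s y * conj (s y) := by
    rw [KS, ← Finset.sum_subset (Finset.subset_univ (Finset.univ.map ⟨fun k : cen x => (k : G), Subtype.val_injective⟩))
        (fun h _ hh => by
          rw [SV_of_not (Or.inr fun hm => hh (Finset.mem_map.2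
            ⟨⟨h, Subgroup.mem_centralizer_singleton_iff.2 ((hcomm h).1 hm).symm⟩, Finset.mem_univ _, rfl⟩)), zero_mul]),
      Finset.sum_map]
    exact Finset.sum_congr rfl fun k _ => by rw [← hSV]; rfl
  have hz : (zetaRoot N ^ j) ^ (N / orderOf x) = zetaRoot (orderOf x) ^ j := by
    rw [← pow_mul, mul_comm, pow_mul, zetaRoot_pow_div hN hxN]
  have hconj : (zetaRoot (orderOf x) ^ j) ^ (N - 1) = conj (zetaRoot (orderOf x) ^ j) := by
    refine (conj_eq_pow hN ?_).symm
    obtain ⟨c, hc⟩ := hxN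
    rw [← pow_mul, mul_comm, pow_mul, hc, pow_mul, (zetaRoot_prim (orderOf_pos x).ne').pow_eq_one, one_pow, one_pow]
  have hsum : ∑ y : cen x, s y * conj (s y) =
      ∑ ξ ∈ memFinset b, ∑ η ∈ memFinset b,
        classInner φ (ξ : cen x → ℂ) * conj (classInner φ (η : cen x → ℂ)) *
        regSum p (ξ : cen x → ℂ) (η : cen x → ℂ) := by
    simp only [regSum, Finset.mul_sum]
    rw [Finset.sum_congr rfl (fun ξ _ => Finset.sum_comm), Finset.sum_comm]
    refine Finset.sum_congr rfl fun y _ => ?_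
    simp only [hs, ZStar.blockPart_apply, ← Finset.sum_filter, ← memFinset_eq]
    split_ifs
    · simp
    · rw [map_sum, Finset.sum_mul_sum]
      refine Finset.sum_congr rfl fun ξ _ => Finset.sum_congr rfl fun η _ => ?_
      rw [map_mul]
      ring
  rw [aeval_contrib_eq, hKS, hsum, hz, hconj, Finset.mul_sum]
  refine Finset.sum_congr rfl fun ξ hξ => ?_
  rw [Finset.mul_sum]
  refine Finset.sum_congr rfl fun η _ => ?_
  rw [← conj_aeval, aeval_shiftPoly_pow χ ξ hjo, aeval_shiftPoly_pow χ η hjo,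
    regSum_eq_regInt hM.1 (isCharacter_of_irr ξ.2) (isCharacter_of_irr η.2)]
  obtain ⟨q, hq⟩ : (p : ℤ) ^ degExp p ξ₀ ∣ regInt p (ξ : cen x → ℂ) (η : cen x → ℂ) :=
    (pow_dvd_pow _ (hmin₀ ξ (mem_memFinset.1 hξ))).trans (pow_dvd_regInt hM ξ η)
  simp only [← hφ]
  have hp0 : (p : ℂ) ≠ 0 := Nat.cast_ne_zero.2 hM.1.ne_zero
  have hle := degExp_le hM.1 ξ₀
  have hcard : (Nat.card (cen x) : ℂ) = (p : ℂ) ^ (Nat.card (cen x)).factorization p *
      ((Nat.card (cen x) / p ^ (Nat.card (cen x)).factorization p : ℕ) : ℂ) := by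
    rw [← Nat.cast_pow, ← Nat.cast_mul, Nat.ordProj_mul_ordCompl_eq_self]
  have hm0 := ordCompl_ne_zero_cast (G := cen x) p
  rw [hq, Int.mul_ediv_cancel_left _ (pow_ne_zero _ (Int.natCast_ne_zero.2 hM.1.ne_zero)), hcard,
    pow_sub₀ _ hp0 hle]
  push_cast
  field_simp

/-- The squared norm of a character on one subsection. -/
noncomputable def KN (p : ℕ) (x : G) (β χ : G → ℂ) : ℝ := ∑ y, ‖SV p x β χ y‖ ^ 2

theorem KS_self (p : ℕ) (x : G) (β χ : G → ℂ) : KS p x β χ χ = (KN p x β χ : ℂ) := by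
  simp [KS, KN, Complex.mul_conj']

theorem KN_nonneg (p : ℕ) (x : G) (β χ : G → ℂ) : 0 ≤ KN p x β χ := by
  unfold KN; positivity

variable (hM : IsPModular p M) {B : Set (IrrCharacter G)} {P : Subgroup G}
  {e : Set (IrrCharacter (Subgroup.centralizer (P : Set G)))} (hmax : IsMaximalBrauerPair p M B P e)
include hM hmax

/-- A move between central elements of a maximal pair is realized by its stabilizer. -/
theorem exists_stab_move_central {x h : G} {a : MonoidAlgebra (Residue hM) G}
    (ha : LE' p ⊤ (Subgroup.zpowers x) a P (bc hM P e))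
    (hb : LE' p ⊤ (cm h (Subgroup.zpowers x)) (PairAlg.cj h a) P (bc hM P e))
    (hxc : P ≤ Subgroup.centralizer (Subgroup.zpowers x : Set G))
    (hhc : P ≤ Subgroup.centralizer (cm h (Subgroup.zpowers x) : Set G)) :
    ∃ t ∈ stab P (bc hM P e), t * x * t⁻¹ = h * x * h⁻¹ := by
  have hc := complete (G := G) hM
  have hm := isMax_bc hM hmax
  have hpe := isPair_bc hM hmax.1.1
  set Q := Subgroup.zpowers x
  have hN : P ⊓ Subgroup.normalizer (cm h Q : Set G) = P :=
    inf_eq_left.2 (hhc.trans (centralizer_le_normalizer _))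
  have hfull : Nat.card ↥(P ⊓ Subgroup.normalizer (cm h Q : Set G)) =
      dmax p (stab (cm h Q) (PairAlg.cj h a)) (PairAlg.cj h a) := by
    rw [hN]
    refine le_antisymm ?_ ?_
    · refine le_dmax hpe.isP ((le_inf le_rfl (hhc.trans (centralizer_le_normalizer _))).trans
        (normalizer_le_stab hc hm hb)) ?_
      have := br_normalizer_ne hc hm hb
      rwa [hN] at this
    · obtain ⟨y, -, hy⟩ := exists_full hc hm hb (K := stab (cm h Q) (PairAlg.cj h a)) le_rfl
      rw [← hy]
      exact Subgroup.card_le_of_le inf_le_left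
  have hs := (LE'.nstep hc hpe ha (hxc.trans (centralizer_le_normalizer _))).cj h
  obtain ⟨d, hd, hle⟩ := exists_extension hc hm hb hfull hs (le_sup_of_le_right (by
    rw [← cm_centralizer]; exact cm_mono hxc))
  rw [cm_cm, cj_cj] at hle
  have heq : cm (d * h) P = P := Subgroup.eq_of_le_of_card_ge hle.subgroup_le (card_cm _ _).ge
  rw [heq] at hle
  refine ⟨d * h, ⟨mem_normalizer_of_cm heq, below_unique hc hpe hle LE'.refl⟩, ?_⟩
  have : h * x * h⁻¹ ∈ cm h Q := conj_mem_cm.2 (Subgroup.mem_zpowers x)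
  calc d * h * x * (d * h)⁻¹ = d * (h * x * h⁻¹) * d⁻¹ := by group
    _ = _ := by rw [← Subgroup.mem_centralizer_iff.1 hd _ this, mul_inv_cancel_right]

omit hM hmax in
theorem le_centralizer_zpowers {z : G} (hz : z ∈ Subgroup.centralizer (P : Set G)) :
    P ≤ Subgroup.centralizer (Subgroup.zpowers z : Set G) := by
  rw [centralizer_zpowers_eq]
  exact fun u hu => Subgroup.mem_centralizer_singleton_iff.2 (Subgroup.mem_centralizer_iff.1 hz u hu)

/-- Fused central subsections are fused by the stabilizer. -/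
theorem exists_stab_of_cf {z z' h : G} (hz : z ∈ P ⊓ Subgroup.centralizer (P : Set G))
    (hz' : z' ∈ P ⊓ Subgroup.centralizer (P : Set G)) (hzz : h * z * h⁻¹ = z')
    (hcf : cf hM hmax z' = fun k => cf hM hmax z (h⁻¹ * k * h)) :
    ∃ t ∈ stab P (bc hM P e), t * z * t⁻¹ = z' := by
  subst hzz
  obtain ⟨b', hb', hbb, hco⟩ := exists_conj_block hM h z (belb_spec hM hmax hz.1).2.1
  have h' := belb_spec hM hmax hz'.1
  have heq : b' = belb hM hmax (h * z * h⁻¹) := eq_of_coef_eq hM hb' h'.2.1 (hco.trans hcf.symm)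
  subst heq
  have hle := h'.2.2
  rw [hbb, ← cm_zpowers] at hle
  refine exists_stab_move_central hM hmax (belb_spec hM hmax hz.1).2.2 hle
    (le_centralizer_zpowers hz.2) ?_
  rw [cm_zpowers]
  exact le_centralizer_zpowers hz'.2

/-- The stabilizer moves a central element to at most as many places as the inertial index. -/
theorem card_fused_le {T H : Subgroup G} (hT : stab P (bc hM P e) ≤ T)
    (hH : H = P ⊔ Subgroup.centralizer (P : Set G)) {z : G} (hz : z ∈ P ⊓ Subgroup.centralizer (P : Set G))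
    (S : Finset G) (hS : ∀ z' ∈ S, ∃ t ∈ stab P (bc hM P e), t * z * t⁻¹ = z') :
    S.card ≤ H.relIndex T := by
  classical
  have hHz : H ≤ cen z := by
    rw [hH]
    refine sup_le (fun u hu => ?_) fun u hu => ?_
    · exact Subgroup.mem_centralizer_singleton_iff.2 (Subgroup.mem_centralizer_iff.1 hz.2 u hu)
    · exact Subgroup.mem_centralizer_singleton_iff.2 (Subgroup.mem_centralizer_iff.1 hu z hz.1).symm
  set H' := H.subgroupOf T
  haveI : Fintype (T ⧸ H') := Fintype.ofFinite _
  refine le_trans (Finset.card_le_card (t := (Finset.univ : Finset (T ⧸ H')).image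
    (fun q => ((q.out : T) : G) * z * ((q.out : T) : G)⁻¹)) fun z' hz' => ?_) (Finset.card_image_le.trans ?_)
  · obtain ⟨t, ht, rfl⟩ := hS z' hz'
    refine Finset.mem_image.2 ⟨((⟨t, hT ht⟩ : T) : T ⧸ H'), Finset.mem_univ _, ?_⟩
    obtain ⟨w, hw⟩ := QuotientGroup.mk_out_eq_mul H' (⟨t, hT ht⟩ : T)
    have hwz : ((w : T) : G) * z = z * ((w : T) : G) :=
      Subgroup.mem_centralizer_singleton_iff.1 (hHz w.2)
    show ((Quotient.out _ : T) : G) * z * _⁻¹ = _
    rw [hw, Subgroup.coe_mul, mul_inv_rev, ← mul_assoc, mul_assoc t, hwz, ← mul_assoc,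
      mul_inv_cancel_right]
  · rw [Finset.card_univ, ← Nat.card_eq_fintype_card]
    exact le_of_eq rfl

variable (hB : IsPBlock M B)
include hB

/-- The section of a member of the block splits over the blocks inducing it. -/
theorem sum_section_split' {x : G} (hxp : ∃ k : ℕ, orderOf x = p ^ k) [Fintype (IrrCharacter (cen x))]
    [DecidablePred fun b : Set (IrrCharacter (cen x)) => IsInducedBlock M (cen x) b B]
    {ψ : IrrCharacter G} (hψ : ψ ∈ B) :
    (∑ y : cen x, if p ∣ orderOf y then 0 else (ψ : G → ℂ) (x * y) * conj ((ψ : G → ℂ) (x * y))) =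
      ∑ b ∈ (blockFinset M (cen x)).filter (fun b => IsInducedBlock M (cen x) b B),
        KS p x (coef x b) (ψ : G → ℂ) (ψ : G → ℂ) := by
  classical
  set s := (blockFinset M (cen x)).filter (fun b => IsInducedBlock M (cen x) b B) with hs
  have e : ∀ y : cen x, (if p ∣ orderOf y then 0 else (ψ : G → ℂ) (x * y) * conj ((ψ : G → ℂ) (x * y))) =
      ∑ b ∈ s, ∑ b' ∈ s, secVal p x b (ψ : G → ℂ) y * conj (secVal p x b' (ψ : G → ℂ) y) := by
    intro y
    rw [← Finset.sum_mul_sum, ← map_sum]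
    split_ifs with hy
    · simp [secVal, hy]
    · rw [hs, apply_eq_sum_secVal hM hxp hB ψ hy, if_pos hψ]
  rw [Finset.sum_congr rfl fun y _ => e y, Finset.sum_comm]
  refine Finset.sum_congr rfl fun b hb => ?_
  rw [Finset.sum_comm, Finset.sum_eq_single b,
    KS_eq_sum_secVal x b (isClassFunction (isCharacter_of_irr ψ.2)) (isClassFunction (isCharacter_of_irr ψ.2))]
  · intro b' hb' hne
    exact sum_secVal_cross hM (mem_blockFinset.1 (Finset.mem_filter.1 hb).1)
      (mem_blockFinset.1 (Finset.mem_filter.1 hb').1) (Ne.symm hne) _ _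
  · exact fun hn => absurd hb hn

/-- The central subsections carry at most the inertial index. -/
theorem sum_central_le {T H : Subgroup G} (hT : stab P (bc hM P e) ≤ T)
    (hH : H = P ⊔ Subgroup.centralizer (P : Set G)) {χ : IrrCharacter G} (hχ : χ ∈ B) :
    ∑ z : ↥(P ⊓ Subgroup.centralizer (P : Set G)),
        KN p (z : G) (cf hM hmax z) (χ : G → ℂ) / (Nat.card (cen (z : G)) : ℝ) ≤ (H.relIndex T : ℝ) := by
  classical
  haveI : ∀ x : G, Fintype (IrrCharacter (cen x)) := fun x => @Fintype.ofFinite _ finite_irrCharacter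
  set Z := P ⊓ Subgroup.centralizer (P : Set G) with hZ
  set S := Finset.univ.filter (fun x : G => ∃ k : ℕ, orderOf x = p ^ k) with hSdef
  set ind := fun x : G => (blockFinset M (cen x)).filter (fun b => IsInducedBlock M (cen x) b B) with hinddef
  set U₀ := S.sigma ind with hU₀
  set ι : (Σ x : G, Set (IrrCharacter (cen x))) → G × (G → ℂ) := fun t => (t.1, coef t.1 t.2) with hι
  set U := U₀.image ι with hU
  have h1 : (Nat.card G : ℝ) = ∑ t ∈ U, KN p t.1 t.2 (χ : G → ℂ) := by
    have h : (Nat.card G : ℂ) = ∑ t ∈ U, KS p t.1 t.2 (χ : G → ℂ) (χ : G → ℂ) := by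
      have := sum_mul_conj χ χ
      rw [if_pos rfl] at this
      rw [← this, sum_by_sections (Fact.out : p.Prime) _ S (fun x => by simp [hSdef]),
        Finset.sum_congr rfl (fun x hx => sum_section_split' hM hmax hB (Finset.mem_filter.1 hx).2 hχ),
        ← Finset.sum_sigma S ind (fun t => KS p t.1 (coef t.1 t.2) (χ : G → ℂ) (χ : G → ℂ)), hU, Finset.sum_image]
      rintro ⟨x, b⟩ hb ⟨x', b'⟩ hb' he
      simp only [hι, Prod.mk.injEq] at he
      obtain ⟨rfl, he⟩ := he
      simp only [hU₀, Finset.coe_sigma, Set.mem_sigma_iff, Finset.mem_coe, hinddef, Finset.mem_filter] at hb hb'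
      rw [eq_of_coef_eq hM hb.2.2.1 hb'.2.2.1 he]
    simp only [KS_self] at h
    exact_mod_cast h
  set Ψ : G × Z → G × (G → ℂ) := fun t =>
    (t.1 * t.2 * t.1⁻¹, fun k => cf hM hmax t.2 (t.1⁻¹ * k * t.1)) with hΨ
  have hmaps : ∀ t ∈ (Finset.univ : Finset (G × Z)), Ψ t ∈ U := by
    rintro ⟨g, x, hx⟩ -
    have hbel := belb_spec hM hmax hx.1
    obtain ⟨b', hb', he, hco⟩ := exists_conj_block hM g x hbel.2.1
    have hxp := exists_orderOf_eq_of_mem hmax.1.1.1 hx.1
    have hxp' : ∃ k : ℕ, orderOf (g * x * g⁻¹) = p ^ k := by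
      obtain ⟨k, hk⟩ := hxp
      exact ⟨k, by rw [← hk]; exact (MulAut.conj g).orderOf_eq x⟩
    have hof := (ofBlk_of_below hM hmax hbel.2.2).cj g
    rw [cm_zpowers, ← he] at hof
    refine Finset.mem_image.2 ⟨⟨g * x * g⁻¹, b'⟩, Finset.mem_sigma.2 ⟨Finset.mem_filter.2 ⟨Finset.mem_univ _, hxp'⟩,
      Finset.mem_filter.2 ⟨mem_blockFinset.2 hb', (induced_iff_ofBlk hM hxp' hb' hB).2 hof⟩⟩, ?_⟩
    simp only [hι, hΨ, hco]
  set w : G × Z → ℝ := fun s => KN p (s.2 : G) (cf hM hmax s.2) (χ : G → ℂ) / (Nat.card (cen (s.2 : G)) : ℝ) with hw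
  have hval : ∀ s : G × Z, w s = KN p (Ψ s).1 (Ψ s).2 (χ : G → ℂ) / (Nat.card (cen (Ψ s).1) : ℝ) := by
    rintro ⟨g, x⟩
    have hk := KS_conj (p := p) g (x : G) (cf hM hmax x) (isClassFunction (isCharacter_of_irr χ.2))
      (isClassFunction (isCharacter_of_irr χ.2))
    rw [KS_self, KS_self] at hk
    simp only [hw, hΨ, card_cen_conj]
    rw [show KN p (g * x * g⁻¹) (fun k => cf hM hmax x (g⁻¹ * k * g)) (χ : G → ℂ) = _ from by exact_mod_cast hk]
  have hfib : ∀ t ∈ U, ∑ s ∈ Finset.univ.filter (fun s => Ψ s = t), w s ≤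
      (H.relIndex T : ℝ) * KN p t.1 t.2 (χ : G → ℂ) := by
    intro t ht
    set F := Finset.univ.filter (fun s => Ψ s = t) with hF
    rw [Finset.sum_congr rfl (fun s hs => by rw [hval, (Finset.mem_filter.1 hs).2]), Finset.sum_const, nsmul_eq_mul]
    have hcard : F.card ≤ H.relIndex T * Nat.card (cen t.1) := by
      rcases F.eq_empty_or_nonempty with hF0 | ⟨⟨g₀, z₀, hz₀⟩, hs₀⟩
      · simp [hF0]
      obtain ⟨e1, e2⟩ := Prod.ext_iff.1 (Finset.mem_filter.1 hs₀).2
      simp only [hΨ] at e1 e2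
      set O : Finset G := F.image fun s => (s.2 : G) with hO
      have hOle : O.card ≤ H.relIndex T := by
        refine card_fused_le hM hmax hT hH hz₀ O fun z' hz' => ?_
        obtain ⟨⟨g, z, hz⟩, hs, rfl⟩ := Finset.mem_image.1 hz'
        obtain ⟨f1, f2⟩ := Prod.ext_iff.1 (Finset.mem_filter.1 hs).2
        simp only [hΨ] at f1 f2
        refine exists_stab_of_cf hM hmax hz₀ hz (h := g⁻¹ * g₀) ?_ ?_
        · show g⁻¹ * g₀ * z₀ * (g⁻¹ * g₀)⁻¹ = z
          calc g⁻¹ * g₀ * z₀ * (g⁻¹ * g₀)⁻¹ = g⁻¹ * (g₀ * z₀ * g₀⁻¹) * g := by group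
            _ = g⁻¹ * (g * z * g⁻¹) * g := by rw [e1, f1]
            _ = z := by group
        · funext k
          have h3 := congrFun (f2.trans e2.symm) (g * k * g⁻¹)
          simp only [show g⁻¹ * (g * k * g⁻¹) * g = k by group] at h3
          show cf hM hmax z k = _
          rw [h3]
          congr 1
          group
      refine le_trans (Finset.card_le_mul_card_image F (Nat.card (cen t.1)) fun z' hz' => ?_)
        (by rw [← hO, mul_comm]; exact Nat.mul_le_mul_right _ hOle)
      obtain ⟨⟨g₁, z₁⟩, hs₁, rfl⟩ := Finset.mem_image.1 hz'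
      rw [Nat.card_eq_fintype_card, ← Finset.card_univ]
      set F₁ := F.filter fun s => (s.2 : G) = (z₁ : G) with hF₁
      show F₁.card ≤ _
      have hmem : ∀ s ∈ F₁, s.1 * g₁⁻¹ ∈ cen t.1 := by
        rintro ⟨g, z⟩ hs
        obtain ⟨hsF, hsz⟩ := Finset.mem_filter.1 hs
        have f1 := congrArg Prod.fst (Finset.mem_filter.1 hsF).2
        have f2 := congrArg Prod.fst (Finset.mem_filter.1 hs₁).2
        simp only [hΨ] at f1 f2
        simp only at hsz ⊢
        rw [hsz] at f1
        rw [Subgroup.mem_centralizer_singleton_iff]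
        calc g * g₁⁻¹ * t.1 = g * g₁⁻¹ * (g₁ * (z₁ : G) * g₁⁻¹) := by rw [f2]
          _ = g * (z₁ : G) * g⁻¹ * (g * g₁⁻¹) := by group
          _ = _ := by rw [f1]
      rw [← Fintype.card_coe]
      refine Fintype.card_le_of_injective (fun s => ⟨_, hmem s.1 s.2⟩) fun s s' h => ?_
      exact Subtype.ext (Prod.ext (mul_right_cancel (congrArg Subtype.val h))
        (Subtype.ext ((Finset.mem_filter.1 s.2).2.trans (Finset.mem_filter.1 s'.2).2.symm)))
    refine le_trans (mul_le_mul_of_nonneg_right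
      (show (F.card : ℝ) ≤ (H.relIndex T : ℝ) * Nat.card (cen t.1) by exact_mod_cast hcard)
      (div_nonneg (KN_nonneg _ _ _ _) (Nat.cast_nonneg _))) (le_of_eq ?_)
    have : (Nat.card (cen t.1) : ℝ) ≠ 0 := Nat.cast_ne_zero.2 Nat.card_pos.ne'
    field_simp
  have h2 : ∑ s : G × Z, w s ≤ (H.relIndex T : ℝ) * (Nat.card G : ℝ) := by
    rw [← Finset.sum_fiberwise_of_maps_to hmaps, h1, Finset.mul_sum]
    exact Finset.sum_le_sum hfib
  simp only [Fintype.sum_prod_type, hw] at h2
  rw [Finset.sum_const, nsmul_eq_mul, Finset.card_univ, ← Nat.card_eq_fintype_card,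
    mul_comm] at h2
  exact le_of_mul_le_mul_right h2 (Nat.cast_pos.2 Nat.card_pos)

/-- The central elements of a generator have the same block. -/
theorem cf_pow {z : G} (hz : z ∈ P) {j : ℕ} (hj : j.Coprime (orderOf z)) :
    cf hM hmax (z ^ j) = cf hM hmax z := by
  have hzp : Subgroup.zpowers (z ^ j) = Subgroup.zpowers z := by
    refine le_antisymm (Subgroup.zpowers_le.2 (Subgroup.pow_mem _ (Subgroup.mem_zpowers z) j))
      (Subgroup.zpowers_le.2 ?_)
    obtain ⟨m, hm⟩ := exists_pow_eq_self_of_coprime hj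
    exact ⟨m, (zpow_natCast _ _).trans hm⟩
  have h1 := belb_spec hM hmax (P.pow_mem hz j)
  have h2 := belb_spec hM hmax hz
  have hle := h1.2.2
  rw [hzp] at hle
  refine coef_eq_of_bl_eq hM ?_ h1.2.1 h2.2.1 (below_unique (complete (G := G) hM) (isPair_bc hM hmax.1.1) hle h2.2.2)
  exact (centralizer_zpowers_eq (z ^ j)).symm.trans ((congrArg (fun K : Subgroup G => Subgroup.centralizer (K : Set G)) hzp).trans (centralizer_zpowers_eq z))

/-- The height and the center of the defect group against the inertial index. -/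
theorem pow_height_center_le {d : ℕ} (hd : blockDefect p B = d) {T H : Subgroup G}
    (hT : stab P (bc hM P e) ≤ T) (hH : H = P ⊔ Subgroup.centralizer (P : Set G))
    (hPd : Nat.card P = p ^ d) {χ : IrrCharacter G} (hχ : χ ∈ B) :
    p ^ blockHeight p B (χ : G → ℂ) * Nat.card ↥(P ⊓ Subgroup.centralizer (P : Set G)) ≤
      H.relIndex T * p ^ d := by
  classical
  haveI : Fintype (IrrCharacter G) := @Fintype.ofFinite _ finite_irrCharacter
  set Z := P ⊓ Subgroup.centralizer (P : Set G) with hZ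
  set N := p ^ (d + 1) with hN
  have hN0 : N ≠ 0 := pow_ne_zero _ hM.1.ne_zero
  set ht := blockHeight p B (χ : G → ℂ) with hht
  obtain ⟨χ₁, hχ₁, hmin₁, he₁⟩ := exists_min_degExp hM hB
  have hh1 : blockHeight p B (χ₁ : G → ℂ) = 0 := by rw [blockHeight_eq he₁, Nat.sub_self]
  have hord : ∀ z : Z, orderOf (z : G) ∣ N := fun z => by
    refine dvd_trans ?_ (pow_dvd_pow p (Nat.le_succ d))
    rw [← hPd]
    have h := orderOf_dvd_natCard (⟨(z : G), z.2.1⟩ : P)
    rwa [Subgroup.orderOf_mk] at h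
  set b : ∀ z : Z, Set (IrrCharacter (cen (z : G))) := fun z => belb hM hmax (z : G) with hb
  have hbel : ∀ z : Z, Bel hM P e (z : G) (b z) := fun z => belb_spec hM hmax z.2.1
  have hzp : ∀ z : Z, ∃ k : ℕ, orderOf (z : G) = p ^ k := fun z => exists_orderOf_eq_of_mem hmax.1.1.1 z.2.1
  have hind : ∀ z : Z, IsInducedBlock M (cen (z : G)) (b z) B := fun z =>
    (induced_iff_ofBlk hM (hzp z) (hbel z).2.1 hB).2 (ofBlk_of_below hM hmax (hbel z).2.2)
  choose ξ₀ h₀ hmin₀ hs₀ using fun z : Z => exists_min_degExp hM (hind z).1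
  have hdef : ∀ z : Z, blockDefect p B = (Nat.card (cen (z : G))).factorization p - degExp p (ξ₀ z) := fun z =>
    (Star.blockDefect_bel_of_central hM hmax z.2.2 (hbel z)).trans (blockDefect_eq (hs₀ z))
  set Q : Z → IrrCharacter G → ℤ[X] := fun z ψ => contribPoly p N (z : G) (b z) (degExp p (ξ₀ z)) χ ψ with hQ
  set a : Z → ℕ → ℝ := fun z j => (p : ℝ) ^ d / (Nat.card (cen (z : G)) : ℝ) *
    KN p ((z : G) ^ j) (cf hM hmax ((z : G) ^ j)) (χ : G → ℂ) with ha
  have hval : ∀ z : Z, ∀ j ∈ coprimeResidues N, aeval (zetaRoot N ^ j) (Q z χ) = (a z j : ℂ) := by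
    intro z j hj
    have hjc := (Finset.mem_filter.1 hj).2
    simp only [hQ]
    rw [aeval_contribPoly_pow hM hN0 (hord z) (hmin₀ z) hjc χ, ← hdef z, hd, KS_self]
    simp [ha, hb, cf_pow hM hmax hB z.2.1 (Nat.Coprime.coprime_dvd_right (hord z) hjc)]
  have hpow : ∀ z : Z, ∃ R : ℤ[X], aeval (zetaRoot N) (Q z χ) = (p : ℂ) ^ ht * aeval (zetaRoot N) R := fun z =>
    exists_eq_pow_mul hM d ht _ (major_local hM (hzp z) (hind z).1 hB hN0 (hord z) (hmin₀ z) (hdef z) χ hχ)
  choose R hR using hpow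
  have hRj : ∀ z : Z, ∀ j ∈ coprimeResidues N, aeval (zetaRoot N ^ j) (R z) = ((a z j / (p : ℝ) ^ ht : ℝ) : ℂ) := by
    intro z j hj
    have h := aeval_conjugate_eq_zero hN0 (Q := Q z χ - C ((p : ℤ) ^ ht) * R z)
      (by simp [hR z]) (Finset.mem_filter.1 hj).2
    have hp0 : (p : ℂ) ≠ 0 := Nat.cast_ne_zero.2 hM.1.ne_zero
    simp [hval z j hj, sub_eq_zero] at h
    rw [Complex.ofReal_div, Complex.ofReal_pow, Complex.ofReal_natCast, h]
    field_simp
  have hpos : ∀ z : Z, ∀ j ∈ coprimeResidues N, 0 < a z j := by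
    intro z j hj
    have hjc := (Finset.mem_filter.1 hj).2
    have hne : aeval (zetaRoot N ^ j) (Q z χ₁) ≠ 0 := by
      refine aeval_conjugate_ne_zero hN0 _ hjc fun h0 => ?_
      refine major_not_mem hM (hzp z) (hind z) (K := d + 1) (hord z) (h₀ z) (hmin₀ z) (hdef z) hχ hχ₁ hh1 ?_
      simp only [hQ] at h0
      rw [h0, zero_div]
      exact memLocalIdeal_zero hM
    have h := sum_normSq_contrib hM (hzp z) (hind z).1 hN0 (hord z) (hmin₀ z) hjc χ
    have h2 : (0 : ℝ) < ∑ ψ : IrrCharacter G, ‖aeval (zetaRoot N ^ j)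
        (contribPoly p N (z : G) (b z) (degExp p (ξ₀ z)) χ ψ)‖ ^ 2 :=
      Finset.sum_pos' (fun _ _ => by positivity) ⟨χ₁, Finset.mem_univ _, pow_pos (norm_pos_iff.2 hne) 2⟩
    rw [h, show aeval (zetaRoot N ^ j) (contribPoly p N (z : G) (b z) (degExp p (ξ₀ z)) χ χ) = (a z j : ℂ) from
      hval z j hj, Complex.ofReal_re] at h2
    exact (pos_iff_pos_of_mul_pos h2).1 (pow_pos (by exact_mod_cast hM.1.pos) _)
  have hp0 : (0 : ℝ) < (p : ℝ) ^ ht := pow_pos (by exact_mod_cast hM.1.pos) _
  have hlow : ∀ z : Z, (p : ℝ) ^ ht * (coprimeResidues N).card ≤ ∑ j ∈ coprimeResidues N, a z j := by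
    intro z
    obtain ⟨r, hr⟩ := prod_coprime_int hN0 (R z)
    rw [Finset.prod_congr rfl (fun j hj => hRj z j hj), ← Complex.ofReal_prod, ← Complex.ofReal_intCast,
      Complex.ofReal_inj] at hr
    have hq : ∀ j ∈ coprimeResidues N, 0 < a z j / (p : ℝ) ^ ht := fun j hj => div_pos (hpos z j hj) hp0
    have h1 := Finset.prod_pos hq
    rw [hr] at h1
    have h2 := card_le_sum_of_one_le_prod _ _ hq (by rw [hr]; exact_mod_cast (Int.cast_pos.1 h1))
    rw [← Finset.sum_div, le_div_iff₀ hp0] at h2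
    linarith
  have hZcard : Nat.card Z ∣ N := (Subgroup.card_dvd_of_le inf_le_left).trans (hPd ▸ pow_dvd_pow p (Nat.le_succ d))
  have hup : ∀ j ∈ coprimeResidues N, ∑ z : Z, a z j ≤ (p : ℝ) ^ d * (H.relIndex T : ℝ) := by
    intro j hj
    have hjc := (Finset.mem_filter.1 hj).2
    refine le_trans (le_of_eq ?_) (mul_le_mul_of_nonneg_left (sum_central_le hM hmax hB hT hH hχ) (by positivity))
    rw [Finset.mul_sum]
    refine Fintype.sum_equiv (powCoprime (Nat.Coprime.coprime_dvd_right hZcard hjc).symm) _ _ fun z => ?_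
    have hcen : cen ((z : G) ^ j) = cen (z : G) := by
      ext u
      simp only [Subgroup.mem_centralizer_singleton_iff]
      refine ⟨fun h => ?_, fun h => (Commute.pow_right h j)⟩
      obtain ⟨m, hm⟩ := exists_pow_eq_self_of_coprime (Nat.Coprime.coprime_dvd_right (hord z) hjc)
      have h' := Commute.pow_right (show Commute u ((z : G) ^ j) from h) m
      rw [hm] at h'
      exact h'
    simp [ha, hcen]
    ring
  have h := calc
    ((coprimeResidues N).card : ℝ) * ((p : ℝ) ^ ht * Nat.card Z)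
      = ∑ _z : Z, (p : ℝ) ^ ht * ((coprimeResidues N).card : ℝ) := by
        (rw [Finset.sum_const, Finset.card_univ, nsmul_eq_mul, Nat.card_eq_fintype_card]; ring)
    _ ≤ ∑ z : Z, ∑ j ∈ coprimeResidues N, a z j := Finset.sum_le_sum fun z _ => hlow z
    _ = ∑ j ∈ coprimeResidues N, ∑ z : Z, a z j := Finset.sum_comm
    _ ≤ ∑ _j ∈ coprimeResidues N, (p : ℝ) ^ d * (H.relIndex T : ℝ) := Finset.sum_le_sum hup
    _ = ((coprimeResidues N).card : ℝ) * ((H.relIndex T : ℝ) * (p : ℝ) ^ d) := by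
        rw [Finset.sum_const, nsmul_eq_mul]; ring
  have h' := le_of_mul_le_mul_left h (Nat.cast_pos.2 (coprimeResidues_card_pos hN0))
  exact_mod_cast h'

end CfsgLib.CentralHeight
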