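import Cfsg.Agent.Blocks.Covering
import Cfsg.Agent.Blocks.PIndex
import Cfsg.Agent.Blocks.NormalPSub
import Cfsg.Agent.ZStar.Congr

/-!
# Covering blocks over a normal subgroup containing the centralizer of a normal `p`-subgroup
-/

namespace CfsgLib.Blocks

open Cfsg CfsgLib.CharBasics

variable {G : Type*} [Group G] [Fintype G] {p : ℕ} {M : Ideal AlgInt}

/-- A block of `N ⊇ C_G(Q)`, `N` normal, induces the blocks covering it. -/
theorem isInducedBlock_of_covers (hM : IsPModular p M) (Q : Subgroup G) [Q.Normal] (hQ : IsPGroup p Q)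
    {N : Subgroup G} [hN : N.Normal] [Fintype N] (hCN : Subgroup.centralizer (Q : Set G) ≤ N)
    {b : Set (IrrCharacter N)} (hb : IsPBlock M b) {B : Set (IrrCharacter G)} (hB : IsPBlock M B)
    {χ₀ : IrrCharacter G} (hχ₀ : χ₀ ∈ B) {θ₀ : IrrCharacter N} (hθ₀ : θ₀ ∈ b)
    (hcon : classInner (fun n : N => (χ₀ : G → ℂ) n) (θ₀ : N → ℂ) ≠ 0) : IsInducedBlock M N b B := by
  classical
  haveI := Fintype.ofFinite Q
  refine ⟨hb, hB, fun ξ hξ χ hχ g => ?_⟩
  have hzc := isClassElt_classElt g
  have hzi := isIntegralElt_classElt hM g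
  have h1 : MemLocalIdeal M (inducedCentralChar N (ξ : N → ℂ) g - inducedCentralChar N (θ₀ : N → ℂ) g) := by
    rw [← ZStar.omega_res_classElt, ← ZStar.omega_res_classElt]
    exact omega_sub_mem_of_sameBlock hM ((IsPBlock.mem_iff hM hb hξ).1 hθ₀) (ZStar.isClassElt_res hzc N)
      (ZStar.isIntegralElt_res hzi N)
  have h2 : MemLocalIdeal M (centralChar (χ₀ : G → ℂ) g - centralChar (χ : G → ℂ) g) :=
    (IsPBlock.mem_iff hM hB hχ₀).1 hχ g
  have h3 : MemLocalIdeal M (inducedCentralChar N (θ₀ : N → ℂ) g - centralChar (χ₀ : G → ℂ) g) := by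
    by_cases hg : g ∈ N
    · rw [← ZStar.omega_res_classElt, ← omega_classElt χ₀.2,
        ← omega_eq_res_constituent hzc (fun y hy => ?_) χ₀ θ₀ hcon, sub_self]
      · exact memLocalIdeal_zero hM
      · rw [coeff_classElt, if_neg]
        intro hc
        obtain ⟨c, rfl⟩ := isConj_iff.1 hc
        exact hy (hN.conj_mem g hg c)
    · have h0 : inducedCentralChar N (θ₀ : N → ℂ) g = 0 := by
        rw [← ZStar.omega_res_classElt, ZStar.omega_res, Finset.sum_eq_zero, zero_div]
        intro n _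
        rw [coeff_classElt, if_neg, zero_mul]
        intro hc
        obtain ⟨c, hc⟩ := isConj_iff.1 hc.symm
        exact hg (hc ▸ hN.conj_mem (n : G) n.2 c)
      rw [h0, zero_sub]
      exact memLocalIdeal_neg (centralChar_mem_of_notMem_centralizer hM Q hQ χ₀ fun h => hg (hCN h))
  simpa using memLocalIdeal_add hM (memLocalIdeal_add hM h1 h3) h2

end CfsgLib.Blocks
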