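import Cfsg.Agent.Blocks.MaxPairs
import Cfsg.Agent.Blocks.DefectGroup

/-!
# Induction from a subgroup containing the centralizer of a defect group
-/

set_option linter.unusedSectionVars false
set_option linter.style.haveILetI false

namespace CfsgLib.Blocks

open Cfsg CfsgLib.CharBasics CfsgLib.ZStar
open scoped ComplexConjugate

universe u

variable {G : Type u} [Group G] [Fintype G] {p : ℕ} {M : Ideal AlgInt}

theorem stabilizesBlock_self (H : Subgroup G) [Fintype H] (b : Set (IrrCharacter H)) {x : G} (hx : x ∈ H) :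
    StabilizesBlock H b x := by
  refine ⟨Subgroup.le_normalizer hx, fun χ hχ => ⟨χ, hχ, fun k k' hk => ?_⟩⟩
  rw [show k' = (⟨x, hx⟩ : H) * k * ⟨x, hx⟩⁻¹ from Subtype.ext hk]
  exact isClassFunction (isCharacter_of_irr χ.2) k ⟨x, hx⟩

set_option maxHeartbeats 1600000 in
/-- A block whose defect group has its centralizer inside the subgroup induces a block. -/
theorem induced_of_centralizer_le (hM : IsPModular p M) {H : Subgroup G} [Fintype H] {b : Set (IrrCharacter H)}
    (hb : IsPBlock M b) {D₀ : Subgroup H} (hD₀ : IsDefectGroup p M b D₀)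
    (hC : Subgroup.centralizer ((D₀.map H.subtype : Subgroup G) : Set G) ≤ H) :
    ∃ B, IsInducedBlock M H b B ∧ ∃ f,
      IsBrauerPairOf p M B (D₀.map H.subtype) f ∧
      ∀ (R : Subgroup G), IsPGroup p R → D₀.map H.subtype ≤ R → R ≤ H →
        R ≤ Subgroup.normalizer ((D₀.map H.subtype : Subgroup G) : Set G) →
        (∃ k, IsNormalSubpair p M (D₀.map H.subtype) f R k) → R = D₀.map H.subtype := by
  classical
  haveI := Fact.mk hM.1
  obtain ⟨P, hP⟩ : ∃ P : Subgroup G, P = D₀.map H.subtype := ⟨_, rfl⟩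
  rw [← hP] at hC ⊢
  have hcard := card_defectGroup hM hb hD₀
  have hPH : P ≤ H := hP ▸ Subgroup.map_subtype_le D₀
  have hPp : IsPGroup p P := hP ▸ (IsPGroup.of_card hcard).map _
  haveI := Fintype.ofFinite (Subgroup.centralizer (P : Set G))
  obtain ⟨y, hy, S, hS⟩ := id hD₀
  have hyP : (y : G) ∈ Subgroup.centralizer (P : Set G) := by
    rw [Subgroup.mem_centralizer_iff]
    intro q hq
    rw [hP] at hq
    obtain ⟨q, hq', rfl⟩ := hq
    rw [SetLike.mem_coe, hS] at hq'
    exact congrArg Subtype.val (Subgroup.mem_centralizer_singleton_iff.1 (Subgroup.map_subtype_le _ hq'))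
  have hst : ∀ x ∈ P, StabilizesBlock H b x := fun x hx => stabilizesBlock_self H b (hPH hx)
  have hec := isClassElt_blockElt b
  have hei := isIntegralElt_blockElt hM hb
  obtain ⟨ξ, hξ⟩ : ∃ ξ : IrrCharacter (Subgroup.centralizer (P : Set G)),
      ¬ MemLocalIdeal M (phi P H ξ (blockElt b)) := by
    by_contra hcon
    push Not at hcon
    obtain ⟨N, hN0, hN⟩ := exists_pow_isSmall hM (isClassElt_res_extElt (P := P) hC hec) hcon
    obtain ⟨n, rfl⟩ : ∃ n, N = n + 1 := ⟨N - 1, by omega⟩
    have hid : IsIdempotentElem (extElt H (blockElt b)) := by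
      rw [IsIdempotentElem, ← extElt_mul, (isIdempotentElem_blockElt b).eq]
    have h := res_pow_congr hM hPp (fun g => Subgroup.mem_centralizer_iff)
      (isIntegralElt_extElt hM _ hei) (conjInv_extElt_blockElt hst) (n + 1) ⟨y, hyP⟩
    rw [hid.pow_succ_eq n] at h
    have h2 : MemLocalIdeal M ((res (Subgroup.centralizer (P : Set G)) (extElt H (blockElt b))).coeff ⟨y, hyP⟩) := by
      simpa using memLocalIdeal_add hM h (hN ⟨y, hyP⟩)
    rw [coeff_res, coeff_extElt_coe, coeff_blockElt] at h2
    exact hy.2.1 h2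
  have h1 := (phi_blockElt_zero_or_one hM hPp hC ξ hb hst).resolve_left hξ
  have hfb := isPBlock_blockOf M ξ
  have hξf := mem_blockOf_self hM ξ
  obtain ⟨B, hB, -⟩ := existsUnique_brauerPairOf hM (P := P) ⟨hPp, hfb⟩
  have hB1 := (isBrauerPairOf_iff hM hPp hB.2.1 hfb hξf).1 hB
  have hindC : IsInducedBlock M (Subgroup.centralizer (P : Set G)) (blockOf M (ξ : _ → ℂ)) B :=
    isInducedBlock_of_not_small hM hPp (fun x => Subgroup.mem_centralizer_iff) hfb hB.2.1 hξf
      fun h => not_memLocalIdeal_one hM (by simpa using memLocalIdeal_sub hM h hB1)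
  refine ⟨B, ⟨hb, hB.2.1, fun η hη χ hχ g => ?_⟩, _, hB, ?_⟩
  · have hzc := isClassElt_res (isClassElt_classElt g) H
    have hzi := isIntegralElt_res (isIntegralElt_classElt hM g) H
    have hzP : ConjInv P (extElt H (res H (classElt g))) := by
      intro q hq x
      have hqn : q ∈ Subgroup.normalizer (H : Set G) := Subgroup.le_normalizer (hPH hq)
      by_cases hx : x ∈ H
      · rw [coeff_extElt_mem H _ hx, coeff_extElt_mem H _ ((Subgroup.mem_normalizer_iff.1 hqn x).1 hx), coeff_res,
          coeff_res]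
        exact coeff_conj (isClassElt_classElt g) _ _
      · rw [coeff_extElt_of_notMem H _ hx,
          coeff_extElt_of_notMem H _ fun h => hx ((Subgroup.mem_normalizer_iff.1 hqn x).2 h)]
    have h2 := phi_transfer hM hPp hC ξ hb hst h1 hη hzc hzi hzP
    have e1 : phi P H ξ (res H (classElt g)) =
        omega (ξ : _ → ℂ) (res (Subgroup.centralizer (P : Set G)) (classElt g)) := by
      rw [phi]
      congr 1
      ext c
      rw [coeff_res, coeff_res, coeff_extElt_mem H _ (hC c.2), coeff_res]
    rw [e1, omega_res_classElt] at h2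
    have h3 := hindC.2.2 ξ hξf χ hχ g
    rw [omega_res_classElt] at h2
    have := memLocalIdeal_sub hM h3 h2
    rwa [sub_sub_sub_cancel_left] at this
  · rintro R hR hPR hRH hRN ⟨k, hk⟩
    haveI := Fintype.ofFinite (Subgroup.centralizer (R : Set G))
    have hRC : Subgroup.centralizer (R : Set G) ≤ Subgroup.centralizer (P : Set G) :=
      Subgroup.centralizer_le (SetLike.coe_subset_coe.2 hPR)
    obtain ⟨η, hη⟩ := IsPBlock.nonempty hM hk.2.1.2
    obtain ⟨-, hfst, hf1⟩ := (isNormalSubpair_iff hM hR hPR hRN hk.2.1.2 hη).1 hk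
    obtain ⟨z, hz⟩ : ∃ z, z = res (Subgroup.centralizer (P : Set G)) (extElt H (blockElt b)) := ⟨_, rfl⟩
    have hzc : IsClassElt z := hz ▸ isClassElt_res_extElt (P := P) hC hec
    have hzi : IsIntegralElt M z := hz ▸ isIntegralElt_res (isIntegralElt_extElt hM H hei) _
    have hzR : ConjInv R (extElt (Subgroup.centralizer (P : Set G)) z) := by
      intro q hq x
      have hqn : q ∈ Subgroup.normalizer ((Subgroup.centralizer (P : Set G)) : Set G) :=
        le_normalizer_centralizer P (hRN hq)
      by_cases hx : x ∈ Subgroup.centralizer (P : Set G)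
      · rw [coeff_extElt_mem _ _ hx, coeff_extElt_mem _ _ ((Subgroup.mem_normalizer_iff.1 hqn x).1 hx), hz,
          coeff_res, coeff_res]
        exact conjInv_extElt_blockElt (P := R) (fun x hx => stabilizesBlock_self H b (hRH hx)) q hq x
      · rw [coeff_extElt_of_notMem _ _ hx,
          coeff_extElt_of_notMem _ _ fun h => hx ((Subgroup.mem_normalizer_iff.1 hqn x).2 h)]
    have h2 := phi_transfer hM hR hRC η hfb hfst hf1 hξf hzc hzi hzR
    have e1 : omega (ξ : _ → ℂ) z = phi P H ξ (blockElt b) := by rw [hz]; rfl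
    rw [e1] at h2
    obtain ⟨v, hv, hvu⟩ : ∃ v : H, (v : G) ∈ Subgroup.centralizer (R : Set G) ∧
        ¬ MemLocalIdeal M (blockCoeff b v) := by
      by_contra hcon
      push Not at hcon
      have h3 : MemLocalIdeal M (phi R (Subgroup.centralizer (P : Set G)) η z) :=
        memLocalIdeal_omega hM η (isClassElt_res_extElt hRC hzc) fun c => by
          rw [coeff_res, coeff_extElt_mem _ _ (hRC c.2), hz, coeff_res, coeff_extElt_mem _ _ (hC (hRC c.2)),
            coeff_blockElt]
          exact hcon _ c.2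
      refine not_memLocalIdeal_one hM ?_
      have := memLocalIdeal_add hM h1 (memLocalIdeal_sub hM h2 h3)
      have := memLocalIdeal_neg this
      simpa using this
    obtain ⟨E, hE, hle⟩ := exists_defectGroup_ge hM hb hvu (Q := R.subgroupOf H)
      (hR.of_equiv (Subgroup.subgroupOfEquivOfLe hRH).symm) fun q hq => Subtype.ext
        (Subgroup.mem_centralizer_iff.1 hv q hq)
    refine (Subgroup.eq_of_le_of_card_ge hPR ?_).symm
    calc Nat.card R = Nat.card (R.subgroupOf H) := (Nat.card_congr (Subgroup.subgroupOfEquivOfLe hRH).toEquiv).symm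
      _ ≤ Nat.card E := Subgroup.card_le_of_le hle
      _ = Nat.card P := by
          rw [card_defectGroup hM hb hE, hP, Subgroup.card_map_of_injective H.subtype_injective, hcard]

end CfsgLib.Blocks
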