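import Cfsg.Agent.Blocks.FirstMain
import Cfsg.Agent.Blocks.DefectConj

/-!
# Induction from an overgroup of the normalizer of a defect group
-/

set_option linter.unusedSectionVars false
set_option linter.style.haveILetI false

namespace CfsgLib.Blocks

open Cfsg CfsgLib.CharBasics CfsgLib.ZStar CfsgLib.Clifford

universe u

variable {G : Type u} [Group G] [Fintype G] {p : ℕ} {M : Ideal AlgInt} {H P : Subgroup G} [Fintype H]

/-- A block has at most one induced block. -/
theorem induced_block_unique (hM : IsPModular p M) {b : Set (IrrCharacter H)} {B B' : Set (IrrCharacter G)}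
    (h : IsInducedBlock M H b B) (h' : IsInducedBlock M H b B') : B = B' := by
  obtain ⟨ξ, hξ⟩ := IsPBlock.nonempty hM h.1
  obtain ⟨χ, hχ⟩ := IsPBlock.nonempty hM h.2.1
  obtain ⟨ψ, hψ⟩ := IsPBlock.nonempty hM h'.2.1
  refine IsPBlock.eq_of_mem hM h.2.1 h'.2.1 hχ ((IsPBlock.mem_iff hM h'.2.1 hψ).2 fun g => ?_)
  have := memLocalIdeal_sub hM (h.2.2 ξ hξ χ hχ g) (h'.2.2 ξ hξ ψ hψ g)
  rwa [sub_sub_sub_cancel_left] at this

/-- Congruence on the centralizer of a defect group gives induction. -/
theorem isInducedBlock_of_congr_centralizer (hM : IsPModular p M) (hPH : P ≤ H)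
    (hCH : Subgroup.centralizer (P : Set G) ≤ H) {b : Set (IrrCharacter H)} (hb : IsPBlock M b)
    (hD : IsDefectGroup p M b (P.subgroupOf H)) {B : Set (IrrCharacter G)} (hB : IsPBlock M B)
    (hc : ∀ x ∈ Subgroup.centralizer (P : Set G), MemLocalIdeal M (blockCoeff B x - subgroupBlockCoeff H b x)) :
    IsInducedBlock M H b B := by
  classical
  haveI := Fintype.ofFinite (Subgroup.centralizer (P : Set G))
  set C := Subgroup.centralizer ((P.subgroupOf H : Subgroup H) : Set H) with hC
  haveI := Fintype.ofFinite C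
  have hQ : IsPGroup p (P.subgroupOf H) := isPGroup_of_isDefectGroup hD
  have hP : IsPGroup p P := hQ.of_equiv (Subgroup.subgroupOfEquivOfLe hPH)
  obtain ⟨e, he⟩ := exists_maximal_on_defect hM hb hD
  obtain ⟨θ, hθ⟩ := IsPBlock.nonempty hM he.1.1.2
  have hθ1 := (isBrauerPairOf_iff hM hQ hb he.1.1.2 hθ).1 he.1
  have hindC : IsInducedBlock M C e b :=
    isInducedBlock_of_not_small hM hQ (fun x => Subgroup.mem_centralizer_iff) he.1.1.2 hb hθ
      fun h => not_memLocalIdeal_one hM (by simpa using memLocalIdeal_sub hM h hθ1)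
  refine ⟨hb, hB, fun η hη χ hχ g => ?_⟩
  have hHC : ∀ z : MonoidAlgebra ℂ H, IsClassElt z → IsIntegralElt M z →
      MemLocalIdeal M (omega (η : H → ℂ) z - omega (θ : C → ℂ) (res C z)) := by
    intro z hz hzi
    have := memLocalIdeal_neg (omega_res_induced hM hindC hθ hη hz hzi)
    rwa [neg_sub] at this
  set φ := inclEquiv hPH hCH with hφ
  have hpush : ∀ z : MonoidAlgebra ℂ G,
      omega (θ : C → ℂ) (res C (res H z)) =
        omega (pushChar φ θ : _ → ℂ) (res (Subgroup.centralizer (P : Set G)) z) := by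
    intro z
    simp only [omega, coeff_res, pushChar_apply, map_one]
    congr 1
    refine Fintype.sum_equiv φ.toEquiv _ _ fun k => ?_
    show _ = z.coeff ((φ k : G)) * (θ : C → ℂ) (φ.symm (φ k))
    rw [MulEquiv.symm_apply_apply]
    rfl
  set θ' := pushChar φ θ with hθ'
  have h1 : MemLocalIdeal M (omega (θ' : _ → ℂ) (res (Subgroup.centralizer (P : Set G)) (blockElt B)) - 1) := by
    rw [hθ', ← hpush]
    have h2 := hHC (blockElt b) (isClassElt_blockElt b) (isIntegralElt_blockElt hM hb)
    rw [omega_blockElt, if_pos hη] at h2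
    have h3 : MemLocalIdeal M (omega (θ : C → ℂ) (res C (res H (blockElt B))) - omega (θ : C → ℂ) (res C (blockElt b))) :=
      omega_congr hM θ (isClassElt_res (isClassElt_res (isClassElt_blockElt B) H) _)
        (isClassElt_res (isClassElt_blockElt b) _) fun k => by
          rw [coeff_res, coeff_res, coeff_res, coeff_blockElt, coeff_blockElt]
          have := hc _ (inclEquiv hPH hCH k).2
          rwa [coe_inclEquiv, subgroupBlockCoeff_coe] at this
    have := memLocalIdeal_sub hM h3 h2
    rwa [show ∀ a b : ℂ, (a - b) - (1 - b) = a - 1 from fun a b => by ring] at this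
  have hind : IsInducedBlock M (Subgroup.centralizer (P : Set G)) (blockOf M (θ' : _ → ℂ)) B :=
    isInducedBlock_of_not_small hM hP (fun x => Subgroup.mem_centralizer_iff) (isPBlock_blockOf M θ') hB
      (mem_blockOf_self hM θ') fun h => not_memLocalIdeal_one hM (by simpa using memLocalIdeal_sub hM h h1)
  have h4 := omega_res_induced hM hind (mem_blockOf_self hM θ') hχ (isClassElt_classElt g) (isIntegralElt_classElt hM g)
  rw [omega_classElt χ.2, hθ', ← hpush] at h4
  have h5 := hHC (res H (classElt g)) (isClassElt_res (isClassElt_classElt g) H)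
    (isIntegralElt_res (isIntegralElt_classElt hM g) H)
  rw [omega_res_classElt] at h5
  have := memLocalIdeal_add hM h5 h4
  rwa [sub_add_sub_cancel] at this

/-- The induced block of a block with defect group `P` of an overgroup of the normalizer. -/
theorem exists_induced_defect (hM : IsPModular p M) (hNH : Subgroup.normalizer (P : Set G) ≤ H)
    {c : Set (IrrCharacter H)} (hc : IsPBlock M c) (hD : IsDefectGroup p M c (P.subgroupOf H)) :
    ∃ B : Set (IrrCharacter G), IsPBlock M B ∧ IsDefectGroup p M B P ∧ IsInducedBlock M H c B := by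
  have hPH : P ≤ H := Subgroup.le_normalizer.trans hNH
  obtain ⟨B, hB, hBD, hBc⟩ := exists_global_block hM hPH hNH hc hD
  exact ⟨B, hB, hBD, isInducedBlock_of_congr_centralizer hM hPH
    ((Subgroup.centralizer_le_normalizer (s := (P : Set G))).trans hNH) hc hD hB hBc⟩

/-- A block with defect group `P` is induced from a block with defect group `P`. -/
theorem exists_inducing_defect (hM : IsPModular p M) (hNH : Subgroup.normalizer (P : Set G) ≤ H)
    {B : Set (IrrCharacter G)} (hB : IsPBlock M B) (hD : IsDefectGroup p M B P) :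
    ∃ c : Set (IrrCharacter H), IsPBlock M c ∧ IsDefectGroup p M c (P.subgroupOf H) ∧ IsInducedBlock M H c B := by
  have hPH : P ≤ H := Subgroup.le_normalizer.trans hNH
  obtain ⟨c, hc, hcD, hcc⟩ := exists_local_block hM hPH hNH hB hD
  exact ⟨c, hc, hcD, isInducedBlock_of_congr_centralizer hM hPH
    ((Subgroup.centralizer_le_normalizer (s := (P : Set G))).trans hNH) hc hcD hB hcc⟩

/-- Two blocks with defect group `P` inducing the same block are equal. -/
theorem inducing_defect_unique (hM : IsPModular p M) (hNH : Subgroup.normalizer (P : Set G) ≤ H)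
    {c c' : Set (IrrCharacter H)} (hD : IsDefectGroup p M c (P.subgroupOf H))
    (hD' : IsDefectGroup p M c' (P.subgroupOf H)) {B : Set (IrrCharacter G)}
    (h : IsInducedBlock M H c B) (h' : IsInducedBlock M H c' B) : c = c' := by
  have hPH : P ≤ H := Subgroup.le_normalizer.trans hNH
  have hCH := (Subgroup.centralizer_le_normalizer (s := (P : Set G))).trans hNH
  have hP : IsPGroup p P := (isPGroup_of_isDefectGroup hD).of_equiv (Subgroup.subgroupOfEquivOfLe hPH)
  obtain ⟨B₁, hB₁, hB₁D, hB₁c⟩ := exists_global_block hM hPH hNH h.1 hD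
  obtain ⟨B₂, hB₂, hB₂D, hB₂c⟩ := exists_global_block hM hPH hNH h'.1 hD'
  obtain rfl := induced_block_unique hM (isInducedBlock_of_congr_centralizer hM hPH hCH h.1 hD hB₁ hB₁c) h
  obtain rfl := induced_block_unique hM (isInducedBlock_of_congr_centralizer hM hPH hCH h'.1 hD' hB₂ hB₂c) h'
  exact ((first_main hM hP hNH).1 B₂ hB₁ hB₁D).unique ⟨h.1, hD, hB₁c⟩ ⟨h'.1, hD', hB₂c⟩

end CfsgLib.Blocks
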