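import Cfsg.Agent.Blocks.DefectGroup
import Cfsg.Agent.Blocks.Residue

/-!
# Counting blocks by `p`-regular classes
-/

set_option linter.unusedSectionVars false
set_option linter.style.haveILetI false

namespace CfsgLib.Blocks

open Cfsg CfsgLib.CharBasics
open scoped ComplexConjugate

universe u

variable {G : Type u} [Group G] [Fintype G] {p : ℕ} {M : Ideal AlgInt}

/-- Blocks with a given defect condition are at most as many as the classes supporting their pairing. -/
theorem card_blocks_le (hM : IsPModular p M) (P : ℕ → Prop) (T : Set (ConjClasses G))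
    (hT : ∀ g : G, ¬ p ∣ orderOf g → ∀ d e : ℕ, P d → P e → d ≤ centExp p g → centExp p g ≤ e →
      ConjClasses.mk g ∈ T) :
    Nat.card {B : Set (IrrCharacter G) // IsPBlock M B ∧ P (blockDefect p B)} ≤ Nat.card T := by
  classical
  haveI : Fintype (ConjClasses G) := Fintype.ofFinite _
  haveI : Fintype (IrrCharacter G) := @Fintype.ofFinite _ finite_irrCharacter
  letI := residueField hM
  set S := {B : Set (IrrCharacter G) // IsPBlock M B ∧ P (blockDefect p B)}
  haveI : Fintype S := Fintype.ofFinite _
  choose χ hχ hmin hs using fun B : S => exists_min_degExp hM B.2.1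
  let a : S → ConjClasses G → Residue hM := fun B C =>
    Ideal.Quotient.mk (localIdeal hM) ⟨centralChar (χ B : G → ℂ) C.out, memLocalRing_centralChar hM _ _⟩
  let b : ConjClasses G → S → Residue hM := fun C B =>
    Ideal.Quotient.mk (localIdeal hM) ⟨blockCoeff B.1 C.out, memLocalRing_blockCoeff hM B.2.1 _⟩
  have hsum : ∀ B B' : S, ∑ C, a B C * b C B' = if B = B' then 1 else 0 := by
    intro B B'
    have h := omega_eq_sum_classes (χ B) (isClassElt_blockElt B'.1)
    rw [omega_blockElt] at h
    simp only [coeff_blockElt] at h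
    have e : (if B = B' then (1 : Residue hM) else 0)
        = Ideal.Quotient.mk (localIdeal hM) (if B = B' then 1 else 0) := by split_ifs <;> simp
    rw [e]
    simp only [a, b, ← map_mul, ← map_sum]
    congr 1
    apply Subtype.ext
    rw [AddSubmonoidClass.coe_finsetSum]
    simp only [Subring.coe_mul]
    rw [Finset.sum_congr rfl (fun C _ => mul_comm (centralChar (χ B : G → ℂ) C.out) _), ← h]
    have hiff : χ B ∈ B'.1 ↔ B = B' :=
      ⟨fun k => Subtype.ext (IsPBlock.eq_of_mem hM B.2.1 B'.2.1 (hχ B) k), fun k => k ▸ hχ B⟩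
    by_cases hB : B = B'
    · rw [if_pos (hiff.2 hB), if_pos hB]; rfl
    · rw [if_neg (mt hiff.1 hB), if_neg hB]; rfl
  have hzero : ∀ B B' C, C ∉ T → a B C * b C B' = 0 := by
    intro B B' C hC
    by_contra hne
    obtain ⟨ha, hb⟩ := mul_ne_zero_iff.1 hne
    rw [Ne, Ideal.Quotient.eq_zero_iff_mem, mem_localIdeal] at ha hb
    have hreg : ¬ p ∣ orderOf C.out := fun hp => hb (by
      show MemLocalIdeal M (blockCoeff B'.1 C.out)
      rw [blockCoeff_eq_zero hM B'.2.1 hp]; exact memLocalIdeal_zero hM)
    refine hC (Quotient.out_eq C ▸ hT C.out hreg _ _ B.2.2 B'.2.2 ?_ ?_)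
    · rw [blockDefect_eq (hs B)]
      exact le_centExp hM _ ha
    · obtain ⟨y, hy⟩ := exists_defectClass hM B'.2.1
      rw [← centExp_eq_blockDefect hM B'.2.1 hy]
      exact centExp_le hM B'.2.1 (hχ B') hb (hy.2.2 _ (hχ B'))
  let A : Matrix S T (Residue hM) := Matrix.of fun B C => a B C
  let B₁ : Matrix T S (Residue hM) := Matrix.of fun C B => b C B
  have hAB : A * B₁ = 1 := by
    ext B B'
    rw [Matrix.mul_apply, Matrix.one_apply, ← hsum B B']
    simp only [A, B₁, Matrix.of_apply]
    rw [← Finset.sum_subtype (Finset.univ.filter (· ∈ T)) (by simp) (fun C => a B C * b C B')]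
    exact Finset.sum_filter_of_ne fun C _ hne => by_contra fun hC => hne (hzero B B' C hC)
  rw [Nat.card_eq_fintype_card, Nat.card_eq_fintype_card, ← Matrix.rank_one (n := S) (R := Residue hM), ← hAB]
  exact (Matrix.rank_mul_le_left A B₁).trans A.rank_le_card_width

end CfsgLib.Blocks
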