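import Cfsg.Agent.Clifford.GlaubermanNormalSylow
import Cfsg.Agent.Blocks.Covering
import Cfsg.Agent.Blocks.Transport
import Cfsg.Agent.S4445
import Cfsg.Agent.Blocks.PIndex
import Cfsg.Agent.Clifford.GlaubermanNormalSylow

/-!
# The Glauberman correspondence over a normal subgroup

If the correspondent of `χ` lies over the correspondent of `θ` then `χ` lies over `θ`; hence, for a solvable
group of operators of coprime order, every invariant character of a normal subgroup lies under an invariant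
character.
-/

set_option linter.unusedSectionVars false
set_option linter.style.haveILetI false

namespace CfsgLib.Blocks

open Cfsg CfsgLib.CharBasics CfsgLib.Clifford CfsgLib.NormalSylowCorr
open scoped ComplexConjugate

universe u v

/-- The coefficients of the idempotent of a twist-stable set are invariant. -/
theorem blockCoeff_twist {N : Type*} [Group N] [Finite N] (a : MulAut N) (U : Set (IrrCharacter N))
    (hU : ∀ ψ, twistChar a ψ ∈ U ↔ ψ ∈ U) (n : N) : blockCoeff U (a n) = blockCoeff U n := by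
  classical
  have ht : ∀ ψ : IrrCharacter N, twistChar a (twistChar a⁻¹ ψ) = ψ := fun ψ => Subtype.ext (funext fun m => by
    show (ψ : N → ℂ) (a⁻¹ (a m)) = _
    rw [MulAut.inv_apply_self])
  simp only [blockCoeff]
  congr 1
  refine finsum_mem_eq_of_bijOn (fun ψ => twistChar a ψ) ⟨fun ψ hψ => (hU ψ).2 hψ, ?_, ?_⟩ fun ψ _ => ?_
  · intro ψ _ ψ' _ h
    exact Subtype.ext (funext fun m => by
      have := congrFun (congrArg Subtype.val h) (a⁻¹ m)
      simpa [twistChar_apply] using this)
  · intro ψ hψ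
    exact ⟨twistChar a⁻¹ ψ, (hU _).1 (by rw [ht]; exact hψ), ht ψ⟩
  · show _ = (twistChar a ψ : N → ℂ) 1 * conj ((twistChar a ψ : N → ℂ) n)
    rw [twistChar_apply, twistChar_apply, map_one]

variable {p : ℕ} {M : Ideal AlgInt}

/-- An automorphism normalizing the operators respects the correspondence. -/
theorem corr_twist {G T : Type*} [Group G] [Fintype G] [Group T] [Finite T] (hM : IsPModular p M)
    (φ : T →* MulAut G) (hT : IsPGroup p T) (hpG : ¬ p ∣ Nat.card G) [Fintype (fixedSub φ)]
    (a : MulAut G) (ha : ∀ t, ∃ t', ∀ g, a (φ t g) = φ t' (a g))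
    (b : MulAut (fixedSub φ)) (hb : ∀ c : fixedSub φ, ((b c : fixedSub φ) : G) = a c)
    {χ : IrrCharacter G} {β : IrrCharacter (fixedSub φ)} (hχ : IsInvariant φ (χ : G → ℂ)) (hc : Corr φ M χ β) :
    IsInvariant φ (twistChar a χ : G → ℂ) ∧ Corr φ M (twistChar a χ) (twistChar b β) := by
  classical
  have hinv : IsInvariant φ (twistChar a χ : G → ℂ) := by
    intro t g
    obtain ⟨t', ht'⟩ := ha t
    rw [twistChar_apply, twistChar_apply, ht']
    exact hχ t' _
  refine ⟨hinv, ?_⟩
  obtain ⟨m, hm⟩ := classInner_character_nat (CharBasics.isCharacter_restrict (isCharacter_of_irr χ.2) (fixedSub φ)) β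
  have hm' : classInner (fun c : fixedSub φ => (twistChar a χ : G → ℂ) (c : G))
      (twistChar b β : fixedSub φ → ℂ) = m := by
    rw [← hm]
    simp only [classInner, twistChar_apply, ← hb]
    congr 1
    exact b.toEquiv.sum_comp (fun c : fixedSub φ => (χ : G → ℂ) (c : G) * conj ((β : fixedSub φ → ℂ) c))
  by_contra hn
  exact (mult_dvd_iff φ hM hT hpG hχ β hm).1 ((mult_dvd_iff φ hM hT hpG hinv _ hm').2 hn) hc

/-- The fixed points on an invariant subgroup, inside the fixed points. -/
def fixedSubgroupOf {G T : Type*} [Group G] [Group T] (φ : T →* MulAut G) (N : Subgroup G)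
    (hN : ∀ t, ∀ n ∈ N, φ t n ∈ N) : fixedSub (restrictAct φ N hN) ≃* N.subgroupOf (fixedSub φ) where
  toFun c := ⟨⟨((c : N) : G), fun t => congrArg Subtype.val (c.2 t)⟩, (c : N).2⟩
  invFun d := ⟨⟨((d : fixedSub φ) : G), d.2⟩, fun t => Subtype.ext ((d : fixedSub φ).2 t)⟩
  left_inv _ := rfl
  right_inv _ := rfl
  map_mul' _ _ := rfl

set_option maxHeartbeats 1000000 in
/-- The correspondence over a normal subgroup. -/
theorem constituent_of_corr {G T : Type*} [Group G] [Fintype G] [Group T] [Finite T] (hM : IsPModular p M)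
    (φ : T →* MulAut G) (hT : IsPGroup p T) (hpG : ¬ p ∣ Nat.card G) (N : Subgroup G) [hNn : N.Normal] [Fintype N]
    (hN : ∀ t, ∀ n ∈ N, φ t n ∈ N) [Fintype (fixedSub φ)] [Fintype (fixedSub (restrictAct φ N hN))]
    [Fintype (N.subgroupOf (fixedSub φ))]
    {χ : IrrCharacter G} (hχ : IsInvariant φ (χ : G → ℂ)) {γ : IrrCharacter (fixedSub φ)} (hc : Corr φ M χ γ)
    {θ : IrrCharacter N} (hθ : IsInvariant (restrictAct φ N hN) (θ : N → ℂ))
    {β : IrrCharacter (fixedSub (restrictAct φ N hN))} (hcθ : Corr (restrictAct φ N hN) M θ β)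
    (hover : classInner (fun d : N.subgroupOf (fixedSub φ) => (γ : fixedSub φ → ℂ) d)
      (pushChar (fixedSubgroupOf φ N hN) β : N.subgroupOf (fixedSub φ) → ℂ) ≠ 0) :
    classInner (fun n : N => (χ : G → ℂ) n) (θ : N → ℂ) ≠ 0 := by
  classical
  intro hθ0
  haveI : Fintype (IrrCharacter N) := @Fintype.ofFinite _ finite_irrCharacter
  let φN := restrictAct φ N hN
  have hpN : ¬ p ∣ Nat.card N := fun h => hpG (h.trans (Subgroup.card_subgroup_dvd_card N))
  let U : Set (IrrCharacter N) := {ψ | classInner (fun n : N => (χ : G → ℂ) n) (ψ : N → ℂ) ≠ 0}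
  have htw : ∀ (a : MulAut N), (∀ n : N, (χ : G → ℂ) ((a n : N) : G) = (χ : G → ℂ) n) →
      ∀ ψ, twistChar a ψ ∈ U ↔ ψ ∈ U := by
    intro a ha ψ
    have e : classInner (fun n : N => (χ : G → ℂ) n) (twistChar a ψ : N → ℂ) =
        classInner (fun n : N => (χ : G → ℂ) n) (ψ : N → ℂ) := by
      simp only [classInner, twistChar_apply]
      congr 1
      conv_rhs => rw [← a.toEquiv.sum_comp]
      exact Finset.sum_congr rfl fun n _ => (congrArg (· * _) (ha n)).symm
    show classInner _ _ ≠ 0 ↔ classInner _ _ ≠ 0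
    rw [e]
  have hTU : ∀ t ψ, twistChar (φN t) ψ ∈ U ↔ ψ ∈ U := fun t ψ => htw _ (fun n => hχ t n) ψ
  have hGU : ∀ g : G, ∀ ψ, twistChar (MulAut.conjNormal g) ψ ∈ U ↔ ψ ∈ U := fun g ψ => htw _ (fun n => by
    rw [MulAut.conjNormal_apply]; exact isClassFunction (isCharacter_of_irr χ.2) _ _) ψ
  let f : MonoidAlgebra ℂ G := ofFun fun g : G => if hg : g ∈ N then blockCoeff U ⟨g, hg⟩ else 0
  have hfN : ∀ n : N, f.coeff (n : G) = blockCoeff U n := fun n => by simp [f, coeff_ofFun]
  have hfs : ∀ g, g ∉ N → f.coeff g = 0 := fun g hg => by simp [f, coeff_ofFun, hg]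
  have hfc : IsClassElt f := by
    intro x y
    show f.coeff (y * x * y⁻¹) = f.coeff x
    by_cases hx : x ∈ N
    · rw [show x = ((⟨x, hx⟩ : N) : G) from rfl]
      rw [show y * ((⟨x, hx⟩ : N) : G) * y⁻¹ = ((MulAut.conjNormal y ⟨x, hx⟩ : N) : G) from
        (MulAut.conjNormal_apply y ⟨x, hx⟩).symm, hfN, hfN, blockCoeff_twist _ U (hGU y)]
    · rw [hfs x hx, hfs _ fun k => hx (by simpa [mul_assoc] using hNn.conj_mem _ k y⁻¹)]
  have hfI : IsIntegralElt M f := by
    intro g
    by_cases hg : g ∈ N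
    · rw [show g = ((⟨g, hg⟩ : N) : G) from rfl, hfN, blockCoeff, finsum_mem_eq_finite_toFinset_sum _ U.toFinite,
        Finset.mul_sum]
      exact memLocalRing_sum hM _ fun ψ _ => memLocalRing_mul hM (memLocalRing_natCast_inv hM hpN)
        (memLocalRing_mul hM (memLocalRing_apply hM ψ 1) (memLocalRing_conj hM ψ _))
    · rw [hfs g hg]; exact memLocalRing_zero hM
  have hfi : IsInvariant φ fun g => f.coeff g := by
    intro t g
    show f.coeff (φ t g) = f.coeff g
    by_cases hg : g ∈ N
    · rw [show φ t g = ((φN t ⟨g, hg⟩ : N) : G) from rfl, hfN, blockCoeff_twist _ U (hTU t),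
        ← hfN ⟨g, hg⟩]
    · have hg' : φ t g ∉ N := fun k => hg (by simpa [act_apply_inv] using hN t⁻¹ _ k)
      rw [hfs g hg, hfs _ hg']
  -- `f` is one on `χ`
  obtain ⟨ψ₀, hψ₀⟩ := exists_constituent_restrict N χ
  have hfχ : omega (χ : G → ℂ) f = 1 := by
    rw [omega_eq_res_constituent hfc hfs χ ψ₀ hψ₀,
      show ZStar.res N f = blockElt U from by ext n; rw [ZStar.coeff_res, hfN, coeff_blockElt],
      omega_blockElt, if_pos (show ψ₀ ∈ U from hψ₀)]
  have hmul : f * blockElt ({χ} : Set (IrrCharacter G)) = blockElt ({χ} : Set (IrrCharacter G)) := by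
    refine eq_of_omega_eq (hfc.mul (isClassElt_blockElt _)) (isClassElt_blockElt _) fun ρ => ?_
    rw [omega_mul ρ.2 hfc, omega_blockElt]
    by_cases hρ : ρ ∈ ({χ} : Set (IrrCharacter G))
    · rw [if_pos hρ, mul_one, show ρ = χ from hρ, hfχ]
    · rw [if_neg hρ, mul_zero]
  -- hence its Brauer image is one on `γ`
  have h1 : MemLocalIdeal M (omega (γ : (fixedSub φ) → ℂ) (ZStar.res (fixedSub φ) f) - 1) := by
    have hR := memLocalRing_omega hM γ (ZStar.isClassElt_res hfc (fixedSub φ)) (ZStar.isIntegralElt_res hfI (fixedSub φ))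
    have h := omega_congr hM γ ((ZStar.isClassElt_res hfc (fixedSub φ)).mul (isClassElt_brIdem φ χ)) (isClassElt_brIdem φ χ)
      fun c => by
        have h := coeff_mul_congr hM φ hT hfI (isIntegralElt_singleton hM hpG χ) hfi
          (invariant_blockElt_singleton φ hχ) c
        rw [hmul, ← brIdem_eq] at h
        rw [show (brIdem φ χ).coeff c = (blockElt ({χ} : Set (IrrCharacter G))).coeff (c : G) by
          rw [brIdem_eq, coeff_ofFun], ← neg_sub]
        exact memLocalIdeal_neg h
    rw [omega_mul γ.2 (ZStar.isClassElt_res hfc (fixedSub φ))] at h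
    have h2 := memLocalIdeal_mul_left hM hR hc
    have h3 := memLocalIdeal_add hM (memLocalIdeal_sub hM h h2) hc
    convert h3 using 1
    ring
  -- and so is that of the idempotent of `U` on `β`
  haveI : (N.subgroupOf (fixedSub φ)).Normal := hNn.subgroupOf (fixedSub φ)
  have hsuppD : ∀ c : (fixedSub φ), c ∉ (N.subgroupOf (fixedSub φ)) → (ZStar.res (fixedSub φ) f).coeff c = 0 := fun c hcD => by
    rw [ZStar.coeff_res]; exact hfs _ fun k => hcD k
  rw [omega_eq_res_constituent (ZStar.isClassElt_res hfc (fixedSub φ)) hsuppD γ _ hover] at h1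
  let g₀ : MonoidAlgebra ℂ (fixedSub φN) := ofFun fun c : fixedSub φN => blockCoeff U (c : N)
  have e1 : omega (pushChar (fixedSubgroupOf φ N hN) β : (N.subgroupOf (fixedSub φ)) → ℂ) (ZStar.res (N.subgroupOf (fixedSub φ)) (ZStar.res (fixedSub φ) f)) =
      omega (β : fixedSub φN → ℂ) g₀ := by
    simp only [omega, ZStar.coeff_res, g₀, coeff_ofFun, pushChar_apply, map_one]
    congr 1
    refine ((fixedSubgroupOf φ N hN).toEquiv.sum_comp _).symm.trans (Finset.sum_congr rfl fun c _ => ?_)
    show _ * (β : fixedSub φN → ℂ) ((fixedSubgroupOf φ N hN).symm (fixedSubgroupOf φ N hN c)) = _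
    rw [MulEquiv.symm_apply_apply]
    exact congrArg (· * _) (hfN (c : N))
  rw [e1] at h1
  -- which is impossible
  letI : MulAction T U :=
    { smul := fun t ψ => ⟨twistChar (φN t⁻¹) ψ.1, (hTU t⁻¹ ψ.1).2 ψ.2⟩
      one_smul := fun ψ => Subtype.ext (Subtype.ext (funext fun g => by
        show ((ψ.1 : IrrCharacter N) : N → ℂ) (φN (1 : T)⁻¹ g) = _; rw [inv_one, map_one]; rfl))
      mul_smul := fun s t ψ => Subtype.ext (Subtype.ext (funext fun g => by
        show ((ψ.1 : IrrCharacter N) : N → ℂ) (φN (s * t)⁻¹ g) = (ψ.1 : N → ℂ) (φN t⁻¹ (φN s⁻¹ g))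
        rw [mul_inv_rev, map_mul]; rfl)) }
  haveI : Fintype U := Fintype.ofFinite _
  have hzero : MemLocalIdeal M (omega (β : fixedSub φN → ℂ) g₀) := by
    let z : MonoidAlgebra ℂ (fixedSub φN) :=
      ∑ ψ : U, if (∀ t : T, t • ψ = ψ) then brIdem φN ψ.1 else 0
    have hg₀c : IsClassElt g₀ := fun x y => by
      simp only [g₀, coeff_ofFun]
      have hcc := isClassElt_blockElt U ((x : fixedSub φN) : N) ((y : fixedSub φN) : N)
      simp only [coeff_blockElt] at hcc
      exact hcc
    have hzc : IsClassElt z := by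
      intro g h
      simp only [z, MonoidAlgebra.coeff_sum, Finset.sum_apply']
      refine Finset.sum_congr rfl fun ψ _ => ?_
      split_ifs
      · exact coeff_conj (isClassElt_brIdem φN _) g h
      · rfl
    have hsum : ∀ c : fixedSub φN, MemLocalIdeal M (g₀.coeff c - z.coeff c) := by
      intro c
      have h := sum_sub_fixed_mem hM hT (W := U) (fun ψ => blockCoeff {ψ.1} (c : N)) (fun t ψ => by
        show blockCoeff {twistChar (φN t⁻¹) ψ.1} (c : N) = _
        rw [blockCoeff_singleton, blockCoeff_singleton, twistChar_apply, twistChar_apply, map_one, c.2])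
        (fun ψ => by
          have := isIntegralElt_singleton hM hpN ψ.1 (c : N)
          rwa [coeff_blockElt] at this)
      have e2 : ∑ ψ : U, blockCoeff {ψ.1} (c : N) = g₀.coeff c := by
        simp only [g₀, coeff_ofFun, blockCoeff_singleton, ← Finset.mul_sum]
        rw [blockCoeff, finsum_mem_eq_finite_toFinset_sum _ U.toFinite]
        congr 1
        exact (Finset.sum_subtype (U.toFinite.toFinset) (fun ψ => U.toFinite.mem_toFinset)
          (fun ψ : IrrCharacter N => (ψ : N → ℂ) 1 * conj ((ψ : N → ℂ) (c : N)))).symm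
      have e3 : (∑ ψ : U, if (∀ t : T, t • ψ = ψ) then blockCoeff {ψ.1} (c : N) else 0) = z.coeff c := by
        simp only [z, MonoidAlgebra.coeff_sum, Finset.sum_apply']
        exact Finset.sum_congr rfl fun ψ _ => by split_ifs <;> simp [brIdem, coeff_ofFun]
      rwa [e2, e3] at h
    have h2 := omega_congr hM β hg₀c hzc hsum
    have e4 : omega (β : fixedSub φN → ℂ) z
        = ∑ ψ : U, if (∀ t : T, t • ψ = ψ) then omega (β : fixedSub φN → ℂ) (brIdem φN ψ.1) else 0 := by
      simp only [z, ZStar.omega_sum]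
      refine Finset.sum_congr rfl fun ψ _ => ?_
      split_ifs
      · rfl
      · simp [omega]
    have h3 : MemLocalIdeal M (omega (β : fixedSub φN → ℂ) z) := by
      rw [e4]
      refine memLocalIdeal_sum hM _ fun ψ _ => ?_
      split_ifs with hψ
      · have hψi : IsInvariant φN (ψ.1 : N → ℂ) := by
          intro t g
          have h5 := congrArg Subtype.val (hψ t⁻¹)
          have h6 : twistChar (φN t⁻¹⁻¹) ψ.1 = ψ.1 := h5
          rw [inv_inv] at h6
          exact congrFun (congrArg Subtype.val h6) g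
        refine (omega_brIdem_dichotomy φN hM hT hpN hψi β).resolve_right fun k => ?_
        have h5 := ψ.2
        rw [corr_injective φN hM hT hpN hψi hθ k hcθ] at h5
        exact h5 hθ0
      · exact memLocalIdeal_zero hM
    simpa using memLocalIdeal_add hM h2 h3
  exact not_memLocalIdeal_one hM (by simpa using memLocalIdeal_sub hM hzero h1)

/-- Invariant characters over invariant characters of normal subgroups, solvable operators. -/
theorem exists_invariant_over (n : ℕ) : ∀ (G : Type u) (S : Type v) [Group G] [Fintype G] [Group S] [Finite S]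
    (φ : S →* MulAut G), Nat.card S = n → (Nat.card G).Coprime (Nat.card S) → Group.IsSolvable S →
    ∀ (N : Subgroup G) [N.Normal] [Fintype N] (hN : ∀ s, ∀ x ∈ N, φ s x ∈ N) (θ : IrrCharacter N),
      IsInvariant (restrictAct φ N hN) (θ : N → ℂ) →
      ∃ χ : IrrCharacter G, IsInvariant φ (χ : G → ℂ) ∧ classInner (fun x : N => (χ : G → ℂ) x) (θ : N → ℂ) ≠ 0 := by
  induction n using Nat.strong_induction_on with
  | _ n ih =>
  intro G S _ _ _ _ φ hn hcop hsolv N hNn _ hN θ hθ
  classical
  rcases subsingleton_or_nontrivial S with hS | hS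
  · obtain ⟨χ, hχ⟩ := exists_over_character (G := G) θ
    refine ⟨χ, fun s g => ?_, hχ⟩
    rw [Subsingleton.elim s 1, map_one]; rfl
  obtain ⟨p, T, hp, hTn, hT, hT1⟩ := Cfsg.Agent.S4445.exists_normal_pSubgroup S hsolv
  haveI := hTn
  haveI := Fact.mk hp
  have hpS : p ∣ Nat.card S := by
    haveI : Nontrivial T := (Subgroup.nontrivial_iff_ne_bot T).2 hT1
    obtain ⟨k, hk⟩ := IsPGroup.iff_card.1 hT
    have hk0 : k ≠ 0 := fun h => by
      have h2 := Finite.one_lt_card (α := T)
      rw [hk, h, pow_zero] at h2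
      omega
    exact (dvd_pow_self p hk0).trans (hk ▸ Subgroup.card_subgroup_dvd_card T)
  have hpG : ¬ p ∣ Nat.card G := fun h => hp.one_lt.ne' (Nat.eq_one_of_dvd_coprimes hcop h hpS)
  have hpN : ¬ p ∣ Nat.card N := fun h => hpG (h.trans (Subgroup.card_subgroup_dvd_card N))
  obtain ⟨M, hM⟩ := exists_modular hp
  let φT : T →* MulAut G := φ.comp T.subtype
  have hNT : ∀ t : T, ∀ x ∈ N, φT t x ∈ N := fun t => hN t
  let φNT := restrictAct φT N hNT
  let C := fixedSub φT
  haveI : Fintype C := Fintype.ofFinite _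
  haveI : Fintype (fixedSub φNT) := Fintype.ofFinite _
  let D := N.subgroupOf C
  haveI : D.Normal := hNn.subgroupOf C
  haveI : Fintype D := Fintype.ofFinite _
  have hconj : ∀ (s : S) (t : T), ∃ t' : T, ∀ g, φ s (φT t g) = φT t' (φ s g) := fun s t =>
    ⟨⟨s * t * s⁻¹, hTn.conj_mem _ t.2 s⟩, fun g => by
      calc φ s (φ (t : S) g) = φ (s * t * s⁻¹ * s) g := by
            rw [show s * (t : S) * s⁻¹ * s = s * t by group, map_mul]; rfl
        _ = φ (s * t * s⁻¹) (φ s g) := by rw [map_mul]; rfl⟩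
  have hstab : ∀ s, ∀ c ∈ C, φ s c ∈ C := by
    intro s c hc t
    obtain ⟨t', ht'⟩ := hconj s⁻¹ t
    have h := ht' (φ s c)
    rw [act_apply_inv, hc t'] at h
    have := congrArg (φ s) h
    rwa [act_inv_apply] at this
  let ψ : S →* MulAut C := restrictAct φ C hstab
  let ψ' : S ⧸ T →* MulAut C := QuotientGroup.lift T ψ
    (fun t ht => MulEquiv.ext fun c => Subtype.ext (c.2 ⟨t, ht⟩))
  -- the correspondent of `θ`
  have hθT : IsInvariant φNT (θ : N → ℂ) := fun t x => hθ t x
  obtain ⟨β, hβ⟩ := corr_exists_right φNT hM hT hpN hθT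
  have hDinv : ∀ q : S ⧸ T, ∀ c ∈ D, ψ' q c ∈ D := by
    intro q c hc
    obtain ⟨s, rfl⟩ := QuotientGroup.mk_surjective q
    exact hN s _ hc
  set e := fixedSubgroupOf φT N hNT
  have hβinv : IsInvariant (restrictAct ψ' D hDinv) (pushChar e β : D → ℂ) := by
    intro q d
    obtain ⟨s, rfl⟩ := QuotientGroup.mk_surjective q
    let b : MulAut (fixedSub φNT) := (e.trans (restrictAct ψ' D hDinv (s : S ⧸ T))).trans e.symm
    obtain ⟨h1, h2⟩ := corr_twist hM φNT hT hpN (restrictAct φ N hN s)
      (fun t => by obtain ⟨t', ht'⟩ := hconj s t; exact ⟨t', fun x => Subtype.ext (ht' x)⟩)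
      b (fun c => rfl) hθT hβ
    have e1 : twistChar (restrictAct φ N hN s) θ = θ := Subtype.ext (funext fun x => hθ s x)
    rw [e1] at h2
    have h3 := congrFun (congrArg Subtype.val (corr_unique φNT hM hT hpN hθT h2 hβ)) (e.symm d)
    rw [twistChar_apply] at h3
    rw [pushChar_apply, pushChar_apply]
    refine Eq.trans (congrArg _ ?_) h3
    show _ = e.symm (restrictAct ψ' D hDinv (s : S ⧸ T) (e (e.symm d)))
    rw [MulEquiv.apply_symm_apply]
  have hlt : Nat.card (S ⧸ T) < n := by
    rw [← hn, ← Subgroup.index_eq_card, ← T.card_mul_index]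
    haveI : Nontrivial T := (Subgroup.nontrivial_iff_ne_bot T).2 hT1
    exact lt_mul_of_one_lt_left (Nat.pos_of_ne_zero Subgroup.index_ne_zero_of_finite) Finite.one_lt_card
  obtain ⟨γ, hγ, hγβ⟩ := ih _ hlt C (S ⧸ T) ψ' rfl
    (Nat.Coprime.coprime_dvd_left (Subgroup.card_subgroup_dvd_card C)
      (Nat.Coprime.coprime_dvd_right (Subgroup.card_quotient_dvd_card T) hcop))
    (haveI := hsolv; inferInstance) D hDinv (pushChar e β) hβinv
  obtain ⟨χ, hχ, hc⟩ := corr_exists_left φT hM hT hpG γ
  refine ⟨χ, fun s g => ?_, constituent_of_corr hM φT hT hpG N hNT hχ hc hθT hβ hγβ⟩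
  obtain ⟨h1, h2⟩ := corr_twist hM φT hT hpG (φ s) (hconj s) (ψ s) (fun c => rfl) hχ hc
  have e2 : twistChar (ψ s) γ = γ := Subtype.ext (funext fun c => hγ (s : S ⧸ T) c)
  rw [e2] at h2
  exact congrFun (congrArg Subtype.val (corr_injective φT hM hT hpG h1 hχ h2 hc)) g

end CfsgLib.Blocks
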