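import Cfsg.Agent.Blocks.InducedIn
import Cfsg.Agent.S4438

/-!
# Covering blocks and the normalizer of the defect group below
-/

set_option linter.unusedSectionVars false
set_option linter.style.haveILetI false

namespace CfsgLib.Blocks

open Cfsg CfsgLib.CharBasics CfsgLib.ZStar CfsgLib.Clifford

universe u

variable {G : Type u} [Group G] [Fintype G] {p : ℕ} {M : Ideal AlgInt}
variable {N : Subgroup G} [hN : N.Normal] [Fintype N]
variable {Q H K : Subgroup G} [Fintype H] [Fintype K]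

theorem classInner_inclusion (hKH : K ≤ H) [Fintype (K.subgroupOf H)] (ψ : IrrCharacter H) (ξ : IrrCharacter K) :
    classInner (fun m : K.subgroupOf H => (ψ : H → ℂ) m)
      (pushChar (Subgroup.subgroupOfEquivOfLe hKH).symm ξ : K.subgroupOf H → ℂ) =
    classInner (fun l : K => (ψ : H → ℂ) (Subgroup.inclusion hKH l)) (ξ : K → ℂ) := by
  rw [← classInner_comp_equiv (Subgroup.subgroupOfEquivOfLe hKH) (fun l : K => (ψ : H → ℂ) (Subgroup.inclusion hKH l))]
  rfl

variable (hM : IsPModular p M) (hH : H = Subgroup.normalizer (Q : Set G)) (hK : K = H ⊓ N) (hQN : Q ≤ N)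
include hM hH hK hQN

theorem hk_le : Q ≤ K ∧ K ≤ H ∧ K ≤ N := by
  subst hK
  exact ⟨le_inf (hH ▸ Subgroup.le_normalizer) hQN, inf_le_left, inf_le_right⟩

theorem hk_normal : (K.subgroupOf H).Normal := by
  subst hK
  rw [Subgroup.inf_subgroupOf_left]
  exact hN.subgroupOf H

theorem hk_normalizer_le {P : Subgroup G} (hP : P ⊓ N = Q) : Subgroup.normalizer (P : Set G) ≤ H := by
  intro x hx
  rw [hH, Subgroup.mem_normalizer_iff]
  intro y
  rw [← hP, Subgroup.mem_inf, Subgroup.mem_inf, ← Subgroup.mem_normalizer_iff.1 hx y]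
  exact and_congr_right fun _ => ⟨fun h => hN.conj_mem y h x, fun h => by
    have := hN.conj_mem _ h x⁻¹
    simpa [mul_assoc] using this⟩

/-- The value at a class element supported on `N`, read below. -/
theorem hk_omega_res (ψ : IrrCharacter H) {ξ : IrrCharacter K} (hKH : K ≤ H)
    (h : classInner (fun l : K => (ψ : H → ℂ) (Subgroup.inclusion hKH l)) (ξ : K → ℂ) ≠ 0)
    {z : MonoidAlgebra ℂ G} (hz : IsClassElt z) (hsupp : ∀ g, g ∉ N → z.coeff g = 0) :
    omega (ψ : H → ℂ) (res H z) = omega (ξ : K → ℂ) (res K z) := by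
  haveI := hk_normal hM hH hK hQN
  haveI := Fintype.ofFinite (K.subgroupOf H)
  rw [omega_eq_res_constituent (isClassElt_res hz H) (fun g hg => by
      rw [coeff_res]
      refine hsupp _ fun hgN => hg ?_
      show (g : G) ∈ K
      rw [hK]; exact ⟨g.2, hgN⟩) ψ
      (pushChar (Subgroup.subgroupOfEquivOfLe hKH).symm ξ) (by rw [classInner_inclusion]; exact h),
    omega_res_res hKH]

/-- The meet with `K` of a defect group is a defect group below, so the Brauer correspondent lies over it. -/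
theorem hk_defect_meet {c : Set (IrrCharacter H)} (hc : IsPBlock M c) {e : Set (IrrCharacter K)} (he : IsPBlock M e)
    (hKH : K ≤ H) (hcov : ∃ ψ ∈ c, ∃ ξ ∈ e,
      classInner (fun l : K => (ψ : H → ℂ) (Subgroup.inclusion hKH l)) (ξ : K → ℂ) ≠ 0) :
    ∃ P : Subgroup G, P ≤ H ∧ IsDefectGroup p M c (P.subgroupOf H) ∧ IsDefectGroup p M e ((P ⊓ N).subgroupOf K) := by
  haveI := hk_normal hM hH hK hQN
  haveI := Fintype.ofFinite (K.subgroupOf H)
  obtain ⟨ψ, hψ, ξ, hξ, hne⟩ := hcov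
  set eH := Subgroup.subgroupOfEquivOfLe hKH with heH
  obtain ⟨P', hP', hP'K, -⟩ := exists_defectGroup_inf hM (isPBlock_pushBlock eH.symm he) hc
    ⟨ψ, hψ, pushChar eH.symm ξ, ⟨ξ, hξ, rfl⟩, by rw [classInner_inclusion]; exact hne⟩
  refine ⟨P'.map H.subtype, Subgroup.map_subtype_le _, ?_, ?_⟩
  · rwa [Subgroup.subgroupOf, Subgroup.comap_map_eq_self_of_injective H.subtype_injective]
  · have h := isDefectGroup_push eH hM hP'K
    rw [← pushBlock_trans, MulEquiv.symm_trans_self, pushBlock_refl] at h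
    convert h using 1
    ext k
    rw [Subgroup.mem_map_equiv, Subgroup.mem_subgroupOf, Subgroup.mem_subgroupOf, Subgroup.mem_inf, Subgroup.mem_inf]
    have hkN : (k : G) ∈ N := by have := k.2; simp only [hK, Subgroup.mem_inf] at this; exact this.2
    constructor
    · rintro ⟨⟨t, ht, hteq⟩, -⟩
      refine ⟨?_, (eH.symm k).2⟩
      have ht' : t = ((eH.symm k : K.subgroupOf H) : H) := Subtype.ext hteq
      exact ht' ▸ ht
    · rintro ⟨h1, -⟩
      exact ⟨⟨_, h1, rfl⟩, hkN⟩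

/-- A defect group of a block of `K` is `Q` if one is. -/
theorem hk_defect_unique {e : Set (IrrCharacter K)} (he : IsPBlock M e)
    (heQ : IsDefectGroup p M e (Q.subgroupOf K)) {R : Subgroup G} (hRN : R ≤ N) (hRH : R ≤ H)
    (hR : IsDefectGroup p M e (R.subgroupOf K)) : R = Q := by
  obtain ⟨hQK, hKH, hKN⟩ := hk_le hM hH hK hQN
  obtain ⟨c, hc⟩ := exists_conj_eq_defectGroup hM he heQ hR
  have hcN : (c : G) ∈ Subgroup.normalizer (Q : Set G) := hH ▸ hKH c.2
  have h : (Q.subgroupOf K).map (MulAut.conj c).toMonoidHom = Q.subgroupOf K := by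
    ext k
    rw [Subgroup.mem_map_equiv, Subgroup.mem_subgroupOf, Subgroup.mem_subgroupOf]
    simp only [MulAut.conj_symm_apply, Subgroup.coe_mul, Subgroup.coe_inv]
    have h1 := Subgroup.mem_normalizer_iff.1 ((Subgroup.normalizer (Q : Set G)).inv_mem hcN) k
    rw [inv_inv] at h1
    exact h1.symm
  rw [h] at hc
  ext x
  constructor
  · intro hx
    have hxK : x ∈ K := by rw [hK]; exact ⟨hRH hx, hRN hx⟩
    have : (⟨x, hxK⟩ : K) ∈ Q.subgroupOf K := hc ▸ hx
    exact this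
  · intro hx
    have : (⟨x, hQK hx⟩ : K) ∈ R.subgroupOf K := hc ▸ hx
    exact this

variable {e : Set (IrrCharacter K)} {d : Set (IrrCharacter N)} (he : IsPBlock M e)
  (heQ : IsDefectGroup p M e (Q.subgroupOf K)) (hed : IsInducedBlockIn M N K e d)
include he heQ hed

theorem hk_omega_below {ξ : IrrCharacter K} (hξ : ξ ∈ e) {θ : IrrCharacter N} (hθ : θ ∈ d) {z : MonoidAlgebra ℂ G}
    (hz : IsClassElt z) (hzi : IsIntegralElt M z) :
    MemLocalIdeal M (omega (ξ : K → ℂ) (res K z) - omega (θ : N → ℂ) (res N z)) := by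
  haveI := Fintype.ofFinite (K.subgroupOf N)
  have hKN := (hk_le hM hH hK hQN).2.2
  rw [← omega_res_res hKN]
  exact omega_res_induced hM (isInducedBlock_of_in hKN hed) ⟨ξ, hξ, rfl⟩ hθ (isClassElt_res hz N) (isIntegralElt_res hzi N)

/-- A block over the correspondent induces a block over the block below. -/
theorem hk_induced {c : Set (IrrCharacter H)} (hc : IsPBlock M c) (hKH : K ≤ H)
    (hcov : ∃ ψ ∈ c, ∃ ξ ∈ e, classInner (fun l : K => (ψ : H → ℂ) (Subgroup.inclusion hKH l)) (ξ : K → ℂ) ≠ 0) :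
    ∃ (P : Subgroup G) (B : Set (IrrCharacter G)), P ≤ H ∧ P ⊓ N = Q ∧ IsDefectGroup p M c (P.subgroupOf H) ∧
      IsPBlock M B ∧ IsDefectGroup p M B P ∧ IsInducedBlock M H c B ∧
      ∃ χ ∈ B, ∃ θ ∈ d, classInner (fun n : N => (χ : G → ℂ) n) (θ : N → ℂ) ≠ 0 := by
  obtain ⟨P, hPH, hPc, hPe⟩ := hk_defect_meet hM hH hK hQN hc he hKH hcov
  have hmeet : P ⊓ N = Q := hk_defect_unique hM hH hK hQN he heQ inf_le_right (inf_le_left.trans hPH) hPe
  obtain ⟨B, hB, hBP, hind⟩ := exists_induced_defect hM (hk_normalizer_le hM hH hK hQN hmeet) hc hPc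
  refine ⟨P, B, hPH, hmeet, hPc, hB, hBP, hind, ?_⟩
  obtain ⟨ψ, hψ, ξ, hξ, hne⟩ := hcov
  obtain ⟨χ, hχ⟩ := IsPBlock.nonempty hM hB
  obtain ⟨θ', hθ'⟩ := exists_constituent_restrict N χ
  obtain ⟨θ, hθ⟩ := IsPBlock.nonempty hM hed.2.1
  obtain ⟨g, φ, hφ, hφe⟩ := exists_conj_mem_blockOf hM θ θ' fun z hz hzi hsupp => by
    rw [← omega_eq_res_constituent hz hsupp χ θ' hθ']
    have h1 := hk_omega_below hM hH hK hQN he heQ hed hξ hθ hz hzi
    have h2 := omega_res_induced hM hind hψ hχ hz hzi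
    rw [hk_omega_res hM hH hK hQN ψ hKH hne hz hsupp] at h2
    have := memLocalIdeal_sub hM h2 h1
    rwa [sub_sub_sub_cancel_left] at this
  refine ⟨χ, hχ, φ, (IsPBlock.mem_iff hM hed.2.1 hθ).2 hφ, ?_⟩
  rw [hφe, ← conjFun_restrict (isClassFunction (isCharacter_of_irr χ.2)) g, classInner_conjFun]
  exact hθ'

/-- A block over the block below comes from a block over the correspondent. -/
theorem hk_inducing (hd : IsPBlock M d) (hdQ : IsDefectGroup p M d (Q.subgroupOf N)) (hKH : K ≤ H)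
    {B : Set (IrrCharacter G)} (hB : IsPBlock M B)
    (hcov : ∃ χ ∈ B, ∃ θ ∈ d, classInner (fun n : N => (χ : G → ℂ) n) (θ : N → ℂ) ≠ 0) :
    ∃ c : Set (IrrCharacter H), (IsPBlock M c ∧
      ∃ ψ ∈ c, ∃ ξ ∈ e, classInner (fun l : K => (ψ : H → ℂ) (Subgroup.inclusion hKH l)) (ξ : K → ℂ) ≠ 0) ∧
      IsInducedBlock M H c B := by
  classical
  haveI := Fact.mk hM.1
  obtain ⟨hQK, -, hKN⟩ := hk_le hM hH hK hQN
  haveI := hk_normal hM hH hK hQN
  haveI := Fintype.ofFinite (K.subgroupOf H)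
  haveI := Fintype.ofFinite (K.subgroupOf N)
  obtain ⟨P, hP, hmeet⟩ := Cfsg.Agent.S4438.result p M hM N d hd Q hQN hdQ B hB hcov
  have hNH := hk_normalizer_le hM hH hK hQN hmeet
  have hPH : P ≤ H := Subgroup.le_normalizer.trans hNH
  obtain ⟨c, hc, hcP, hind⟩ := exists_inducing_defect hM hNH hB hP
  obtain ⟨χ, hχ, θ, hθ, hθne⟩ := hcov
  obtain ⟨ψ, hψ⟩ := IsPBlock.nonempty hM hc
  obtain ⟨η, hη⟩ := exists_constituent_restrict (K.subgroupOf H) ψ
  set eH := Subgroup.subgroupOfEquivOfLe hKH with heH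
  set φ := pushChar eH η with hφdef
  have hφne : classInner (fun l : K => (ψ : H → ℂ) (Subgroup.inclusion hKH l)) (φ : K → ℂ) ≠ 0 := by
    rw [← classInner_inclusion hKH, hφdef, pushChar_symm']
    exact hη
  set e' := blockOf M (φ : K → ℂ) with he'def
  have he' : IsPBlock M e' := isPBlock_blockOf M φ
  obtain ⟨P', hP'H, hP'c, hP'e⟩ := hk_defect_meet hM hH hK hQN hc he' hKH
    ⟨ψ, hψ, φ, mem_blockOf_self hM φ, hφne⟩
  have hP'Q : P' ⊓ N = Q := by
    obtain ⟨h, hh⟩ := exists_conj_eq_defectGroup hM hc hcP hP'c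
    have hhN : (h : G) ∈ Subgroup.normalizer (Q : Set G) := hH ▸ h.2
    have hP' : P' = P.map (MulAut.conj (h : G)).toMonoidHom := by
      ext x
      constructor
      · intro hx
        obtain ⟨y, hy, hyx⟩ : (⟨x, hP'H hx⟩ : H) ∈ (P.subgroupOf H).map (MulAut.conj h).toMonoidHom := hh ▸ hx
        exact ⟨y, hy, congrArg Subtype.val hyx⟩
      · rintro ⟨y, hy, rfl⟩
        have : MulAut.conj h ⟨y, hPH hy⟩ ∈ P'.subgroupOf H := hh ▸ ⟨⟨y, hPH hy⟩, hy, rfl⟩
        exact this
    ext x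
    rw [hP', Subgroup.mem_inf, Subgroup.mem_map_equiv]
    simp only [MulAut.conj_symm_apply]
    have h1 := Subgroup.mem_normalizer_iff.1 ((Subgroup.normalizer (Q : Set G)).inv_mem hhN) x
    rw [inv_inv] at h1
    rw [h1, ← hmeet, Subgroup.mem_inf]
    exact and_congr_right fun _ => ⟨fun hx => by simpa using hN.conj_mem x hx (h : G)⁻¹, fun hx => by
      have := hN.conj_mem _ hx (h : G)
      simpa [mul_assoc] using this⟩
  rw [hP'Q] at hP'e
  -- the block below induced from `e'`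
  set eN := Subgroup.subgroupOfEquivOfLe hKN with heN
  have hNK : Subgroup.normalizer ((Q.subgroupOf N : Subgroup N) : Set N) ≤ K.subgroupOf N := by
    intro n hn
    show (n : G) ∈ K
    rw [hK]
    refine ⟨?_, n.2⟩
    show (n : G) ∈ H
    rw [hH, Subgroup.mem_normalizer_iff]
    intro y
    constructor
    · intro hy
      exact (Subgroup.mem_normalizer_iff.1 hn ⟨y, hQN hy⟩).1 hy
    · intro hy
      have hyN : y ∈ N := by
        have := hN.conj_mem _ (hQN hy) (n : G)⁻¹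
        simpa [mul_assoc] using this
      exact (Subgroup.mem_normalizer_iff.1 hn ⟨y, hyN⟩).2 hy
  have hQmap : (Q.subgroupOf K).map eN.symm.toMonoidHom = (Q.subgroupOf N).subgroupOf (K.subgroupOf N) := by
    ext k
    rw [Subgroup.mem_map_equiv, Subgroup.mem_subgroupOf, Subgroup.mem_subgroupOf, Subgroup.mem_subgroupOf]
    rfl
  have hDe' := isDefectGroup_push eN.symm hM hP'e
  rw [hQmap] at hDe'
  obtain ⟨d', hd', hd'Q, hd'ind⟩ := exists_induced_defect hM hNK (isPBlock_pushBlock eN.symm he') hDe'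
  obtain ⟨θ', hθ'⟩ := IsPBlock.nonempty hM hd'
  obtain ⟨g, φ', hφ', hφ'e⟩ := exists_conj_mem_blockOf hM θ' θ fun z hz hzi hsupp => by
    have h1 := omega_res_induced hM hd'ind (ξ := pushChar eN.symm φ) ⟨φ, mem_blockOf_self hM φ, rfl⟩ hθ'
      (isClassElt_res hz N) (isIntegralElt_res hzi N)
    rw [omega_res_res hKN] at h1
    have h2 := omega_res_induced hM hind hψ hχ hz hzi
    rw [hk_omega_res hM hH hK hQN ψ hKH hφne hz hsupp, omega_eq_res_constituent hz hsupp χ θ hθne] at h2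
    have := memLocalIdeal_sub hM h2 h1
    rwa [sub_sub_sub_cancel_left] at this
  have hd'x : pushBlock (conjK (mem_normalizer_of_normal (N := N) g⁻¹)) d = d' := by
    refine IsPBlock.eq_of_mem hM (isPBlock_pushBlock _ hd) hd' (χ := φ') ⟨θ, hθ, Subtype.ext ?_⟩
      ((IsPBlock.mem_iff hM hd' hθ').2 hφ')
    rw [hφ'e, conjFun_eq_pushChar]
  have hQx := isDefectGroup_push (conjK (mem_normalizer_of_normal (N := N) g⁻¹)) hM hdQ
  rw [hd'x] at hQx
  obtain ⟨n, hn⟩ := exists_conj_eq_defectGroup hM hd' hQx hd'Q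
  set h : G := (n : G) * g⁻¹ with hh
  have hhQ : h ∈ Subgroup.normalizer (Q : Set G) := by
    rw [Subgroup.mem_normalizer_iff]
    intro y
    constructor
    · intro hy
      have : MulAut.conj n (conjK (mem_normalizer_of_normal (N := N) g⁻¹) ⟨y, hQN hy⟩) ∈ Q.subgroupOf N :=
        hn ▸ ⟨_, ⟨⟨y, hQN hy⟩, hy, rfl⟩, rfl⟩
      simpa [Subgroup.mem_subgroupOf, hh, coe_conjK, mul_assoc] using this
    · intro hy
      obtain ⟨_, ⟨q, hq, rfl⟩, hqy⟩ : (⟨h * y * h⁻¹, hQN hy⟩ : N) ∈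
          ((Q.subgroupOf N).map (conjK (mem_normalizer_of_normal (N := N) g⁻¹)).toMonoidHom).map
            (MulAut.conj n).toMonoidHom := hn.symm ▸ hy
      have e1 : h * (q : G) * h⁻¹ = h * y * h⁻¹ := by
        have := congrArg Subtype.val hqy
        simpa [hh, coe_conjK, mul_assoc] using this
      rw [← mul_left_cancel (mul_right_cancel e1)]
      exact hq
  have hhH : h ∈ Subgroup.normalizer (H : Set G) := Subgroup.le_normalizer (hH.symm ▸ hhQ)
  have hhK : h ∈ Subgroup.normalizer (K : Set G) := by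
    rw [Subgroup.mem_normalizer_iff]
    intro y
    rw [hK, Subgroup.mem_inf, Subgroup.mem_inf, ← Subgroup.mem_normalizer_iff.1 hhH y,
      ← Subgroup.mem_normalizer_iff.1 (mem_normalizer_of_normal (N := N) h) y]
  have hdh : pushBlock (conjK (mem_normalizer_of_normal (N := N) h)) d = d' := by
    obtain ⟨hnn, hfix⟩ := stabilizesBlock_iff.1 (mem_stabSub.1 (le_stabSub (b := d') n.2))
    rw [← hfix]
    conv_rhs => rw [← hd'x, ← pushBlock_trans]
    congr 1
    exact MulEquiv.ext fun k => Subtype.ext (by simp [hh, coe_conjK, mul_assoc])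
  have hedh := isInducedBlockIn_conj (mem_normalizer_of_normal (N := N) h) hhK hed
  rw [hdh] at hedh
  have hDh := isDefectGroup_push (conjK hhK) hM heQ
  have hQh : (Q.subgroupOf K).map (conjK hhK).toMonoidHom = Q.subgroupOf K := by
    ext k
    obtain ⟨l, rfl⟩ := (conjK hhK).surjective k
    rw [Subgroup.mem_map_equiv, MulEquiv.symm_apply_apply, Subgroup.mem_subgroupOf, Subgroup.mem_subgroupOf, coe_conjK]
    exact Subgroup.mem_normalizer_iff.1 hhQ l
  rw [hQh] at hDh
  have hDh' := isDefectGroup_push eN.symm hM hDh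
  rw [hQmap] at hDh'
  have heq := inducing_defect_unique hM hNK hDh' hDe' (isInducedBlock_of_in hKN hedh) hd'ind
  have hee : pushBlock (conjK hhK) e = e' := by
    have := congrArg (pushBlock eN) heq
    rwa [← pushBlock_trans eN.symm eN, ← pushBlock_trans eN.symm eN, MulEquiv.symm_trans_self, pushBlock_refl,
      pushBlock_refl] at this
  obtain ⟨ξ, hξ, hξφ⟩ : φ ∈ pushBlock (conjK hhK) e := hee.symm ▸ mem_blockOf_self hM φ
  refine ⟨c, ⟨hc, ψ, hψ, ξ, hξ, ?_⟩, hind⟩
  rw [← hξφ, ← classInner_comp_equiv (conjK hhK)] at hφne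
  have h1 : (fun k : K => (ψ : H → ℂ) (Subgroup.inclusion hKH (conjK hhK k))) =
      fun k : K => (ψ : H → ℂ) (Subgroup.inclusion hKH k) := by
    funext k
    rw [← isClassFunction (isCharacter_of_irr ψ.2) (Subgroup.inclusion hKH k) ⟨h, hH.symm ▸ hhQ⟩]
    congr 1
  have h2 : (fun k : K => (pushChar (conjK hhK) ξ : K → ℂ) (conjK hhK k)) = (ξ : K → ℂ) := funext fun k => by simp
  rwa [h1, h2] at hφne

/-- Two blocks over the correspondent inducing the same block are equal. -/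
theorem hk_injective (hKH : K ≤ H) {c c' : Set (IrrCharacter H)} (hc : IsPBlock M c) (hc' : IsPBlock M c')
    (hcov : ∃ ψ ∈ c, ∃ ξ ∈ e, classInner (fun l : K => (ψ : H → ℂ) (Subgroup.inclusion hKH l)) (ξ : K → ℂ) ≠ 0)
    (hcov' : ∃ ψ ∈ c', ∃ ξ ∈ e, classInner (fun l : K => (ψ : H → ℂ) (Subgroup.inclusion hKH l)) (ξ : K → ℂ) ≠ 0)
    {B : Set (IrrCharacter G)} (h : IsInducedBlock M H c B) (h' : IsInducedBlock M H c' B) : c = c' := by
  obtain ⟨P, B₁, hPH, hmeet, hPc, hB₁, hBP, hind, -⟩ := hk_induced hM hH hK hQN he heQ hed hc hKH hcov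
  obtain ⟨P', B₂, hP'H, hmeet', hP'c, hB₂, hBP', hind', -⟩ := hk_induced hM hH hK hQN he heQ hed hc' hKH hcov'
  obtain rfl := induced_block_unique hM hind h
  obtain rfl := induced_block_unique hM hind' h'
  obtain ⟨g, hg⟩ := exists_conj_eq_defectGroup hM hB₂ hBP hBP'
  have hgH : g ∈ H := by
    rw [hH, Subgroup.mem_normalizer_iff]
    intro y
    rw [← hmeet, Subgroup.mem_inf]
    conv_rhs => rw [hmeet, ← hmeet', ← hg, Subgroup.mem_inf, Subgroup.mem_map_equiv]
    simp only [MulAut.conj_symm_apply]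
    rw [show g⁻¹ * (g * y * g⁻¹) * g = y by group]
    exact and_congr_right fun _ => ⟨fun h => hN.conj_mem y h g, fun h => by
      have := hN.conj_mem _ h g⁻¹
      simpa [mul_assoc] using this⟩
  refine inducing_defect_unique hM (hk_normalizer_le hM hH hK hQN hmeet) hPc ?_ h h'
  convert isDefectGroup_map_conj hM hc' hP'c (⟨g, hgH⟩ : H)⁻¹ using 1
  ext x
  rw [Subgroup.mem_map_equiv, Subgroup.mem_subgroupOf, Subgroup.mem_subgroupOf, ← hg, Subgroup.mem_map_equiv]
  simp [mul_assoc]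

end CfsgLib.Blocks
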