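import Cfsg.Agent.Blocks.MaximalCriterion

/-!
# Degrees of block parts of induced characters
-/

set_option linter.unusedSectionVars false
set_option linter.style.haveILetI false

namespace CfsgLib.Blocks

open Cfsg CfsgLib.CharBasics CfsgLib.ZStar

universe u

variable {G : Type u} [Group G] [Fintype G] {p : ℕ} {M : Ideal AlgInt} (H : Subgroup G) [Fintype H]

theorem blockPart_indFun_one (B : Set (IrrCharacter G)) (ξ : IrrCharacter H) :
    blockPart B (indFun H (ξ : H → ℂ)) 1 =
      indFun H (ξ : H → ℂ) 1 * omega (ξ : H → ℂ) (res H (blockElt B)) := by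
  classical
  haveI : Fintype (IrrCharacter G) := @Fintype.ofFinite _ finite_irrCharacter
  have hH : (Nat.card H : ℂ) ≠ 0 := Nat.cast_ne_zero.2 Nat.card_pos.ne'
  have hG : (Nat.card G : ℂ) ≠ 0 := Nat.cast_ne_zero.2 Nat.card_pos.ne'
  have hi : (H.index : ℂ) = (Nat.card G : ℂ) / Nat.card H := by
    rw [eq_div_iff hH, ← Subgroup.index_mul_card H, Nat.cast_mul]
  have h1 := apply_one_ne_zero ξ.2
  rw [ZStar.blockPart_apply, indFun_apply_one, omega_res, mul_assoc, mul_div_cancel₀ _ h1, hi,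
    Finset.mul_sum]
  simp only [coeff_blockElt, blockCoeff_eq, Finset.mul_sum, Finset.sum_mul]
  rw [Finset.sum_comm]
  refine Finset.sum_congr rfl fun χ _ => ?_
  split_ifs
  · rw [classInner_indFun H _ (isClassFunction (isCharacter_of_irr χ.2)), classInner_eq, Finset.mul_sum,
      Finset.sum_mul]
    exact Finset.sum_congr rfl fun h _ => by field_simp
  · simp

theorem exists_nat_blockPart_one (B : Set (IrrCharacter G)) {θ : G → ℂ} (hθ : IsCharacter G θ) :
    ∃ n : ℕ, blockPart B θ 1 = (n : ℂ) := by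
  classical
  haveI : Fintype (IrrCharacter G) := @Fintype.ofFinite _ finite_irrCharacter
  choose m hm using fun χ : IrrCharacter G => classInner_character_nat hθ χ
  refine ⟨∑ χ : IrrCharacter G, if χ ∈ B then m χ * charDegree (χ : G → ℂ) else 0, ?_⟩
  rw [ZStar.blockPart_apply, Nat.cast_sum]
  refine Finset.sum_congr rfl fun χ _ => ?_
  split_ifs
  · rw [Nat.cast_mul, hm, apply_one (isCharacter_of_irr χ.2)]
  · simp

/-- An unit multiple has the same valuation, an ideal multiple a higher one. -/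
theorem factorization_of_mul_local (hM : IsPModular p M) {n d : ℕ} (hd : d ≠ 0) {r : ℂ}
    (hr : MemLocalRing M r) (h : (n : ℂ) = d * r) :
    (¬ MemLocalIdeal M r → n ≠ 0 ∧ n.factorization p = d.factorization p) ∧
      (MemLocalIdeal M r → n = 0 ∨ d.factorization p < n.factorization p) := by
  have hp := hM.1
  have key : ∀ a, p ^ a ∣ d → p ^ a ∣ n → ((n / p ^ a : ℕ) : ℂ) = ((d / p ^ a : ℕ) : ℂ) * r := fun a h1 h2 => by
    have e : ((p ^ a : ℕ) : ℂ) ≠ 0 := Nat.cast_ne_zero.2 (pow_ne_zero _ hp.ne_zero)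
    rw [Nat.cast_div h2 e, Nat.cast_div h1 e, h, mul_div_right_comm]
  have mem : ∀ m : ℕ, MemLocalRing M (m : ℂ) := memLocalRing_natCast hM
  refine ⟨fun hu => ?_, fun hi => ?_⟩
  · have hn : n ≠ 0 := by
      rintro rfl
      rw [Nat.cast_zero, eq_comm, mul_eq_zero] at h
      rcases h with h | h
      · exact hd (Nat.cast_eq_zero.1 h)
      · exact hu (h ▸ memLocalIdeal_zero hM)
    refine ⟨hn, ?_⟩
    rcases lt_trichotomy (n.factorization p) (d.factorization p) with hlt | he | hlt
    · exfalso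
      have h1 := key _ ((pow_dvd_pow p hlt.le).trans (Nat.ordProj_dvd d p)) (Nat.ordProj_dvd n p)
      refine Nat.not_dvd_ordCompl hp hn ((memLocalIdeal_natCast_iff hM _).1 ?_)
      rw [h1, mul_comm]
      refine memLocalIdeal_mul_left hM hr ((memLocalIdeal_natCast_iff hM _).2 ?_)
      exact Nat.dvd_div_of_mul_dvd (by rw [← pow_succ]; exact (pow_dvd_pow p hlt).trans (Nat.ordProj_dvd d p))
    · exact he
    · exfalso
      have h1 := key _ (Nat.ordProj_dvd d p) ((pow_dvd_pow p hlt.le).trans (Nat.ordProj_dvd n p))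
      have h2 : MemLocalIdeal M (((d / p ^ d.factorization p : ℕ) : ℂ) * r) := by
        rw [← h1, memLocalIdeal_natCast_iff hM]
        exact Nat.dvd_div_of_mul_dvd (by rw [← pow_succ]; exact (pow_dvd_pow p hlt).trans (Nat.ordProj_dvd n p))
      rcases memLocalIdeal_of_mul hM (mem _) hr h2 with h3 | h3
      · exact Nat.not_dvd_ordCompl hp hd ((memLocalIdeal_natCast_iff hM _).1 h3)
      · exact hu h3
  · by_contra hc
    push Not at hc
    have h1 := key _ ((pow_dvd_pow p hc.2).trans (Nat.ordProj_dvd d p)) (Nat.ordProj_dvd n p)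
    refine Nat.not_dvd_ordCompl hp hc.1 ((memLocalIdeal_natCast_iff hM _).1 ?_)
    rw [h1]
    exact memLocalIdeal_mul_left hM (mem _) hi

theorem blockPart_indFun_valuation (hM : IsPModular p M) {b : Set (IrrCharacter H)} {B₀ : Set (IrrCharacter G)}
    (hind : IsInducedBlock M H b B₀) {ξ : IrrCharacter H} (hξ : ξ ∈ b) :
    (∃ n : ℕ, blockPart B₀ (indFun H (ξ : H → ℂ)) 1 = (n : ℂ) ∧ n ≠ 0 ∧
        n.factorization p = (charDegree (indFun H (ξ : H → ℂ))).factorization p) ∧
      ∀ B : Set (IrrCharacter G), IsPBlock M B → B ≠ B₀ →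
        ∃ n : ℕ, blockPart B (indFun H (ξ : H → ℂ)) 1 = (n : ℂ) ∧
          (n = 0 ∨ (charDegree (indFun H (ξ : H → ℂ))).factorization p < n.factorization p) := by
  classical
  have hc := isCharacter_indFun H (isCharacter_of_irr ξ.2)
  have hd : charDegree (indFun H (ξ : H → ℂ)) ≠ 0 := fun h0 => by
    have h1 := apply_one hc
    rw [h0, Nat.cast_zero, indFun_apply_one] at h1
    exact mul_ne_zero (Nat.cast_ne_zero.2 Subgroup.index_ne_zero_of_finite) (apply_one_ne_zero ξ.2) h1
  obtain ⟨χ, hχ⟩ := IsPBlock.nonempty hM hind.2.1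
  have hr : ∀ B, IsPBlock M B → MemLocalRing M (omega (ξ : H → ℂ) (res H (blockElt B))) ∧
      MemLocalIdeal M (omega (ξ : H → ℂ) (res H (blockElt B)) - if χ ∈ B then 1 else 0) := fun B hB => by
    refine ⟨memLocalRing_omega hM ξ (isClassElt_res (isClassElt_blockElt B) H)
      (isIntegralElt_res (isIntegralElt_blockElt hM hB) H), ?_⟩
    rw [← omega_blockElt]
    exact omega_res_induced hM hind hξ hχ (isClassElt_blockElt B) (isIntegralElt_blockElt hM hB)
  have hv : ∀ B, IsPBlock M B → ∃ n : ℕ, blockPart B (indFun H (ξ : H → ℂ)) 1 = (n : ℂ) ∧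
      (n : ℂ) = charDegree (indFun H (ξ : H → ℂ)) * omega (ξ : H → ℂ) (res H (blockElt B)) := fun B hB => by
    obtain ⟨n, hn⟩ := exists_nat_blockPart_one B hc
    exact ⟨n, hn, by rw [← hn, blockPart_indFun_one, apply_one hc]⟩
  constructor
  · obtain ⟨n, hn, h⟩ := hv B₀ hind.2.1
    have h1 := (hr B₀ hind.2.1).2
    rw [if_pos hχ] at h1
    refine ⟨n, hn, (factorization_of_mul_local hM hd (hr B₀ hind.2.1).1 h).1 fun hi => not_memLocalIdeal_one hM ?_⟩
    simpa using memLocalIdeal_sub hM hi h1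
  · intro B hB hne
    obtain ⟨n, hn, h⟩ := hv B hB
    have h1 := (hr B hB).2
    rw [if_neg (fun hm => hne (IsPBlock.eq_of_mem hM hB hind.2.1 hm hχ)), sub_zero] at h1
    exact ⟨n, hn, (factorization_of_mul_local hM hd (hr B hB).1 h).2 h1⟩

end CfsgLib.Blocks
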