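import Cfsg.Agent.Blocks.LocalInduction
import Cfsg.Agent.Blocks.CoveredDefect

/-!
# Induction inside a subgroup
-/

set_option linter.unusedSectionVars false
set_option linter.style.haveILetI false

namespace CfsgLib.Blocks

open Cfsg CfsgLib.CharBasics CfsgLib.ZStar CfsgLib.Clifford

universe u

variable {G : Type u} [Group G] [Fintype G] {p : ℕ} {M : Ideal AlgInt} {N K : Subgroup G}

/-- Restriction through an intermediate subgroup. -/
theorem omega_res_res (hKN : K ≤ N) [Fintype N] [Fintype K] [Fintype (K.subgroupOf N)] (ξ : IrrCharacter K)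
    (z : MonoidAlgebra ℂ G) :
    omega (pushChar (Subgroup.subgroupOfEquivOfLe hKN).symm ξ : K.subgroupOf N → ℂ) (res (K.subgroupOf N) (res N z)) =
      omega (ξ : K → ℂ) (res K z) := by
  simp only [omega, coeff_res, pushChar_apply, map_one]
  congr 1
  refine Fintype.sum_equiv (Subgroup.subgroupOfEquivOfLe hKN).toEquiv _ _ fun k => ?_
  simp only [MulEquiv.symm_symm, MulEquiv.toEquiv_eq_coe, EquivLike.coe_coe, Subgroup.subgroupOfEquivOfLe_apply_coe]

/-- The relative notion of induction is induction inside the subgroup. -/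
theorem isInducedBlock_of_in (hKN : K ≤ N) [Fintype N] [Fintype K] {e : Set (IrrCharacter K)}
    {d : Set (IrrCharacter N)} (h : IsInducedBlockIn M N K e d) :
    IsInducedBlock M (K.subgroupOf N) (pushBlock (Subgroup.subgroupOfEquivOfLe hKN).symm e) d := by
  classical
  refine ⟨isPBlock_pushBlock _ h.1, h.2.1, ?_⟩
  rintro _ ⟨ξ, hξ, rfl⟩ χ hχ n
  convert h.2.2 ξ hξ χ hχ n using 2
  rw [inducedCentralChar, inducedCentralCharIn]
  have hval : ∀ k : K.subgroupOf N,
      (pushChar (Subgroup.subgroupOfEquivOfLe hKN).symm ξ : K.subgroupOf N → ℂ) k =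
        (ξ : K → ℂ) (Subgroup.subgroupOfEquivOfLe hKN k) := fun k => by simp
  simp only [hval, map_one]
  refine finsum_mem_eq_of_bijOn (Subgroup.subgroupOfEquivOfLe hKN) ⟨?_, (MulEquiv.injective _).injOn, ?_⟩ fun k _ => rfl
  · intro k hk
    obtain ⟨x, hx⟩ := isConj_iff.1 hk.symm
    exact ⟨x, congrArg Subtype.val hx⟩
  · rintro k ⟨x, hx⟩
    refine ⟨(Subgroup.subgroupOfEquivOfLe hKN).symm k, ?_, MulEquiv.apply_symm_apply _ _⟩
    exact (isConj_iff.2 ⟨x, Subtype.ext hx⟩).symm

/-- Conjugation commutes with induction inside a normalized subgroup. -/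
theorem isInducedBlockIn_conj [Fintype N] [Fintype K] {h : G} (hN : h ∈ Subgroup.normalizer (N : Set G))
    (hK : h ∈ Subgroup.normalizer (K : Set G)) {e : Set (IrrCharacter K)} {d : Set (IrrCharacter N)}
    (hed : IsInducedBlockIn M N K e d) :
    IsInducedBlockIn M N K (pushBlock (conjK hK) e) (pushBlock (conjK hN) d) := by
  classical
  refine ⟨isPBlock_pushBlock _ hed.1, isPBlock_pushBlock _ hed.2.1, ?_⟩
  rintro _ ⟨ξ, hξ, rfl⟩ _ ⟨χ, hχ, rfl⟩ n
  obtain ⟨m, rfl⟩ := (conjK hN).surjective n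
  rw [centralChar_pushChar]
  suffices key : inducedCentralCharIn N K (pushChar (conjK hK) ξ : K → ℂ) (conjK hN m : G) =
      inducedCentralCharIn N K (ξ : K → ℂ) (m : G) by rw [key]; exact hed.2.2 ξ hξ χ hχ m
  unfold inducedCentralCharIn
  simp only [pushChar_apply, map_one]
  refine (finsum_mem_eq_of_bijOn (conjK hK) ⟨?_, (conjK hK).injective.injOn, ?_⟩ fun k _ => by simp).symm
  · rintro k ⟨x, hx⟩
    refine ⟨conjK hN x, ?_⟩
    simp only [coe_conjK, ← hx]
    group
  · rintro k ⟨x, hx⟩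
    obtain ⟨x', rfl⟩ := (conjK hN).surjective x
    obtain ⟨k', rfl⟩ := (conjK hK).surjective k
    refine ⟨k', ⟨x', ?_⟩, rfl⟩
    simp only [coe_conjK] at hx
    refine mul_left_cancel (a := h) (mul_right_cancel (b := h⁻¹) ?_)
    rw [← hx]
    group

end CfsgLib.Blocks
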