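import Cfsg.Agent.Blocks.CoveredDefect
import Cfsg.Agent.Blocks.InertialIndex
import Cfsg.Agent.Blocks.CentralDefect
import Cfsg.Agent.Blocks.CentralizerCover
import Cfsg.Agent.Blocks.LocalInduction
import Cfsg.Agent.Clifford.Ito
import Cfsg.Agent.CharBasics.ItoConverse

/-!
# Heights in a block with normal defect group
-/

set_option linter.unusedSectionVars false
set_option linter.style.haveILetI false

namespace CfsgLib.Blocks

open Cfsg CfsgLib.CharBasics CfsgLib.Clifford

universe u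

theorem degExp_pushChar {A B : Type*} [Group A] [Group B] (p : ℕ) (φ : A ≃* B) (χ : IrrCharacter A) :
    degExp p (pushChar φ χ) = degExp p χ := by
  rw [degExp, degExp, charDegree, charDegree, pushChar_apply, map_one]

variable {G : Type u} [Group G] [Fintype G] {p : ℕ} {M : Ideal AlgInt}

/-- Over a normal subgroup of index prime to `p` the `p`-part of the degree is that of a constituent. -/
theorem degExp_eq_of_index {N : Subgroup G} [hN : N.Normal] [Fintype N] (hidx : ¬ p ∣ N.index) (χ : IrrCharacter G)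
    {θ : IrrCharacter N} (hθ : classInner (fun n : N => (χ : G → ℂ) n) (θ : N → ℂ) ≠ 0) :
    degExp p χ = degExp p θ := by
  classical
  obtain ⟨e, he⟩ := classInner_characters_nat (CharBasics.isCharacter_restrict (isCharacter_of_irr χ.2) N)
    (isCharacter_of_irr θ.2)
  set I := inertia (θ : N → ℂ) with hI
  have hNI : N ≤ I := le_inertia (isClassFunction (isCharacter_of_irr θ.2))
  haveI := Fintype.ofFinite I
  obtain ⟨ψ, hψ, -, -, hψN⟩ := exists_inertia_correspondent χ.2 θ.2 hθ I rfl hNI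
  let E : N.subgroupOf I ≃* N := Subgroup.subgroupOfEquivOfLe hNI
  have hθ' : IsIrrCharacter (N.subgroupOf I) (fun m => (θ : N → ℂ) (E m)) :=
    CfsgLib.Clifford.isIrrCharacter_comp θ.2 E.toMonoidHom E.surjective
  have hdvd : e ∣ (N.subgroupOf I).index := by
    refine charMult_dvd_index hψ hθ' (fun t => funext fun m => congrFun (mem_inertia.mp t.2) (E m)) e fun m => ?_
    have := congrFun hψN (E m)
    rw [he] at this
    exact this
  have h1 := restrict_one_eq χ.2 θ.2 hθ
  rw [he, ← hI, apply_one (isCharacter_of_irr χ.2), apply_one (isCharacter_of_irr θ.2), ← Nat.cast_mul, ← Nat.cast_mul,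
    Nat.cast_inj] at h1
  have hdiv : e * I.index ∣ N.index := by
    rw [← Subgroup.relIndex_mul_index hNI]
    exact Nat.mul_dvd_mul_right hdvd _
  have hne : e * I.index ≠ 0 := fun h0 => Subgroup.index_ne_zero_of_finite (H := N) (Nat.eq_zero_of_zero_dvd (h0 ▸ hdiv))
  have hnd : ¬ p ∣ e * I.index := fun h => hidx (h.trans hdiv)
  rw [degExp, degExp, h1, Nat.factorization_mul hne (charDegree_pos θ.2).ne', Finsupp.add_apply,
    Nat.factorization_eq_zero_of_not_dvd hnd, zero_add]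

/-- In `P * C(P)` the degrees in a block with defect group `P` are constant exactly for commutative `P`. -/
theorem centralProd_degExp_iff (hM : IsPModular p M) {P : Subgroup G} (hG : P ⊔ Subgroup.centralizer (P : Set G) = ⊤)
    {b : Set (IrrCharacter G)} (hb : IsPBlock M b) (hD : IsDefectGroup p M b P) :
    (∀ ρ ∈ b, ∀ σ ∈ b, degExp p ρ = degExp p σ) ↔ ∀ a ∈ P, ∀ c ∈ P, a * c = c * a := by
  classical
  haveI := Fact.mk hM.1
  haveI := Fintype.ofFinite P
  have hP := isPGroup_of_isDefectGroup hD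
  obtain ⟨θ, hθb, hθP, hθd, hmin⟩ := exists_trivial_member hM hP hG hb hD
  obtain ⟨hall, honto⟩ := block_structure hM hP hG hb hθb hθP hθd hmin
  have hdeg : ∀ (ζ : IrrCharacter P) (ρ : IrrCharacter G), (ρ : G → ℂ) = prodFun p P (ζ : P → ℂ) (θ : G → ℂ) →
      degExp p ρ = degExp p ζ + degExp p θ := by
    intro ζ ρ h
    have h1 := congrFun h 1
    have h2 := prodFun_apply hM hP hG (ζ : P → ℂ) (θ : G → ℂ) 1 (x := 1) (by rw [orderOf_one]; exact hM.1.not_dvd_one)
    rw [Subgroup.coe_one, one_mul] at h2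
    rw [h2, apply_one (isCharacter_of_irr ρ.2), apply_one (isCharacter_of_irr ζ.2), apply_one (isCharacter_of_irr θ.2),
      ← Nat.cast_mul, Nat.cast_inj] at h1
    rw [degExp, h1, Nat.factorization_mul (charDegree_pos ζ.2).ne' (charDegree_pos θ.2).ne', Finsupp.add_apply]
    rfl
  constructor
  · intro h
    have hcomm : IsMulCommutative P := by
      refine CfsgLib.ItoConverse.isMulCommutative_of_all_linear fun ζ => ?_
      obtain ⟨ρ, hρ, he⟩ := hall ζ
      have hz : degExp p ζ = 0 := by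
        have := hdeg ζ ρ he
        have := h ρ hρ θ hθb
        omega
      obtain ⟨j, hj⟩ := hP.exists_card_eq
      obtain ⟨l, -, hl⟩ := (Nat.dvd_prime_pow hM.1).1 (hj ▸ degree_dvd ζ)
      rw [degExp, hl, hM.1.factorization_pow, Finsupp.single_eq_same] at hz
      rw [hl, hz, pow_zero]
    intro a ha c hc
    exact congrArg Subtype.val (hcomm.is_comm.comm (⟨a, ha⟩ : P) ⟨c, hc⟩)
  · intro h
    haveI : IsMulCommutative P := ⟨⟨fun a c => Subtype.ext (h a a.2 c c.2)⟩⟩
    have key : ∀ ρ ∈ b, degExp p ρ = degExp p θ := by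
      intro ρ hρ
      obtain ⟨ζ, he⟩ := honto ρ hρ
      have h1 : charDegree (ζ : P → ℂ) = 1 := by
        have := (irr_comm_hom ζ.2).1
        rw [apply_one (isCharacter_of_irr ζ.2)] at this
        exact_mod_cast this
      rw [hdeg ζ ρ he, degExp, h1, Nat.factorization_one, Finsupp.zero_apply, zero_add]
    exact fun ρ hρ σ hσ => (key ρ hρ).trans (key σ hσ).symm

theorem allHeightZero_iff (hM : IsPModular p M) {B : Set (IrrCharacter G)} (hB : IsPBlock M B) :
    (∀ χ ∈ B, blockHeight p B (χ : G → ℂ) = 0) ↔ ∀ χ ∈ B, ∀ η ∈ B, degExp p χ = degExp p η := by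
  obtain ⟨χ₀, hχ₀, hmin, hs⟩ := exists_min_degExp hM hB
  constructor
  · intro h χ hχ η hη
    have h1 := h χ hχ; have h2 := h η hη
    rw [blockHeight_eq hs] at h1 h2
    have := hmin χ hχ; have := hmin η hη
    omega
  · intro h χ hχ
    rw [blockHeight_eq hs, h χ hχ χ₀ hχ₀, Nat.sub_self]

/-- A normal defect group is commutative exactly when all heights vanish. -/
theorem reynolds_iff (hM : IsPModular p M) {B : Set (IrrCharacter G)} (hB : IsPBlock M B) {P : Subgroup G} [hPn : P.Normal]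
    (hP : IsDefectGroup p M B P) :
    (∀ a ∈ P, ∀ c ∈ P, a * c = c * a) ↔ ∀ χ ∈ B, blockHeight p B (χ : G → ℂ) = 0 := by
  classical
  haveI := Fact.mk hM.1
  have hp := isPGroup_of_isDefectGroup hP
  set K := P ⊔ Subgroup.centralizer (P : Set G) with hK
  have hNtop : Subgroup.normalizer (P : Set G) = ⊤ := Subgroup.normalizer_eq_top_iff.2 hPn
  haveI hKn : K.Normal := Subgroup.normalizer_eq_top_iff.1
    (top_le_iff.1 (hNtop ▸ normalizer_le_normalizer_sup P))
  haveI := Fintype.ofFinite K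
  have hCK : Subgroup.centralizer (P : Set G) ≤ K := le_sup_right
  have hPK : P ≤ K := le_sup_left
  obtain ⟨χ₁, hχ₁⟩ := IsPBlock.nonempty hM hB
  obtain ⟨θ₁, hθ₁⟩ := exists_constituent_restrict K χ₁
  set b := blockOf M (θ₁ : K → ℂ) with hbdef
  have hb : IsPBlock M b := isPBlock_blockOf M θ₁
  obtain ⟨P₀, hP₀, hP₀b, -⟩ := exists_defectGroup_inf hM hb hB ⟨χ₁, hχ₁, θ₁, mem_blockOf_self hM θ₁, hθ₁⟩
  obtain rfl : P₀ = P := by
    obtain ⟨c, hc⟩ := exists_conj_eq_defectGroup hM hB hP hP₀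
    rw [← hc]
    ext x
    rw [Subgroup.mem_map_equiv, MulAut.conj_symm_apply]
    exact ⟨fun hx => by simpa [mul_assoc] using hPn.conj_mem _ hx c, fun hx => by simpa using hPn.conj_mem x hx c⁻¹⟩
  rw [inf_eq_left.2 hPK] at hP₀b
  have hind : IsInducedBlock M K b B :=
    isInducedBlock_of_covers hM P₀ hp hCK hb hB hχ₁ (mem_blockOf_self hM θ₁) hθ₁
  set T := stabSub K b with hTdef
  haveI := Fintype.ofFinite T
  have hidx : ¬ p ∣ K.relIndex T := (isDefectGroup_induced_iff hM hp hK hb hP₀b hind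
    (fun g => by rw [hTdef, mem_stabSub, hNtop]; exact (and_iff_right (Subgroup.mem_top g)).symm)).1 hP
  have hKT : K ≤ T := le_stabSub
  have hT : IsStab b T := isStab_stabSub
  obtain ⟨ψ, hψ, he⟩ := exists_eq_indFun_stab hM hb hT hKT χ₁ (mem_blockOf_self hM θ₁) hθ₁
  have hirr : IsIrrCharacter G (indFun T (ψ : T → ℂ)) := he ▸ χ₁.2
  set B' := blockOf M (ψ : T → ℂ) with hB'def
  have hB' : IsPBlock M B' := isPBlock_blockOf M ψ
  have hψB : ψ ∈ B' := mem_blockOf_self hM ψ
  have hindT : IsInducedBlock M T B' B := by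
    have h := isInduced_stab hM hB' hψB hirr
    have e : blockOf M (indFun T (ψ : T → ℂ)) = B := by
      rw [← he]
      exact Set.ext fun η => (IsPBlock.mem_iff hM hB hχ₁).symm
    rwa [e] at h
  obtain ⟨φ₀, hφ₀⟩ := resN_constituent hKT ψ
  obtain ⟨-, hirr', hiff⟩ := stab_block_spec hM hb hT hKT hB' ⟨ψ, hψB, φ₀, hψ φ₀ hφ₀, hφ₀⟩ hindT
  obtain ⟨-, hheight⟩ := stab_block_defect hM hB' hindT.2.1 hiff hirr'
  have hstep : (∀ χ ∈ B, blockHeight p B (χ : G → ℂ) = 0) ↔ ∀ η ∈ B', blockHeight p B' (η : T → ℂ) = 0 := by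
    constructor
    · intro h η hη
      rw [← hheight η hη]
      exact h ⟨_, hirr' η hη⟩ ((hiff _).2 ⟨η, hη, rfl⟩)
    · intro h χ hχ
      obtain ⟨η, hη, hηe⟩ := (hiff χ).1 hχ
      rw [hηe, hheight η hη]
      exact h η hη
  -- inside the stabilizer
  haveI : (K.subgroupOf T).Normal := hKn.subgroupOf T
  haveI : (P₀.subgroupOf T).Normal := hPn.subgroupOf T
  haveI := Fintype.ofFinite (K.subgroupOf T)
  set e : K.subgroupOf T ≃* K := Subgroup.subgroupOfEquivOfLe hKT with hedef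
  set b' := pushBlock e.symm b with hb'def
  have hb' : IsPBlock M b' := isPBlock_pushBlock _ hb
  have hφ₀' : classInner (fun m : K.subgroupOf T => (ψ : T → ℂ) m) (pushChar e.symm φ₀ : _ → ℂ) ≠ 0 := by
    rw [← classInner_comp_equiv e (resN hKT (ψ : T → ℂ)) (φ₀ : K → ℂ)] at hφ₀
    exact hφ₀
  have hmem₀ : pushChar e.symm φ₀ ∈ b' := ⟨φ₀, hψ φ₀ (by
    rw [← classInner_comp_equiv e]; exact hφ₀'), rfl⟩
  have hQp : IsPGroup p (P₀.subgroupOf T) := hp.of_equiv (Subgroup.subgroupOfEquivOfLe (hPK.trans hKT)).symm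
  have hCT : Subgroup.centralizer ((P₀.subgroupOf T : Subgroup T) : Set T) ≤ K.subgroupOf T := by
    intro t ht
    refine hCK (Subgroup.mem_centralizer_iff.2 fun q hq => ?_)
    exact congrArg Subtype.val (Subgroup.mem_centralizer_iff.1 ht ⟨q, hKT (hPK hq)⟩ hq)
  have hindb' : IsInducedBlock M (K.subgroupOf T) b' B' :=
    isInducedBlock_of_covers hM (P₀.subgroupOf T) hQp hCT hb' hB' hψB hmem₀ hφ₀'
  have hdeg : (∀ η ∈ B', ∀ η' ∈ B', degExp p η = degExp p η') ↔ ∀ θ ∈ b, ∀ θ' ∈ b, degExp p θ = degExp p θ' := by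
    have hdown : ∀ η ∈ B', ∃ θ ∈ b, degExp p η = degExp p θ := by
      intro η hη
      obtain ⟨_, ⟨θ, hθ, rfl⟩, hne⟩ := exists_constituent_mem_block hM hb' hB' hψB hmem₀ hφ₀' hη
      exact ⟨θ, hθ, by rw [degExp_eq_of_index hidx η hne, degExp_pushChar]⟩
    have hup : ∀ θ ∈ b, ∃ η ∈ B', degExp p η = degExp p θ := by
      intro θ hθ
      obtain ⟨η, hη⟩ := exists_over_character (G := T) (pushChar e.symm θ)
      refine ⟨η, ?_, by rw [degExp_eq_of_index hidx η hη, degExp_pushChar]⟩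
      rw [induced_block_unique hM hindb' (isInducedBlock_of_covers hM (P₀.subgroupOf T) hQp hCT hb'
        (isPBlock_blockOf M η) (mem_blockOf_self hM η) ⟨θ, hθ, rfl⟩ hη)]
      exact mem_blockOf_self hM η
    constructor
    · intro h θ hθ θ' hθ'
      obtain ⟨η, hη, h1⟩ := hup θ hθ
      obtain ⟨η', hη', h2⟩ := hup θ' hθ'
      rw [← h1, ← h2]; exact h η hη η' hη'
    · intro h η hη η' hη'
      obtain ⟨θ, hθ, h1⟩ := hdown η hη
      obtain ⟨θ', hθ', h2⟩ := hdown η' hη'
      rw [h1, h2]; exact h θ hθ θ' hθ'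
  -- inside `K`
  have hG : P₀.subgroupOf K ⊔ Subgroup.centralizer ((P₀.subgroupOf K : Subgroup K) : Set K) = ⊤ := by
    have e1 : Subgroup.centralizer ((P₀.subgroupOf K : Subgroup K) : Set K) =
        (Subgroup.centralizer (P₀ : Set G)).subgroupOf K := by
      ext k
      rw [Subgroup.mem_subgroupOf, Subgroup.mem_centralizer_iff, Subgroup.mem_centralizer_iff]
      exact ⟨fun h q hq => congrArg Subtype.val (h ⟨q, hPK hq⟩ hq), fun h q hq => Subtype.ext (h q hq)⟩
    rw [e1, ← Subgroup.subgroupOf_sup hPK hCK, Subgroup.subgroupOf_self]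
  rw [hstep, allHeightZero_iff hM hB', hdeg, centralProd_degExp_iff hM hG hb hP₀b]
  exact ⟨fun h a ha c hc => Subtype.ext (h a ha c hc),
    fun h a ha c hc => congrArg Subtype.val (h ⟨a, hPK ha⟩ ha ⟨c, hPK hc⟩ hc)⟩

end CfsgLib.Blocks
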