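import Mathlib
import Cfsg.Agent.Blocks.TwoChar.Reduce
import Cfsg.Agent.Blocks.GradedNil
import Cfsg.Agent.Blocks.DefectGroup
import Cfsg.Agent.Blocks.Pairs
import Cfsg.Agent.ZStar.Congr

/-!
# Blocks of least possible dimension

If the block ideal of the group algebra has the least dimension allowed by the defect, then it has
a basis permuted transitively by left and right multiplication with a Sylow subgroup, and the
Sylow subgroup controls the fusion seen by the block.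
-/

set_option linter.unusedSectionVars false
set_option linter.style.haveILetI false

namespace CfsgLib.Blocks.MinDim

open Cfsg CfsgLib.Blocks CfsgLib.CharBasics MulAction Matrix

section Abstract

variable {k : Type*} [Field k] {p : ℕ} [Fact p.Prime] [CharP k p]

theorem sum_eq_sum_fixed {H X : Type*} [Group H] [Finite H] [MulAction H X] [Fintype X]
    [DecidablePred (· ∈ fixedPoints H X)] (hH : IsPGroup p H) (f : X → k)
    (hf : ∀ (h : H) x, f (h • x) = f x) :
    ∑ x, f x = ∑ x ∈ Finset.univ.filter (· ∈ fixedPoints H X), f x := by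
  classical
  rw [← Finset.sum_fiberwise_of_maps_to (g := f) (t := Finset.univ.image f) (fun x _ => by simp),
    ← Finset.sum_fiberwise_of_maps_to (s := Finset.univ.filter (· ∈ fixedPoints H X)) (g := f)
      (t := Finset.univ.image f) (fun x _ => by simp)]
  refine Finset.sum_congr rfl fun c _ => ?_
  rw [Finset.sum_congr rfl (fun x hx => (Finset.mem_filter.1 hx).2),
    Finset.sum_congr rfl (fun x hx => (Finset.mem_filter.1 hx).2), Finset.sum_const, Finset.sum_const,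
    nsmul_eq_mul, nsmul_eq_mul, Finset.filter_filter]
  congr 1
  rw [CharP.natCast_eq_natCast k p]
  letI : MulAction H {x // f x = c} :=
    { smul := fun h x => ⟨h • x.1, (hf h x.1).trans x.2⟩
      one_smul := fun x => Subtype.ext (one_smul H x.1)
      mul_smul := fun a b x => Subtype.ext (mul_smul a b x.1) }
  have h1 := hH.card_modEq_card_fixedPoints {x // f x = c}
  have h2 : Nat.card (fixedPoints H {x // f x = c}) = Nat.card {x // x ∈ fixedPoints H X ∧ f x = c} :=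
    Nat.card_congr
      { toFun := fun x => ⟨x.1.1, fun h => congrArg Subtype.val (x.2 h), x.1.2⟩
        invFun := fun x => ⟨⟨x.1, x.2.2⟩, fun h => Subtype.ext (x.2.1 h)⟩
        left_inv := fun x => rfl
        right_inv := fun x => rfl }
  rw [h2, Nat.card_eq_fintype_card, Nat.card_eq_fintype_card, Fintype.card_subtype, Fintype.card_subtype] at h1
  convert h1 using 3

theorem exists_fixed {H X : Type*} [Group H] [Finite H] [MulAction H X] (hH : IsPGroup p H)
    (W : Submodule k (X → k)) (hW : ∀ (h : H) v, v ∈ W → (fun x => v (h • x)) ∈ W) (hne : W ≠ ⊥) :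
    ∃ v ∈ W, v ≠ 0 ∧ ∀ (h : H) x, v (h • x) = v x := by
  obtain ⟨v, hv, hv0⟩ := W.exists_mem_ne_zero_of_ne_bot hne
  set S := AddSubgroup.closure (Set.range fun h : H => fun x => v (h • x)) with hS
  haveI : Finite (Set.range fun h : H => fun x => v (h • x)) := (Set.finite_range _).to_subtype
  haveI : AddGroup.FG S := AddGroup.closure_finite_fg _
  have hp : ∀ x : X → k, p • x = 0 := fun x => by
    rw [← Nat.cast_smul_eq_nsmul k, CharP.cast_eq_zero, zero_smul]
  haveI : Finite S := AddCommGroup.finite_of_fg_isAddTorsion S fun x =>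
    isOfFinAddOrder_iff_nsmul_eq_zero.2 ⟨p, (Fact.out : p.Prime).pos, Subtype.ext (by simpa using hp x)⟩
  have hinv : ∀ g : H, ∀ w ∈ S, (fun x => w (g • x)) ∈ S := fun g w hw => by
    induction hw using AddSubgroup.closure_induction with
    | mem y hy =>
      obtain ⟨h, rfl⟩ := hy
      exact AddSubgroup.subset_closure ⟨h * g, by simp [mul_smul]⟩
    | zero => exact zero_mem S
    | add a b _ _ ha hb => exact add_mem ha hb
    | neg a _ ha => exact neg_mem ha
  have hSW : S ≤ W.toAddSubgroup := by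
    rw [hS, AddSubgroup.closure_le]
    rintro _ ⟨h, rfl⟩
    exact hW h v hv
  letI : MulAction H S :=
    { smul := fun g w => ⟨fun x => (w : X → k) (g⁻¹ • x), hinv g⁻¹ w w.2⟩
      one_smul := fun w => Subtype.ext (funext fun x => show (w : X → k) ((1 : H)⁻¹ • x) = _ by simp)
      mul_smul := fun g h w => Subtype.ext (funext fun x =>
        show (w : X → k) ((g * h)⁻¹ • x) = (w : X → k) (h⁻¹ • g⁻¹ • x) by rw [_root_.mul_inv_rev, mul_smul]) }
  have hmem : v ∈ S := AddSubgroup.subset_closure ⟨1, by simp⟩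
  have hdvd : p ∣ Nat.card S := by
    have h : addOrderOf (⟨v, hmem⟩ : S) = p :=
      addOrderOf_eq_prime (Subtype.ext (by simpa using hp v)) (fun h => hv0 (congrArg Subtype.val h))
    exact h ▸ addOrderOf_dvd_natCard _
  obtain ⟨b, hb, hne⟩ := hH.exists_fixed_point_of_prime_dvd_card_of_fixed_point (α := S) hdvd
    (a := 0) (fun g => rfl)
  refine ⟨b, hSW b.2, fun h => hne (Subtype.ext h.symm), fun g x => ?_⟩
  have h := congrFun (congrArg Subtype.val (hb g⁻¹)) x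
  change (b : X → k) (g⁻¹⁻¹ • x) = _ at h
  rwa [inv_inv] at h

variable {G : Type*} [Group G] [Fintype G]

/-- Two-sided multiplication. -/
@[reducible] def twoSided (P : Subgroup G) : MulAction (↥P × ↥P) G where
  smul h y := (h.1 : G) * y * (h.2 : G)⁻¹
  one_smul y := show ((1 : ↥P) : G) * y * ((1 : ↥P) : G)⁻¹ = y by simp
  mul_smul a b y := show ((a.1 * b.1 : ↥P) : G) * y * ((a.2 * b.2 : ↥P) : G)⁻¹ =
      (a.1 : G) * ((b.1 : G) * y * (b.2 : G)⁻¹) * (a.2 : G)⁻¹ by simp [mul_assoc]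

attribute [local instance] twoSided

/-- A block whose dimension is least possible is controlled by a Sylow subgroup. -/
theorem exists_fusion (P : Subgroup G) (hP : IsPGroup p P) (ε : G → k)
    (hconj : ∀ g x, ε (x * g * x⁻¹) = ε g) (hidem : ∀ z, ∑ w, ε (z * w⁻¹) * ε w = ε z) (hne : ε ≠ 0) {d : ℕ}
    (hb : ∀ R : Subgroup G, IsPGroup p R → ∀ c, (∀ u ∈ R, u * c = c * u) → ε c ≠ 0 → Nat.card R ≤ p ^ d)
    (hrk : (Matrix.of fun z y => ε (z * y⁻¹)).rank * p ^ d ≤ Nat.card P * Nat.card P)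
    {Q : Subgroup G} (hQP : Q ≤ P) {c : G} (hc : ∀ u ∈ Q, u * c = c * u) (hcne : ε c ≠ 0) {x : G}
    (hx : ∀ u ∈ Q, x * u * x⁻¹ ∈ P) : ∃ g ∈ P, ∀ u ∈ Q, x * u * x⁻¹ = g * u * g⁻¹ := by
  classical
  obtain ⟨E, hE⟩ : ∃ E : Matrix G G k, E = Matrix.of fun z y => ε (z * y⁻¹) := ⟨_, rfl⟩
  rw [← hE] at hrk
  have hEapp : ∀ (v : G → k) z, (E *ᵥ v) z = ∑ y, ε (z * y⁻¹) * v y := fun v z => by rw [hE]; rfl
  have hEE : ∀ v, E *ᵥ (E *ᵥ v) = E *ᵥ v := fun v => by
    rw [Matrix.mulVec_mulVec]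
    congr 1
    ext z y
    rw [hE, Matrix.mul_apply]
    simp only [Matrix.of_apply]
    rw [← Equiv.sum_comp (Equiv.mulRight y)]
    simp only [Equiv.coe_mulRight, mul_inv_cancel_right, _root_.mul_inv_rev, ← mul_assoc]
    exact hidem (z * y⁻¹)
  have hsm : ∀ (h : ↥P × ↥P) (z y : G), ε ((h • z) * (h • y)⁻¹) = ε (z * y⁻¹) := fun h z y => by
    show ε ((h.1 : G) * z * (h.2 : G)⁻¹ * ((h.1 : G) * y * (h.2 : G)⁻¹)⁻¹) = _
    rw [← hconj (z * y⁻¹) (h.1 : G)]
    congr 1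
    group
  have hPP : IsPGroup p (↥P × ↥P) := by
    obtain ⟨n, hn⟩ := IsPGroup.iff_card.1 hP
    exact IsPGroup.of_card (n := n + n) (by rw [Nat.card_prod, hn, pow_add])
  have hEinv : ∀ (h : ↥P × ↥P) v z, (E *ᵥ v) (h • z) = (E *ᵥ fun y => v (h • y)) z := fun h v z => by
    rw [hEapp, hEapp, ← Equiv.sum_comp (MulAction.toPerm h)]
    simp only [MulAction.toPerm_apply, hsm]
  -- a fixed vector in the range
  have hcol : ∀ y, E *ᵥ Pi.single y 1 = fun z => ε (z * y⁻¹) := fun y => by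
    funext z; simp [hE]
  obtain ⟨w, hwW, hw0, hwf⟩ := exists_fixed hPP (LinearMap.range E.mulVecLin)
    (fun h v hv => by
      obtain ⟨u, rfl⟩ := hv
      exact ⟨fun y => u (h • y), funext fun z => (hEinv h u z).symm⟩)
    (fun h0 => hne (funext fun z => by
      have h1 : E *ᵥ Pi.single 1 1 ∈ LinearMap.range E.mulVecLin := ⟨_, rfl⟩
      rw [h0, Submodule.mem_bot, hcol] at h1
      simpa using congrFun h1 z))
  have hwE : E *ᵥ w = w := by
    obtain ⟨u, rfl⟩ := hwW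
    exact hEE u
  obtain ⟨z, hz, hzmax⟩ := Finset.exists_max_image (Finset.univ.filter fun y => w y ≠ 0)
    (fun y => Nat.card (stabilizer (↥P × ↥P) y)) (by
      obtain ⟨y, hy⟩ := Function.ne_iff.1 hw0
      exact ⟨y, by simpa using hy⟩)
  replace hz : w z ≠ 0 := (Finset.mem_filter.1 hz).2
  have hworb : ∀ a b, b ∈ orbit (↥P × ↥P) a → w b = w a := by
    rintro a _ ⟨h, rfl⟩
    exact hwf h a
  obtain ⟨x₀, hx₀, hT⟩ : ∃ x₀, w x₀ ≠ 0 ∧
      ∑ y ∈ Finset.univ.filter (· ∈ orbit (↥P × ↥P) x₀), ε (z * y⁻¹) ≠ 0 := by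
    by_contra! hcon
    apply hz
    rw [← congrFun hwE z, hEapp,
      ← Finset.sum_fiberwise Finset.univ (fun y : G => Quotient.mk (orbitRel (↥P × ↥P) G) y)]
    refine Finset.sum_eq_zero fun q _ => ?_
    obtain ⟨a, rfl⟩ := Quotient.exists_rep q
    have hf : Finset.univ.filter (fun y : G => Quotient.mk (orbitRel (↥P × ↥P) G) y = Quotient.mk _ a)
        = Finset.univ.filter (· ∈ orbit (↥P × ↥P) a) :=
      Finset.filter_congr fun y _ => by rw [Quotient.eq, orbitRel_apply]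
    rw [hf, Finset.sum_congr rfl (g := fun y => ε (z * y⁻¹) * w a)
      (fun y hy => by rw [hworb a y (Finset.mem_filter.1 hy).2]), ← Finset.sum_mul]
    rcases eq_or_ne (w a) 0 with h0 | h0
    · rw [h0, mul_zero]
    · rw [hcon a h0, zero_mul]
  obtain ⟨y, hyO, hyfix, hyε⟩ : ∃ y, y ∈ orbit (↥P × ↥P) x₀ ∧
      stabilizer (↥P × ↥P) z ≤ stabilizer (↥P × ↥P) y ∧ ε (z * y⁻¹) ≠ 0 := by
    let f : G → k := fun y => if y ∈ orbit (↥P × ↥P) x₀ then ε (z * y⁻¹) else 0
    have h1 := sum_eq_sum_fixed (hPP.to_subgroup (stabilizer (↥P × ↥P) z)) f fun h y => by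
      show (if ((h : ↥P × ↥P) • y) ∈ orbit (↥P × ↥P) x₀ then ε (z * ((h : ↥P × ↥P) • y)⁻¹) else 0) = f y
      have h2 : ((h : ↥P × ↥P) • y) ∈ orbit (↥P × ↥P) x₀ ↔ y ∈ orbit (↥P × ↥P) x₀ :=
        by rw [← orbit_eq_iff, ← orbit_eq_iff, orbit_smul]
      have h3 : ε (z * ((h : ↥P × ↥P) • y)⁻¹) = ε (z * y⁻¹) := by
        have h4 := hsm (h : ↥P × ↥P) z y
        rwa [show (h : ↥P × ↥P) • z = z from h.2] at h4
      simp only [f, h2, h3]
    simp only [f] at h1
    rw [← Finset.sum_filter] at h1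
    rw [h1] at hT
    obtain ⟨y, hy, hy'⟩ := Finset.exists_ne_zero_of_sum_ne_zero hT
    have hyO : y ∈ orbit (↥P × ↥P) x₀ := by by_contra h; exact hy' (if_neg h)
    rw [if_pos hyO] at hy'
    exact ⟨y, hyO, fun h hh => (Finset.mem_filter.1 hy).2 ⟨h, hh⟩, hy'⟩
  have hstab : stabilizer (↥P × ↥P) z = stabilizer (↥P × ↥P) y :=
    Subgroup.eq_of_le_of_card_ge hyfix (hzmax y (Finset.mem_filter.2
      ⟨Finset.mem_univ _, by rw [hworb x₀ y hyO]; exact hx₀⟩))
  let φz : ↥(stabilizer (↥P × ↥P) z) →* G :=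
    (P.subtype.comp (MonoidHom.fst ↥P ↥P)).comp (stabilizer (↥P × ↥P) z).subtype
  have hφz : Function.Injective φz := (injective_iff_map_eq_one φz).2 fun h h1 => by
    have h2 : ((h : ↥P × ↥P).1 : G) * z * ((h : ↥P × ↥P).2 : G)⁻¹ = z := h.2
    have h1' : ((h : ↥P × ↥P).1 : G) = 1 := h1
    rw [h1', one_mul, mul_eq_left, inv_eq_one] at h2
    exact Subtype.ext (Prod.ext (Subtype.ext h1') (Subtype.ext h2))
  obtain ⟨R, hR⟩ : ∃ R, R = φz.range := ⟨_, rfl⟩
  have hRP : R ≤ P := by rintro _ hu; rw [hR] at hu; obtain ⟨h, rfl⟩ := hu; exact (h : ↥P × ↥P).1.2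
  have hRc : ∀ u ∈ R, u * (z * y⁻¹) = z * y⁻¹ * u := by
    intro u hu
    rw [hR] at hu
    obtain ⟨h, rfl⟩ := hu
    have h1 : ((h : ↥P × ↥P).1 : G) * z * ((h : ↥P × ↥P).2 : G)⁻¹ = z := h.2
    have h2 : ((h : ↥P × ↥P).1 : G) * y * ((h : ↥P × ↥P).2 : G)⁻¹ = y := hyfix h.2
    show ((h : ↥P × ↥P).1 : G) * (z * y⁻¹) = z * y⁻¹ * ((h : ↥P × ↥P).1 : G)
    calc ((h : ↥P × ↥P).1 : G) * (z * y⁻¹)
        = ((h : ↥P × ↥P).1 : G) * z * ((h : ↥P × ↥P).2 : G)⁻¹
          * (((h : ↥P × ↥P).1 : G) * y * ((h : ↥P × ↥P).2 : G)⁻¹)⁻¹ * ((h : ↥P × ↥P).1 : G) := by group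
      _ = _ := by rw [h1, h2]
  have hRcard : Nat.card R = Nat.card (stabilizer (↥P × ↥P) y) := by
    rw [← hstab, hR]
    exact (Nat.card_congr (MonoidHom.ofInjective hφz).toEquiv).symm
  have hRle := hb R (hP.to_le hRP) _ hRc hyε
  -- the orbit basis
  letI : Fintype (orbit (↥P × ↥P) y) := Fintype.ofFinite _
  obtain ⟨A, hA⟩ : ∃ A : Matrix G (orbit (↥P × ↥P) y) k, A = Matrix.of fun g (o : orbit (↥P × ↥P) y) => ε (g * (o : G)⁻¹) := ⟨_, rfl⟩
  have hAapp : ∀ v g, (A *ᵥ v) g = ∑ o : orbit (↥P × ↥P) y, ε (g * (o : G)⁻¹) * v o := fun v g => by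
    rw [hA]; rfl
  have hAinv : ∀ (h : ↥P × ↥P) v g, (A *ᵥ v) (h • g) = (A *ᵥ fun o => v (h • o)) g := fun h v g => by
    rw [hAapp, hAapp, ← Equiv.sum_comp (MulAction.toPerm h)]
    exact Finset.sum_congr rfl fun o _ => by rw [MulAction.toPerm_apply, orbit.coe_smul, hsm]
  have hinj : Function.Injective A.mulVecLin := by
    rw [← LinearMap.ker_eq_bot]
    by_contra hk
    obtain ⟨v, hv, hv0, hvf⟩ := exists_fixed hPP (LinearMap.ker A.mulVecLin)
      (fun h v hv => by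
        rw [LinearMap.mem_ker, Matrix.mulVecLin_apply] at hv ⊢
        funext g
        rw [← hAinv, hv]
        rfl) hk
    rw [LinearMap.mem_ker, Matrix.mulVecLin_apply] at hv
    have h1 : ∀ o, v o = v ⟨y, mem_orbit_self y⟩ := fun o => by
      obtain ⟨h, ho⟩ := o.2
      rw [← hvf h ⟨y, mem_orbit_self y⟩]
      exact congrArg v (Subtype.ext ho.symm)
    have h2 := congrFun hv z
    rw [hAapp, Finset.sum_congr rfl (fun o _ => by rw [h1 o]), ← Finset.sum_mul, Pi.zero_apply, mul_eq_zero] at h2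
    rcases h2 with h2 | h2
    · apply hT
      rw [← h2]
      refine Finset.sum_subtype _ (fun g => ?_) (fun g => ε (z * g⁻¹))
      simp [orbit_eq_iff.2 hyO]
    · exact hv0 (funext fun o => (h1 o).trans h2)
  have hle : LinearMap.range A.mulVecLin ≤ LinearMap.range E.mulVecLin := by
    rintro _ ⟨β, rfl⟩
    have : A.mulVecLin β = ∑ o, β o • (E *ᵥ Pi.single (o : G) 1) := by
      funext g
      simp [hAapp, hcol, mul_comm]
    rw [this]
    exact Submodule.sum_mem _ fun o _ => Submodule.smul_mem _ _ ⟨_, rfl⟩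
  have horb : ∀ a ∈ orbit (↥P × ↥P) y,
      Nat.card (orbit (↥P × ↥P) y) * Nat.card (stabilizer (↥P × ↥P) a) = Nat.card P * Nat.card P := by
    intro a ha
    have h := (stabilizer (↥P × ↥P) a).card_mul_index
    rw [index_stabilizer, orbit_eq_iff.2 ha, ← Nat.card_coe_set_eq, Nat.card_prod] at h
    rw [mul_comm, h]
  have hfr : Module.finrank k (LinearMap.range A.mulVecLin) = Nat.card (orbit (↥P × ↥P) y) := by
    rw [LinearMap.finrank_range_of_inj hinj, Module.finrank_pi, Nat.card_eq_fintype_card]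
  have hge := Submodule.finrank_mono hle
  have hy1 := horb y (mem_orbit_self y)
  rw [← hRcard] at hy1
  have hopos : 0 < Nat.card (orbit (↥P × ↥P) y) :=
    @Nat.card_pos _ ⟨⟨y, mem_orbit_self y⟩⟩ _
  change E.rank * _ ≤ _ at hrk
  rw [Matrix.rank] at hrk
  have hRd : Nat.card R = p ^ d := by nlinarith
  have heq : LinearMap.range A.mulVecLin = LinearMap.range E.mulVecLin := by
    refine Submodule.eq_of_le_of_finrank_le hle ?_
    have hpd : 0 < p ^ d := pow_pos (Fact.out : p.Prime).pos d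
    nlinarith
  -- fixed points of twisted diagonals
  have key : ∀ (Q : Subgroup G) (hQP : Q ≤ P) (c : G), (∀ u ∈ Q, u * c = c * u) → ε c ≠ 0 →
      ∀ (x : G) (hx : ∀ u ∈ Q, x * u * x⁻¹ ∈ P), ∃ o ∈ orbit (↥P × ↥P) y, ∀ u ∈ Q, x * u * x⁻¹ * o * u⁻¹ = o := by
    intro Q hQP c hc hcne x hx
    let φ : ↥Q →* ↥P × ↥P :=
      MonoidHom.mk' (fun u => (⟨x * (u : G) * x⁻¹, hx u u.2⟩, ⟨(u : G), hQP u.2⟩)) fun u v =>
        Prod.ext (Subtype.ext (by simp [mul_assoc])) (Subtype.ext rfl)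
    obtain ⟨β, hβ⟩ : (fun g => ε (g * x⁻¹)) ∈ LinearMap.range A.mulVecLin := heq ▸ ⟨_, hcol x⟩
    rw [Matrix.mulVecLin_apply] at hβ
    have hfx : ∀ u : ↥Q, φ u • (x * c) = x * c := fun u => by
      show x * (u : G) * x⁻¹ * (x * c) * (u : G)⁻¹ = x * c
      calc x * (u : G) * x⁻¹ * (x * c) * (u : G)⁻¹ = x * ((u : G) * c) * (u : G)⁻¹ := by group
        _ = x * c := by rw [hc u u.2]; group
    have hfxx : ∀ (u : ↥Q) g, ε ((φ u • g) * x⁻¹) = ε (g * x⁻¹) := fun u g => by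
      show ε (x * (u : G) * x⁻¹ * g * (u : G)⁻¹ * x⁻¹) = _
      rw [← hconj (g * x⁻¹) (x * (u : G) * x⁻¹)]
      congr 1
      group
    have hβf : ∀ (u : ↥Q) o, β (φ u • o) = β o := fun u => congrFun (hinj (funext fun g => by
      rw [Matrix.mulVecLin_apply, Matrix.mulVecLin_apply, ← hAinv, hβ]
      exact hfxx u g))
    letI : MulAction ↥Q (orbit (↥P × ↥P) y) := MulAction.compHom _ φ
    have h1 := sum_eq_sum_fixed (hP.to_le hQP) (fun o : orbit (↥P × ↥P) y => ε (x * c * (o : G)⁻¹) * β o)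
      fun u o => by
        show ε (x * c * ((φ u • o : orbit (↥P × ↥P) y) : G)⁻¹) * β (φ u • o) = _
        conv_lhs => rw [← hfx u]
        rw [orbit.coe_smul, hsm, hβf]
    rw [← hAapp, hβ] at h1
    have h2 : ε (x * c * x⁻¹) ≠ 0 := by rwa [hconj]
    beta_reduce at h1
    rw [h1] at h2
    obtain ⟨o, ho, -⟩ := Finset.exists_ne_zero_of_sum_ne_zero h2
    exact ⟨o, o.2, fun u hu => congrArg Subtype.val ((Finset.mem_filter.1 ho).2 ⟨u, hu⟩)⟩
  obtain ⟨y₁, hy₁, hy₁R⟩ := key R hRP _ hRc hyε 1 (fun u hu => by simpa using hRP hu)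
  have hdiag : ∀ h ∈ stabilizer (↥P × ↥P) y₁, h.1 = h.2 := by
    let ψ : ↥R → ↥(stabilizer (↥P × ↥P) y₁) := fun u => ⟨(⟨u, hRP u.2⟩, ⟨u, hRP u.2⟩), by
      show (u : G) * y₁ * (u : G)⁻¹ = y₁
      simpa using hy₁R u u.2⟩
    have hψ : Function.Injective ψ := fun u v h => Subtype.ext (congrArg (fun t => (t.1.1 : G)) h)
    have hcard : Nat.card ↥R = Nat.card ↥(stabilizer (↥P × ↥P) y₁) := by
      have h1 := horb y₁ hy₁
      rw [← hy1] at h1
      exact (Nat.eq_of_mul_eq_mul_left hopos h1).symm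
    intro h hh
    obtain ⟨u, hu⟩ := (hψ.bijective_of_nat_card_le hcard.ge).2 ⟨h, hh⟩
    have h3 : ((⟨u, hRP u.2⟩ : ↥P), (⟨u, hRP u.2⟩ : ↥P)) = h := congrArg Subtype.val hu
    rw [← h3]
  obtain ⟨o, ho, hoQ⟩ := key Q hQP c hc hcne x hx
  obtain ⟨h, rfl⟩ : o ∈ orbit (↥P × ↥P) y₁ := by rwa [orbit_eq_iff.2 hy₁]
  refine ⟨(h.1 : G) * (h.2 : G)⁻¹, mul_mem h.1.2 (inv_mem h.2.2), fun u hu => ?_⟩
  let m : ↥P × ↥P := (⟨x * u * x⁻¹, hx u hu⟩, ⟨u, hQP hu⟩)
  have hm : m • h • y₁ = h • y₁ := hoQ u hu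
  have h2 : h⁻¹ * m * h ∈ stabilizer (↥P × ↥P) y₁ := by
    rw [mem_stabilizer_iff, mul_smul, mul_smul, hm, inv_smul_smul]
  have h3 : (h.1 : G)⁻¹ * (x * u * x⁻¹) * (h.1 : G) = (h.2 : G)⁻¹ * u * (h.2 : G) :=
    congrArg Subtype.val (hdiag _ h2)
  calc x * u * x⁻¹ = (h.1 : G) * ((h.1 : G)⁻¹ * (x * u * x⁻¹) * (h.1 : G)) * (h.1 : G)⁻¹ := by group
    _ = _ := by rw [h3]; group

end Abstract

variable {G : Type*} [Group G] [Fintype G] {p : ℕ} {M : Ideal AlgInt}

theorem isNilpotentBlock (hM : IsPModular p M) {B : Set (IrrCharacter G)} (hB : IsPBlock M B) {D : Subgroup G}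
    (hD : IsDefectGroup p M B D) {a d : ℕ} (ha : (Nat.card G).factorization p = a) (hd : Nat.card D = p ^ d)
    (hmin : ∑ᶠ χ ∈ B, charDegree (χ : G → ℂ) ^ 2 = p ^ (2 * a - d)) : IsNilpotentBlock p M B := by
  classical
  haveI := Fact.mk hM.1
  haveI : Fintype (IrrCharacter G) := @Fintype.ofFinite _ finite_irrCharacter
  letI := residueField hM
  haveI : CharP (Residue hM) p := residue_charP hM
  obtain ⟨q, hq⟩ : ∃ q, q = Ideal.Quotient.mk (localIdeal hM) := ⟨_, rfl⟩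
  let eR : G → localRing hM := fun g => ⟨blockCoeff B g, memLocalRing_blockCoeff hM hB g⟩
  obtain ⟨ε, hε⟩ : ∃ ε : G → Residue hM, ε = fun g => q (eR g) := ⟨_, rfl⟩
  have hεne : ∀ g, ε g ≠ 0 ↔ ¬ MemLocalIdeal M (blockCoeff B g) := fun g => by
    rw [hε, hq, ne_eq, Ideal.Quotient.eq_zero_iff_mem, mem_localIdeal]
  have heR : ∀ z, ∑ w, eR (z * w⁻¹) * eR w = eR z := fun z => by
    refine Subtype.ext ?_
    rw [AddSubmonoidClass.coe_finsetSum]
    simp only [eR, MulMemClass.coe_mul]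
    have h := coeff_mul_eq (blockElt B) (blockElt B) z
    rw [(isIdempotentElem_blockElt B).eq, coeff_blockElt] at h
    simp only [coeff_blockElt] at h
    rw [h]
    conv_rhs => rw [← Equiv.sum_comp ((Equiv.inv G).trans (Equiv.mulLeft z))]
    refine Finset.sum_congr rfl fun w _ => ?_
    simp [mul_assoc]
  have hidem : ∀ z, ∑ w, ε (z * w⁻¹) * ε w = ε z := fun z => by
    simp only [hε, ← map_mul, ← map_sum, heR]
  have hconj : ∀ g x, ε (x * g * x⁻¹) = ε g := fun g x => by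
    have h : blockCoeff B (x * g * x⁻¹) = blockCoeff B g := by
      simpa [coeff_blockElt] using coeff_conj (isClassElt_blockElt B) g x
    rw [hε]
    exact congrArg q (Subtype.ext h)
  obtain ⟨g, hg⟩ := exists_defectClass hM hB
  have hne : ε ≠ 0 := fun h => (hεne g).2 hg.2.1 (congrFun h g)
  have hdd : p ^ blockDefect p B = p ^ d := by rw [← card_defectGroup hM hB hD, hd]
  have hb : ∀ R : Subgroup G, IsPGroup p R → ∀ c, (∀ u ∈ R, u * c = c * u) → ε c ≠ 0 → Nat.card R ≤ p ^ d := by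
    intro R hR c hc hcne
    obtain ⟨D', hD', hle⟩ := exists_defectGroup_ge hM hB ((hεne c).1 hcne) hR hc
    rw [← hdd, ← card_defectGroup hM hB hD']
    exact Nat.le_of_dvd Nat.card_pos (Subgroup.card_dvd_of_le hle)
  have hda : d ≤ a := by
    rw [← ha]
    exact (hM.1.pow_dvd_iff_le_factorization Nat.card_pos.ne').1 (hd ▸ Subgroup.card_subgroup_dvd_card D)
  let E : Matrix G G (localRing hM) := fun z y => eR (z * y⁻¹)
  have hEE : E * E = E := by
    refine Matrix.ext fun z y => ?_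
    rw [Matrix.mul_apply, ← Equiv.sum_comp (Equiv.mulRight y)]
    simp only [E, Equiv.coe_mulRight, mul_inv_cancel_right, _root_.mul_inv_rev, ← mul_assoc]
    exact heR _
  have hrank := TwoChar.rank_map_of_idem hM E hEE
  have htr : (E.trace : ℂ) = ((p ^ (2 * a - d) : ℕ) : ℂ) := by
    rw [← hmin, finsum_mem_eq_sum_of_inter_support_eq (t := Finset.univ.filter (· ∈ B)) _ (by ext; simp),
      Finset.sum_filter]
    simp only [Matrix.trace, Matrix.diag, E, mul_inv_cancel, Finset.sum_const, Finset.card_univ, nsmul_eq_mul,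
      MulMemClass.coe_mul]
    show (((Fintype.card G : localRing hM)) : ℂ) * blockCoeff B 1 = _
    rw [blockCoeff_eq, SubringClass.coe_natCast, Nat.card_eq_fintype_card, ← mul_assoc,
      mul_inv_cancel₀ (Nat.cast_ne_zero.2 Fintype.card_ne_zero), one_mul, Nat.cast_sum]
    refine Finset.sum_congr rfl fun χ _ => ?_
    split_ifs
    · rw [apply_one (isCharacter_of_irr χ.2), Complex.conj_natCast]; push_cast; ring
    · simp
  rw [htr, Nat.cast_inj, show E.map (Ideal.Quotient.mk (localIdeal hM)) = Matrix.of fun z y => ε (z * y⁻¹) by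
    ext z y; simp [E, hε, hq]; rfl] at hrank
  refine ⟨hB, fun Q f hpair x hxN _ hxreg => ?_⟩
  obtain ⟨c, hc, hcne⟩ : ∃ c ∈ Subgroup.centralizer (Q : Set G), ε c ≠ 0 := by
    obtain ⟨ξ, hξ⟩ := IsPBlock.nonempty hM hpair.1.2
    by_contra! hcon
    letI : Fintype (Subgroup.centralizer (Q : Set G)) := Fintype.ofFinite _
    have h1 := hpair.2.2 ξ hξ
    rw [brauerOmega_blockCoeff] at h1
    have h2 := ZStar.memLocalIdeal_omega hM ξ
      (ZStar.isClassElt_res (isClassElt_blockElt B) (Subgroup.centralizer (Q : Set G))) (fun u => by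
        rw [ZStar.coeff_res, coeff_blockElt]
        by_contra h
        exact (hεne (u : G)).2 h (hcon u u.2))
    have h3 := memLocalIdeal_sub hM h2 h1
    rw [sub_sub_cancel] at h3
    exact not_memLocalIdeal_one hM h3
  obtain ⟨P, hQP⟩ := hpair.1.1.exists_le_sylow
  have hcard : Nat.card P = p ^ a := by rw [P.card_eq_multiplicity, ha]
  have hxQ : ∀ u ∈ Q, x * u * x⁻¹ ∈ Q := fun u hu => (Subgroup.mem_normalizer_iff.1 hxN u).1 hu
  obtain ⟨g, hg, hgu⟩ := exists_fusion (P : Subgroup G) P.isPGroup' ε hconj hidem hne hb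
    (by rw [hrank, hcard, ← pow_add, ← pow_add]; exact (congrArg (p ^ ·) (by omega)).le) hQP
    (fun u hu => Subgroup.mem_centralizer_iff.1 hc u hu) hcne (fun u hu => hQP (hxQ u hu))
  have hpow : ∀ n, ∀ u ∈ Q, x ^ n * u * (x ^ n)⁻¹ ∈ Q ∧ x ^ n * u * (x ^ n)⁻¹ = g ^ n * u * (g ^ n)⁻¹ := by
    intro n
    induction n with
    | zero => simp
    | succ n ih =>
      intro u hu
      have h1 := (ih u hu).1
      have h2 : x ^ (n + 1) * u * (x ^ (n + 1))⁻¹ = x * (x ^ n * u * (x ^ n)⁻¹) * x⁻¹ := by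
        rw [pow_succ']; group
      rw [h2]
      refine ⟨hxQ _ h1, ?_⟩
      rw [hgu _ h1, (ih u hu).2, pow_succ']
      group
  have hfix : ∀ u ∈ Q, g * u * g⁻¹ = u := by
    intro u hu
    obtain ⟨m, hm⟩ := (P.isPGroup' ⟨g, hg⟩)
    have hgm : g ^ p ^ m = 1 := congrArg Subtype.val hm
    have hcop : Nat.Coprime (orderOf x) (p ^ m) := ((hM.1.coprime_iff_not_dvd.2 hxreg).symm).pow_right m
    have h1 : Commute (g ^ orderOf x) u := by
      have := (hpow (orderOf x) u hu).2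
      rw [pow_orderOf_eq_one, one_mul, inv_one, mul_one] at this
      exact (eq_mul_inv_iff_mul_eq.1 this).symm
    have h2 : Commute g u := by
      obtain ⟨n, hn⟩ := exists_pow_eq_self_of_coprime
        (hcop.coprime_dvd_right (orderOf_dvd_of_pow_eq_one hgm))
      rw [← hn]
      exact h1.pow_left n
    rw [h2.eq, mul_inv_cancel_right]
  refine Subgroup.mem_centralizer_iff.2 fun u hu => ?_
  have h := hgu u hu
  rw [hfix u hu, mul_inv_eq_iff_eq_mul] at h
  exact h.symm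

end CfsgLib.Blocks.MinDim
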