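import Cfsg.Agent.Blocks.SumSqDegree
import Cfsg.Agent.Blocks.DefectGroup
import Cfsg.Agent.Blocks.NormalPSub
import Cfsg.Agent.Blocks.InertialIndex
import Cfsg.Agent.Blocks.Residue
import Cfsg.Agent.ZStar.Congr
import Mathlib.LinearAlgebra.Matrix.Rank

/-!
# Blocks with a given normal defect group and a bilinear form on the classes of that defect

The pairing of two classes of `p`-regular elements with defect group `D` by a Sylow subgroup is, modulo `M`, the sum
over the blocks with defect group `D` of a unit times the two central characters.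
-/

set_option linter.unusedSectionVars false
set_option linter.style.haveILetI false

namespace CfsgLib.Blocks

open Cfsg CfsgLib.CharBasics
open scoped ComplexConjugate

/-- The rank of a square matrix survives a change of fields. -/
theorem rank_map_field {K L ι : Type*} [Field K] [Field L] [Fintype ι] [DecidableEq ι] (f : K →+* L)
    (A : Matrix ι ι K) : (A.map f).rank = A.rank := by
  classical
  obtain ⟨V, U, e, hV, hU, he⟩ := A.exists_rank_normal_form
  have h := congrArg (fun X : Matrix ι ι K => X.map f) he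
  simp only [Matrix.map_mul] at h
  have hV' : IsUnit (V.map f).det := (Matrix.isUnit_iff_isUnit_det _).1 (hV.map f.mapMatrix)
  have hU' : IsUnit (U.map f).det := (Matrix.isUnit_iff_isUnit_det _).1 (hU.map f.mapMatrix)
  rw [← Matrix.rank_mul_eq_right_of_isUnit_det (V.map f) (A.map f) hV',
    ← Matrix.rank_mul_eq_left_of_isUnit_det (U.map f) (V.map f * A.map f) hU', h, ← Matrix.submatrix_map,
    Matrix.fromBlocks_map, Matrix.map_one f (map_zero f) (map_one f), Matrix.map_zero f (map_zero f),
    Matrix.map_zero f (map_zero f), Matrix.map_zero f (map_zero f), Matrix.rank_submatrix _ e e,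
    ← Matrix.diagonal_one, ← Matrix.diagonal_zero, Matrix.fromBlocks_diagonal, Matrix.rank_diagonal]
  conv_rhs => rw [← Fintype.card_fin A.rank]
  exact Fintype.card_congr
    { toFun := fun i => match i with
        | ⟨.inl a, _⟩ => a
        | ⟨.inr b, hb⟩ => absurd rfl hb
      invFun := fun a => ⟨.inl a, one_ne_zero⟩
      left_inv := by rintro ⟨a | b, h⟩; · rfl
                     exact absurd rfl h
      right_inv := fun a => rfl }

variable {G : Type*} [Group G] [Fintype G] {p : ℕ} {M : Ideal AlgInt}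

/-- A normal `p`-subgroup lies in every defect group. -/
theorem le_defectGroup_of_normal (hM : IsPModular p M) {B : Set (IrrCharacter G)} (hB : IsPBlock M B)
    {Q : Subgroup G} [Q.Normal] (hQ : IsPGroup p Q) {D : Subgroup G} (hD : IsDefectGroup p M B D) : Q ≤ D := by
  haveI := Fact.mk hM.1
  haveI : Fintype Q := Fintype.ofFinite Q
  obtain ⟨g, hg, P, rfl⟩ := hD
  obtain ⟨χ, hχ⟩ := IsPBlock.nonempty hM hB
  have hgc : g ∈ Subgroup.centralizer (Q : Set G) := by
    by_contra h
    exact hg.2.2 χ hχ (centralChar_mem_of_notMem_centralizer hM Q hQ χ h)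
  have hle : Q ≤ Subgroup.centralizer ({g} : Set G) := fun q hq =>
    Subgroup.mem_centralizer_singleton_iff.2 (Subgroup.mem_centralizer_iff.1 hgc q hq)
  haveI : (Q.subgroupOf (Subgroup.centralizer ({g} : Set G))).Normal := Subgroup.Normal.subgroupOf inferInstance _
  have hsub : Q.subgroupOf (Subgroup.centralizer ({g} : Set G)) ≤ (P : Subgroup (Subgroup.centralizer ({g} : Set G))) := by
    have hp' := hQ.of_equiv (Subgroup.subgroupOfEquivOfLe hle).symm
    exact le_sup_left.trans (P.3 (IsPGroup.to_sup_of_normal_left hp' P.2) le_sup_right).le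
  intro q hq
  exact ⟨⟨q, hle hq⟩, hsub hq, rfl⟩

/-- With `D` normal: defect group `D` means the defect of `D`. -/
theorem isDefectGroup_normal_iff (hM : IsPModular p M) {B : Set (IrrCharacter G)} (hB : IsPBlock M B)
    {D : Subgroup G} [D.Normal] (hD : IsPGroup p D) {d : ℕ} (hd : Nat.card D = p ^ d) :
    IsDefectGroup p M B D ↔ blockDefect p B = d := by
  refine ⟨fun h => Nat.pow_right_injective hM.1.two_le ((card_defectGroup hM hB h).symm.trans hd), fun h => ?_⟩
  haveI := Fact.mk hM.1
  obtain ⟨g, hg⟩ := exists_defectClass hM hB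
  obtain ⟨P⟩ : Nonempty (Sylow p (Subgroup.centralizer ({g} : Set G))) := inferInstance
  have hE : IsDefectGroup p M B ((P : Subgroup (Subgroup.centralizer ({g} : Set G))).map
      (Subgroup.centralizer ({g} : Set G)).subtype) := ⟨g, hg, P, rfl⟩
  have := Subgroup.eq_of_le_of_card_ge (le_defectGroup_of_normal hM hB hD hE)
    (by rw [card_defectGroup hM hB hE, hd, h])
  exact this ▸ hE

variable {D : Subgroup G} [D.Normal] {d : ℕ}

/-- A central character is small at a class of defect `D` outside the blocks of that defect. -/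
theorem centralChar_mem_of_defect_ne (hM : IsPModular p M) (hD : IsPGroup p D) (hd : Nat.card D = p ^ d)
    {B : Set (IrrCharacter G)} (hB : IsPBlock M B) (hBd : blockDefect p B ≠ d) {x : G}
    (hx : centExp p x = d) {χ : IrrCharacter G} (hχ : χ ∈ B) : MemLocalIdeal M (centralChar (χ : G → ℂ) x) := by
  by_contra h
  obtain ⟨θ, hθ, hmin, hs⟩ := exists_min_degExp hM hB
  have hθx : ¬ MemLocalIdeal M (centralChar (θ : G → ℂ) x) := fun h' => h (by
    simpa using memLocalIdeal_add hM ((IsPBlock.mem_iff hM hB hθ).1 hχ x |> fun e => memLocalIdeal_neg e) h')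
  have h1 := le_centExp hM θ hθx
  rw [hx, ← blockDefect_eq hs] at h1
  haveI := Fact.mk hM.1
  obtain ⟨g, hg⟩ := exists_defectClass hM hB
  obtain ⟨P⟩ : Nonempty (Sylow p (Subgroup.centralizer ({g} : Set G))) := inferInstance
  have hE : IsDefectGroup p M B ((P : Subgroup (Subgroup.centralizer ({g} : Set G))).map
      (Subgroup.centralizer ({g} : Set G)).subtype) := ⟨g, hg, P, rfl⟩
  have h2 := Subgroup.card_le_of_le (le_defectGroup_of_normal hM hB hD hE)
  rw [hd, card_defectGroup hM hB hE] at h2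
  have := (Nat.pow_le_pow_iff_right hM.1.one_lt).1 h2
  omega

/-- A class carrying a unit idempotent coefficient and a unit central character for blocks of defect `D` has
defect group `D`. -/
theorem defect_class_of_unit (hM : IsPModular p M) (hD : IsPGroup p D) (hd : Nat.card D = p ^ d)
    {B : Set (IrrCharacter G)} (hB : IsPBlock M B) (hBd : blockDefect p B = d) {χ : IrrCharacter G} {x : G}
    (hx : ¬ MemLocalIdeal M (blockCoeff B x)) (hω : ¬ MemLocalIdeal M (centralChar (χ : G → ℂ) x)) :
    ¬ p ∣ orderOf x ∧ x ∈ Subgroup.centralizer (D : Set G) ∧ centExp p x = d := by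
  haveI := Fact.mk hM.1
  haveI : Fintype D := Fintype.ofFinite D
  have hreg : ¬ p ∣ orderOf x := fun h => hx (by
    rw [blockCoeff_eq_zero hM hB h]; exact memLocalIdeal_zero hM)
  have hxD : x ∈ Subgroup.centralizer (D : Set G) := by
    by_contra h
    exact hω (centralChar_mem_of_notMem_centralizer hM D hD χ h)
  refine ⟨hreg, hxD, le_antisymm ?_ ?_⟩
  · obtain ⟨P⟩ : Nonempty (Sylow p (Subgroup.centralizer ({x} : Set G))) := inferInstance
    obtain ⟨E, hE, hle⟩ := exists_defectGroup_ge hM hB hx (P.2.map (Subgroup.centralizer ({x} : Set G)).subtype)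
      (fun q hq => Subgroup.mem_centralizer_singleton_iff.1 (Subgroup.map_subtype_le _ hq))
    have h2 := Subgroup.card_le_of_le hle
    rw [card_defectGroup hM hB hE, hBd, Subgroup.card_map_of_injective (Subgroup.centralizer ({x} : Set G)).subtype_injective,
      P.card_eq_multiplicity] at h2
    exact (Nat.pow_le_pow_iff_right hM.1.one_lt).1 h2
  · have hle : D ≤ Subgroup.centralizer ({x} : Set G) := fun q hq =>
      Subgroup.mem_centralizer_singleton_iff.2 (Subgroup.mem_centralizer_iff.1 hxD q hq)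
    exact (hM.1.pow_dvd_iff_le_factorization Nat.card_pos.ne').1 (hd ▸ Subgroup.card_dvd_of_le hle)

variable {ι : Type*} [Fintype ι] [DecidableEq ι]

set_option maxHeartbeats 1600000 in
/-- The number of blocks with normal defect group `D` is the rank of the pairing. -/
theorem card_blocks_eq_rank [Fact p.Prime] (hM : IsPModular p M) (hD : IsPGroup p D) (hd : Nat.card D = p ^ d)
    (S : Sylow p G) (x : ι → G) (hinj : Function.Injective fun i => ConjClasses.mk (x i))
    (hxd : ∀ i, centExp p (x i) = d)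
    (hsur : ∀ y : G, ¬ p ∣ orderOf y → y ∈ Subgroup.centralizer (D : Set G) → centExp p y = d →
      ∃ i, IsConj (x i) y)
    (hxr : ∀ i, ¬ p ∣ orderOf (x i) ∧ x i ∈ Subgroup.centralizer (D : Set G)) :
    Nat.card {B : Set (IrrCharacter G) // IsPBlock M B ∧ blockDefect p B = d} =
      (Matrix.of fun i j : ι => ((Nat.card {yz : G × G // IsConj (x i) yz.1 ∧ IsConj (x j) yz.2 ∧
        yz.2 * yz.1⁻¹ ∈ (S : Subgroup G)} / p ^ ((Nat.card G).factorization p - d) : ℕ) : ZMod p)).rank := by
  classical
  have hp : p.Prime := hM.1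
  haveI : Fintype (IrrCharacter G) := @Fintype.ofFinite _ finite_irrCharacter
  haveI : Fintype (ConjClasses G) := Fintype.ofFinite _
  haveI : Fintype (S : Subgroup G) := Fintype.ofFinite _
  obtain ⟨a, ha⟩ : ∃ a, a = (Nat.card G).factorization p := ⟨_, rfl⟩
  rw [← ha]
  have hda : d ≤ a := by
    rw [ha]
    exact (hp.pow_dvd_iff_le_factorization Nat.card_pos.ne').1 (hd ▸ Subgroup.card_subgroup_dvd_card D)
  let BB := {B : Set (IrrCharacter G) // IsPBlock M B ∧ blockDefect p B = d}
  haveI : Finite (Set (IrrCharacter G)) := inferInstance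
  haveI : Fintype BB := Fintype.ofFinite _
  rw [Nat.card_eq_fintype_card (α := BB)]
  letI := residueField hM
  haveI := residue_charP hM
  obtain ⟨red', hred'⟩ : ∃ q : localRing hM →+* Residue hM, q = Ideal.Quotient.mk (localIdeal hM) := ⟨_, rfl⟩
  have hker : ∀ u v : localRing hM, red' u = red' v ↔ MemLocalIdeal M ((u : ℂ) - v) := fun u v => by
    rw [hred', Ideal.Quotient.eq, mem_localIdeal]; rfl
  -- representatives
  choose θ hθ hmin hsInf using fun B : BB => exists_min_degExp hM B.2.1
  let om : BB → G → localRing hM := fun B y => ⟨centralChar (θ B : G → ℂ) y, memLocalRing_centralChar hM _ y⟩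
  have hom : ∀ B y y', IsConj y y' → om B y = om B y' := fun B y y' h => Subtype.ext (centralChar_isConj (θ B) h)
  -- the inverse classes
  have hinv : ∀ i, ∃ j, IsConj (x j) (x i)⁻¹ := fun i => by
    refine hsur _ (by rw [orderOf_inv]; exact (hxr i).1) (inv_mem (hxr i).2) ?_
    rw [centExp, show Subgroup.centralizer ({(x i)⁻¹} : Set G) = Subgroup.centralizer ({x i} : Set G) from
      Subgroup.ext fun g => by
        rw [Subgroup.mem_centralizer_singleton_iff, Subgroup.mem_centralizer_singleton_iff]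
        exact ⟨fun h => (Commute.inv_right_iff.1 (show Commute g (x i)⁻¹ from h)), fun h =>
          Commute.inv_right (show Commute g (x i) from h)⟩]
    exact hxd i
  choose σ hσ using hinv
  have hσi : Function.Injective σ := fun i j h => hinj (ConjClasses.mk_eq_mk_iff_isConj.2 (by
    have h1 : IsConj (x i)⁻¹ (x j)⁻¹ := (hσ i).symm.trans (h ▸ hσ j)
    obtain ⟨c, hc⟩ := isConj_iff.1 h1
    exact isConj_iff.2 ⟨c, inv_injective (by rw [← hc]; simp [mul_assoc])⟩))
  obtain ⟨τ, hτ⟩ : ∃ τ : ι ≃ ι, ∀ i, τ i = σ i :=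
    ⟨Equiv.ofBijective σ ((Finite.injective_iff_bijective).1 hσi), fun i => rfl⟩
  -- the dual vectors
  have hEex : ∀ (B B' : BB), MemLocalIdeal M ((∑ i, centralChar (θ B' : G → ℂ) (x i) * blockCoeff B.1 (x i)) -
      (if B' = B then 1 else 0)) := by
    intro B B'
    have h1 := omega_eq_sum_classes (θ B') (isClassElt_blockElt B.1)
    rw [omega_blockElt] at h1
    have h2 : (if θ B' ∈ B.1 then (1 : ℂ) else 0) = if B' = B then 1 else 0 := by
      refine if_congr ⟨fun h => Subtype.ext (IsPBlock.eq_of_mem hM B'.2.1 B.2.1 (hθ B') h), fun h => h ▸ hθ B'⟩ rfl rfl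
    rw [← h2, h1]
    let mk' : ι ↪ ConjClasses G := ⟨fun i => ConjClasses.mk (x i), hinj⟩
    have h3 : ∑ i, centralChar (θ B' : G → ℂ) (x i) * blockCoeff B.1 (x i) =
        ∑ C ∈ Finset.univ.map mk', (blockElt B.1).coeff C.out * centralChar (θ B' : G → ℂ) C.out := by
      rw [Finset.sum_map]
      refine Finset.sum_congr rfl fun i _ => ?_
      have hc : IsConj (mk' i).out (x i) := ConjClasses.mk_eq_mk_iff_isConj.1 (Quotient.out_eq _)
      rw [coeff_blockElt, centralChar_isConj _ hc, blockCoeff_isConj _ hc, mul_comm]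
    rw [h3, ← Finset.sum_sdiff (Finset.subset_univ (Finset.univ.map mk')), sub_add_cancel_right]
    refine memLocalIdeal_neg (memLocalIdeal_sum hM _ fun C hC => ?_)
    rw [coeff_blockElt]
    by_contra hu
    have hu1 : ¬ MemLocalIdeal M (blockCoeff B.1 C.out) := fun h =>
      hu (memLocalIdeal_mul_right hM h (memLocalRing_centralChar hM _ _))
    have hu2 : ¬ MemLocalIdeal M (centralChar (θ B' : G → ℂ) C.out) := fun h =>
      hu (memLocalIdeal_mul_left hM (memLocalRing_blockCoeff hM B.2.1 _) h)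
    obtain ⟨hr1, hr2, hr3⟩ := defect_class_of_unit hM hD hd B.2.1 B.2.2 hu1 hu2
    obtain ⟨i, hi⟩ := hsur _ hr1 hr2 hr3
    refine (Finset.mem_sdiff.1 hC).2 (Finset.mem_map.2 ⟨i, Finset.mem_univ _, ?_⟩)
    show ConjClasses.mk (x i) = C
    rw [ConjClasses.mk_eq_mk_iff_isConj.2 hi]; exact Quotient.out_eq C
  -- the weights
  let m : ℕ := Nat.card G / p ^ (Nat.card G).factorization p
  choose κ hκp hκ using fun B : BB => exists_sum_sq_degree hM B.2.1
  have hm' : ¬ p ∣ m := Nat.not_dvd_ordCompl hp Nat.card_pos.ne'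
  have hGm : (Nat.card G : ℂ) = (p : ℂ) ^ a * m := by
    rw [ha, ← Nat.cast_pow, ← Nat.cast_mul, Nat.ordProj_mul_ordCompl_eq_self]
  have hp0 : (p : ℂ) ≠ 0 := Nat.cast_ne_zero.2 hp.ne_zero
  have hm0 : (m : ℂ) ≠ 0 := Nat.cast_ne_zero.2 fun h => hm' (by rw [h]; exact dvd_zero p)
  have hS : (Nat.card (S : Subgroup G) : ℂ) = (p : ℂ) ^ a := by
    rw [S.card_eq_multiplicity, ha]; push_cast; rfl
  have hnS : ∀ χ : IrrCharacter G, ∃ n : ℕ, ∑ s : (S : Subgroup G), conj ((χ : G → ℂ) s) = (Nat.card (S : Subgroup G) : ℂ) * n := by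
    intro χ
    obtain ⟨n, hn⟩ := classInner_character_nat (isCharacter_restrict (isCharacter_of_irr χ.2) (S : Subgroup G)) oneChar
    refine ⟨n, ?_⟩
    rw [show ((oneChar : IrrCharacter ↥(S : Subgroup G)) : ↥(S : Subgroup G) → ℂ) = fun _ => 1 from rfl, classInner_one] at hn
    have := congrArg conj hn
    rw [map_mul, map_inv₀, Complex.conj_natCast, Complex.conj_natCast, map_sum] at this
    rw [← this, mul_inv_cancel_left₀ (Nat.cast_ne_zero.2 Nat.card_pos.ne')]
  choose n hn using hnS
  -- the exact formula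
  let q : ι → ι → IrrCharacter G → ℂ := fun i j χ =>
    ((p : ℂ) ^ d * (χ : G → ℂ) 1 * n χ / Nat.card G) * centralChar (χ : G → ℂ) (x j) * centralChar (χ : G → ℂ) (x i)⁻¹
  have hcount : ∀ i j, (Nat.card {yz : G × G // IsConj (x i) yz.1 ∧ IsConj (x j) yz.2 ∧
      yz.2 * yz.1⁻¹ ∈ (S : Subgroup G)} : ℂ) = (p : ℂ) ^ (a - d) * ∑ χ, q i j χ := by
    intro i j
    have hcoeff : ∀ s : G, (classElt (x j) * classElt (x i)⁻¹).coeff s =
        (Nat.card {yz : G × G // IsConj (x i) yz.1 ∧ IsConj (x j) yz.2 ∧ yz.2 * yz.1⁻¹ = s} : ℂ) := by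
      intro s
      rw [ZStar.coeff_mul_eq]
      simp only [coeff_classElt, boole_mul, ← ite_and]
      rw [Finset.sum_boole, ← Fintype.card_subtype, ← Nat.card_eq_fintype_card]
      congr 1
      have hii : ∀ u v : G, IsConj u⁻¹ v⁻¹ → IsConj u v := fun u v h => by
        obtain ⟨c, hc⟩ := isConj_iff.1 h
        exact isConj_iff.2 ⟨c, inv_injective (by rw [← hc]; simp [mul_assoc])⟩
      exact Nat.card_congr
        { toFun := fun h => ⟨((h.1⁻¹ * s)⁻¹, h.1), hii _ _ (by rw [inv_inv]; exact h.2.2), h.2.1, by simp⟩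
          invFun := fun yz => ⟨yz.1.2, yz.2.2.1, by
            have e : yz.1.2⁻¹ * s = yz.1.1⁻¹ :=
              (congrArg (fun t => yz.1.2⁻¹ * t) yz.2.2.2.symm).trans (inv_mul_cancel_left _ _)
            rw [e]
            obtain ⟨c, hc⟩ := isConj_iff.1 yz.2.1
            exact isConj_iff.2 ⟨c, by rw [← hc]; simp [mul_assoc]⟩⟩
          left_inv := fun h => rfl
          right_inv := fun yz => Subtype.ext (Prod.ext (by
            show (yz.1.2⁻¹ * s)⁻¹ = yz.1.1
            rw [(congrArg (fun t => yz.1.2⁻¹ * t) yz.2.2.2.symm).trans (inv_mul_cancel_left _ _), inv_inv]) rfl) }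
    have hsum : (Nat.card {yz : G × G // IsConj (x i) yz.1 ∧ IsConj (x j) yz.2 ∧ yz.2 * yz.1⁻¹ ∈ (S : Subgroup G)} : ℂ) =
        ∑ s : (S : Subgroup G), (classElt (x j) * classElt (x i)⁻¹).coeff s := by
      simp only [hcoeff]
      rw [← Nat.cast_sum, ← Nat.card_sigma]
      exact congrArg _ (Nat.card_congr
        { toFun := fun yz => ⟨⟨_, yz.2.2.2⟩, ⟨yz.1, yz.2.1, yz.2.2.1, rfl⟩⟩
          invFun := fun w => ⟨w.2.1, w.2.2.1, w.2.2.2.1, by rw [w.2.2.2.2]; exact w.1.2⟩
          left_inv := fun yz => rfl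
          right_inv := fun ⟨⟨s, hs⟩, ⟨yz, h1, h2, h3⟩⟩ => Sigma.subtype_ext (Subtype.ext h3) rfl })
    rw [hsum]
    simp only [coeff_eq_sum_omega ((isClassElt_classElt (x j)).mul (isClassElt_classElt (x i)⁻¹))]
    rw [← Finset.mul_sum, Finset.sum_comm, Finset.mul_sum, Finset.mul_sum]
    refine Finset.sum_congr rfl fun χ _ => ?_
    rw [← Finset.mul_sum, hn, omega_mul χ.2 (isClassElt_classElt _), omega_classElt χ.2, omega_classElt χ.2, hS]
    simp only [q]
    rw [show a = (a - d) + d by omega, pow_add, Nat.add_sub_cancel]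
    ring
  -- the terms are integral, and small outside the blocks of defect `d`
  have hw : ∀ (j) (χ : IrrCharacter G), MemLocalRing M ((p : ℂ) ^ d * (χ : G → ℂ) 1 * n χ / Nat.card G * centralChar (χ : G → ℂ) (x j)) := by
    intro j χ
    obtain ⟨c, hc⟩ : ∃ c, Nat.card (Subgroup.centralizer ({x j} : Set G)) = p ^ d * c := by
      have h := Nat.ordProj_dvd (Nat.card (Subgroup.centralizer ({x j} : Set G))) p
      rw [show (Nat.card (Subgroup.centralizer ({x j} : Set G))).factorization p = d from hxd j] at h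
      exact h
    have hcp : ¬ p ∣ c := fun h => Nat.pow_succ_factorization_not_dvd Nat.card_pos.ne' hp (by
      show p ^ ((Nat.card (Subgroup.centralizer ({x j} : Set G))).factorization p + 1) ∣ _
      rw [show (Nat.card (Subgroup.centralizer ({x j} : Set G))).factorization p = d from hxd j, hc, pow_succ]
      exact mul_dvd_mul_left _ h)
    have hc0 : (c : ℂ) ≠ 0 := Nat.cast_ne_zero.2 fun h => hcp (by rw [h]; exact dvd_zero p)
    have hG0 : (Nat.card G : ℂ) ≠ 0 := Nat.cast_ne_zero.2 Nat.card_pos.ne'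
    have e : (p : ℂ) ^ d * (χ : G → ℂ) 1 * n χ / Nat.card G * centralChar (χ : G → ℂ) (x j) =
        (n χ : ℂ) * (c : ℂ)⁻¹ * (χ : G → ℂ) (x j) := by
      rw [centralChar_eq_smul χ (x j), hc]
      push_cast
      field_simp
    rw [e]
    exact memLocalRing_mul hM (memLocalRing_mul hM (memLocalRing_natCast hM _) (memLocalRing_natCast_inv hM hcp))
      (memLocalRing_apply hM χ _)
  have hqR : ∀ (i j) (χ : IrrCharacter G), MemLocalRing M (q i j χ) := fun i j χ =>
    memLocalRing_mul hM (hw j χ) (memLocalRing_centralChar hM χ _)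
  have hxinv : ∀ i, centExp p (x i)⁻¹ = d := fun i => by
    rw [centExp, ← card_centralizer_eq (hσ i)]; exact hxd (σ i)
  have hout : ∀ (i j) (χ : IrrCharacter G), blockDefect p (blockOf M (χ : G → ℂ)) ≠ d → MemLocalIdeal M (q i j χ) := fun i j χ h =>
    memLocalIdeal_mul_left hM (hw j χ)
      (centralChar_mem_of_defect_ne hM hD hd (isPBlock_blockOf M χ) h (hxinv i) (mem_blockOf_self hM χ))
  have ht : ∀ (B : BB) (χ : IrrCharacter G), χ ∈ B.1 → MemLocalRing M ((p : ℂ) ^ d * (χ : G → ℂ) 1 * n χ / Nat.card G) := by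
    intro B χ hχ
    obtain ⟨c, c', hc, hc1, hcm, -⟩ := exists_degree_eq (p := p) hp χ
    have h1 := hmin B χ hχ
    have h2 := B.2.2
    rw [blockDefect_eq (hsInf B), ← ha] at h2
    have h3 := degExp_le hp (θ B)
    rw [← ha] at h3
    have e : (p : ℂ) ^ d * (χ : G → ℂ) 1 * n χ / Nat.card G =
        (p : ℂ) ^ (degExp p χ + d - a) * (c * n χ * (m : ℂ)⁻¹) := by
      have hpow : (p : ℂ) ^ d * (p : ℂ) ^ degExp p χ = (p : ℂ) ^ (degExp p χ + d - a) * (p : ℂ) ^ a := by
        rw [← pow_add, ← pow_add]; congr 1; omega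
      rw [hc1, hGm]
      field_simp
      linear_combination (c : ℂ) * (n χ : ℂ) * hpow
    rw [e]
    exact memLocalRing_mul hM (memLocalRing_pow hM (memLocalRing_natCast hM p) _) (memLocalRing_mul hM
      (memLocalRing_mul hM (memLocalRing_natCast hM c) (memLocalRing_natCast hM _)) (memLocalRing_natCast_inv hM hm'))
  -- the weight of a block
  have hwt : ∀ B : BB, ∑ χ ∈ Finset.univ.filter (· ∈ B.1), (p : ℂ) ^ d * (χ : G → ℂ) 1 * n χ / Nat.card G =
      (κ B : ℂ) / m := by
    intro B
    have hG0 : (Nat.card G : ℂ) ≠ 0 := Nat.cast_ne_zero.2 Nat.card_pos.ne'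
    have hS0 : (Nat.card (S : Subgroup G) : ℂ) ≠ 0 := Nat.cast_ne_zero.2 Nat.card_pos.ne'
    have h1 : ∑ χ ∈ Finset.univ.filter (· ∈ B.1), (χ : G → ℂ) 1 * ∑ s : (S : Subgroup G), conj ((χ : G → ℂ) s) =
        ((∑ᶠ χ ∈ B.1, charDegree (χ : G → ℂ) ^ 2 : ℕ) : ℂ) := by
      simp only [Finset.mul_sum]
      rw [Finset.sum_comm, Finset.sum_eq_single (1 : (S : Subgroup G))]
      · rw [finsum_mem_def, finsum_eq_sum_of_fintype, Nat.cast_sum, Finset.sum_filter]
        refine Finset.sum_congr rfl fun χ _ => ?_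
        simp only [Set.indicator_apply, OneMemClass.coe_one]
        split_ifs
        · push_cast
          rw [apply_one (isCharacter_of_irr χ.2), Complex.conj_natCast]; ring
        · simp
      · intro s _ hs
        have hsp : p ∣ orderOf (s : G) := by
          obtain ⟨j, hj⟩ := IsPGroup.iff_orderOf.1 S.2 s
          rw [Subgroup.orderOf_coe, hj]
          refine dvd_pow_self p fun h0 => hs ?_
          rw [← orderOf_eq_one_iff, hj, h0, pow_zero]
        have := weak_block_orth hM B.2.1 (x := (1 : G)) (by rw [orderOf_one]; exact hp.not_dvd_one) hsp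
        rw [finsum_mem_def, finsum_eq_sum_of_fintype] at this
        rw [Finset.sum_filter]
        refine Eq.trans (Finset.sum_congr rfl fun χ _ => ?_) this
        rw [Set.indicator_apply]
      · simp
    rw [hκ B, B.2.2, ← ha] at h1
    simp only [hn] at h1
    have h2 : ∑ χ ∈ Finset.univ.filter (· ∈ B.1), (χ : G → ℂ) 1 * (n χ : ℂ) =
        ((p ^ (2 * a - d) * κ B : ℕ) : ℂ) / Nat.card (S : Subgroup G) := by
      rw [eq_div_iff hS0, Finset.sum_mul, ← h1]
      exact Finset.sum_congr rfl fun χ _ => by ring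
    simp only [mul_assoc, mul_div_assoc, ← Finset.mul_sum]
    simp only [← mul_div_assoc, ← Finset.sum_div]
    rw [h2, hS, hGm]
    push_cast
    rw [show (p : ℂ) ^ (2 * a - d) = (p : ℂ) ^ (a - d) * (p : ℂ) ^ a by rw [← pow_add]; congr 1; omega]
    have hpow : (p : ℂ) ^ d * (p : ℂ) ^ (a - d) = (p : ℂ) ^ a := by rw [← pow_add]; congr 1; omega
    field_simp
    linear_combination (κ B : ℂ) * hpow
  -- the integer entries
  have hdiv : ∀ i j, ∃ N : ℕ, Nat.card {yz : G × G // IsConj (x i) yz.1 ∧ IsConj (x j) yz.2 ∧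
      yz.2 * yz.1⁻¹ ∈ (S : Subgroup G)} = p ^ (a - d) * N := by
    intro i j
    have h := hcount i j
    generalize Nat.card {yz : G × G // IsConj (x i) yz.1 ∧ IsConj (x j) yz.2 ∧
      yz.2 * yz.1⁻¹ ∈ (S : Subgroup G)} = N₀ at h ⊢
    have h2 : MemLocalRing M (((N₀ : ℤ) : ℂ) / (p : ℂ) ^ (a - d)) := by
      rw [Int.cast_natCast, h, mul_div_cancel_left₀ _ (pow_ne_zero _ hp0)]
      exact memLocalRing_sum hM _ fun χ _ => hqR i j χ
    have h3 := pow_dvd_of_memLocalRing hM _ _ h2
    rw [← Nat.cast_pow, Int.natCast_dvd_natCast] at h3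
    exact h3
  choose N hN using hdiv
  have hNq : ∀ i j, (N i j : ℂ) = ∑ χ, q i j χ := by
    intro i j
    have h := hcount i j
    rw [hN i j] at h
    push_cast at h
    exact mul_left_cancel₀ (pow_ne_zero _ hp0) h
  have hcong : ∀ i j, MemLocalIdeal M ((N i j : ℂ) - ∑ B : BB, ((κ B : ℂ) / m) * centralChar (θ B : G → ℂ) (x j) *
      centralChar (θ B : G → ℂ) (x (τ i))) := by
    intro i j
    rw [hNq]
    have hsplit : ∑ χ, q i j χ = ∑ χ ∈ Finset.univ.filter (fun χ : IrrCharacter G => ¬ ∃ B : BB, χ ∈ B.1), q i j χ +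
        ∑ B : BB, ∑ χ ∈ Finset.univ.filter (· ∈ B.1), q i j χ := by
      rw [← Finset.sum_biUnion]
      · rw [← Finset.sum_union]
        · refine Finset.sum_congr ?_ fun _ _ => rfl
          ext χ
          simp only [Finset.mem_univ, Finset.mem_union, Finset.mem_filter, true_and, Finset.mem_biUnion, true_iff]
          exact (Classical.em _).symm
        · rw [Finset.disjoint_left]
          intro χ h1 h2
          obtain ⟨B, -, hB⟩ := Finset.mem_biUnion.1 h2
          exact (Finset.mem_filter.1 h1).2 ⟨B, (Finset.mem_filter.1 hB).2⟩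
      · intro B _ B' _ hne
        rw [Function.onFun, Finset.disjoint_left]
        intro χ h1 h2
        exact hne (Subtype.ext (IsPBlock.eq_of_mem hM B.2.1 B'.2.1 (Finset.mem_filter.1 h1).2 (Finset.mem_filter.1 h2).2))
    rw [hsplit, add_sub_assoc, ← Finset.sum_sub_distrib]
    refine memLocalIdeal_add hM (memLocalIdeal_sum hM _ fun χ hχ => hout i j χ fun h => ?_)
      (memLocalIdeal_sum hM _ fun B _ => ?_)
    · exact (Finset.mem_filter.1 hχ).2 ⟨⟨blockOf M (χ : G → ℂ), isPBlock_blockOf M χ, h⟩, mem_blockOf_self hM χ⟩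
    · rw [← hwt B, Finset.sum_mul, Finset.sum_mul, ← Finset.sum_sub_distrib]
      refine memLocalIdeal_sum hM _ fun χ hχ => ?_
      have hb := (IsPBlock.mem_iff hM B.2.1 (Finset.mem_filter.1 hχ).2).1 (hθ B)
      have hi : centralChar (θ B : G → ℂ) (x (τ i)) = centralChar (θ B : G → ℂ) (x i)⁻¹ := by
        rw [hτ]; exact centralChar_isConj _ (hσ i)
      rw [hi]
      simp only [q]
      generalize htt : (p : ℂ) ^ d * (χ : G → ℂ) 1 * n χ / Nat.card G = t
      have htR : MemLocalRing M t := htt ▸ ht B χ (Finset.mem_filter.1 hχ).2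
      rw [show t * centralChar (χ : G → ℂ) (x j) * centralChar (χ : G → ℂ) (x i)⁻¹ -
          t * centralChar (θ B : G → ℂ) (x j) * centralChar (θ B : G → ℂ) (x i)⁻¹ =
        t * centralChar (χ : G → ℂ) (x j) * (centralChar (χ : G → ℂ) (x i)⁻¹ - centralChar (θ B : G → ℂ) (x i)⁻¹) +
        t * centralChar (θ B : G → ℂ) (x i)⁻¹ * (centralChar (χ : G → ℂ) (x j) - centralChar (θ B : G → ℂ) (x j)) by ring]
      exact memLocalIdeal_add hM
        (memLocalIdeal_mul_left hM (memLocalRing_mul hM htR (memLocalRing_centralChar hM _ _)) (hb _))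
        (memLocalIdeal_mul_left hM (memLocalRing_mul hM htR (memLocalRing_centralChar hM _ _)) (hb _))
  -- over the residue field
  let V : Matrix BB ι (Residue hM) := Matrix.of fun B j => red' (om B (x j))
  let E : Matrix ι BB (Residue hM) := Matrix.of fun i B => red' ⟨blockCoeff B.1 (x i), memLocalRing_blockCoeff hM B.2.1 _⟩
  have hVE : V * E = 1 := by
    ext B' B
    rw [Matrix.mul_apply, Matrix.one_apply]
    simp only [V, E, Matrix.of_apply, ← map_mul, ← map_sum]
    rw [show (if B' = B then (1 : Residue hM) else 0) = red' (if B' = B then 1 else 0) by split_ifs <;> simp, hker]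
    push_cast
    convert hEex B B' using 3
    split_ifs <;> simp
  let c : BB → localRing hM := fun B => ⟨(κ B : ℂ) / m, by
    rw [div_eq_mul_inv]; exact memLocalRing_mul hM (memLocalRing_natCast hM _) (memLocalRing_natCast_inv hM hm')⟩
  have hc : ∀ B, red' (c B) ≠ 0 := fun B h => hκp B ((memLocalIdeal_natCast_iff hM _).1 (by
    rw [← map_zero red', hker] at h
    have := memLocalIdeal_mul_right hM h (memLocalRing_natCast hM m)
    simpa [c, div_mul_cancel₀ _ hm0] using this))
  set A := (Matrix.of fun i j : ι => ((Nat.card {yz : G × G // IsConj (x i) yz.1 ∧ IsConj (x j) yz.2 ∧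
      yz.2 * yz.1⁻¹ ∈ (S : Subgroup G)} / p ^ (a - d) : ℕ) : ZMod p)) with hA
  rw [← rank_map_field (ZMod.castHom dvd_rfl (Residue hM)) A]
  have hmap : A.map (ZMod.castHom dvd_rfl (Residue hM)) =
      (V.submatrix id τ).transpose * Matrix.diagonal (fun B => red' (c B)) * V := by
    ext i j
    rw [Matrix.mul_apply]
    simp only [Matrix.mul_diagonal, Matrix.transpose_apply, Matrix.submatrix_apply, id_eq, V, Matrix.of_apply,
      Matrix.map_apply, hA]
    rw [map_natCast, hN i j, Nat.mul_div_cancel_left _ (pow_pos hp.pos _), ← map_natCast red']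
    simp only [← map_mul, ← map_sum]
    rw [hker]
    push_cast
    simp only [c, om]
    convert hcong i j using 2
    refine congrArg _ (funext fun B => ?_)
    ring
  rw [hmap]
  refine le_antisymm ?_ ((Matrix.rank_mul_le_right _ _).trans (Matrix.rank_le_card_height _))
  have h1 : (E.submatrix τ id).transpose * ((V.submatrix id τ).transpose * Matrix.diagonal (fun B => red' (c B)) * V) * E =
      Matrix.diagonal (fun B => red' (c B)) := by
    have e : (E.submatrix τ id).transpose * (V.submatrix id τ).transpose = 1 := by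
      rw [← Matrix.transpose_mul, Matrix.submatrix_mul_equiv, Matrix.submatrix_id_id, hVE, Matrix.transpose_one]
    simp only [← Matrix.mul_assoc]
    rw [e, Matrix.one_mul, Matrix.mul_assoc, hVE, Matrix.mul_one]
  have h2 := Matrix.rank_mul_le_left ((E.submatrix τ id).transpose *
    ((V.submatrix id τ).transpose * Matrix.diagonal (fun B => red' (c B)) * V)) E
  rw [h1, Matrix.rank_diagonal] at h2
  refine le_trans ?_ (h2.trans (Matrix.rank_mul_le_right _ _))
  exact le_of_eq (Fintype.card_congr (Equiv.subtypeUnivEquiv (fun B => hc B)).symm)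

end CfsgLib.Blocks
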