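import Cfsg.Agent.Blocks.CoveredDefect

/-!
# Overgroups of `p`-power index inside the stabilizer of a covered block
-/

set_option linter.unusedSectionVars false
set_option linter.style.haveILetI false

namespace CfsgLib.Blocks

open Cfsg CfsgLib.CharBasics CfsgLib.Clifford

universe u

variable {G : Type u} [Group G] [Fintype G] {p : ℕ} {M : Ideal AlgInt}
variable {N : Subgroup G} [hN : N.Normal] [Fintype N] {b : Set (IrrCharacter N)}

/-- If a defect group lies in `N`, the stabilizer of a covered block meets a `p`-power overgroup in `N`. -/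
theorem stab_inf_pPower (hM : IsPModular p M) (hb : IsPBlock M b) {L : Subgroup G} [hL : L.Normal] (hNL : N ≤ L)
    (hidx : ∃ k : ℕ, (N.subgroupOf L).index = p ^ k) {B : Set (IrrCharacter G)} (hB : IsPBlock M B)
    (hcov : ∃ χ ∈ B, ∃ θ ∈ b, classInner (fun n : N => (χ : G → ℂ) n) (θ : N → ℂ) ≠ 0)
    (hD : ∃ D : Subgroup G, IsDefectGroup p M B D ∧ D ≤ N) : stabSub N b ⊓ L = N := by
  classical
  haveI := Fact.mk hM.1
  obtain ⟨χ, hχ, θ, hθ, hne⟩ := hcov
  set T := stabSub N b with hTdef
  haveI : Fintype T := Fintype.ofFinite _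
  have hNT : N ≤ T := le_stabSub
  have hT : IsStab b T := isStab_stabSub
  obtain ⟨ψ, hψ, he⟩ := exists_eq_indFun_stab hM hb hT hNT χ hθ hne
  have hirr : IsIrrCharacter G (indFun T (ψ : T → ℂ)) := he ▸ χ.2
  set B' := blockOf M (ψ : T → ℂ) with hB'def
  have hB' : IsPBlock M B' := isPBlock_blockOf M ψ
  have hψB : ψ ∈ B' := mem_blockOf_self hM ψ
  have hind : IsInducedBlock M T B' B := by
    have h := isInduced_stab hM hB' hψB hirr
    have e : blockOf M (indFun T (ψ : T → ℂ)) = B := by
      rw [← he]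
      exact Set.ext fun η => (IsPBlock.mem_iff hM hB hχ).symm
    rwa [e] at h
  obtain ⟨φ₀, hφ₀⟩ := resN_constituent hNT ψ
  obtain ⟨-, hirr', hiff⟩ := stab_block_spec hM hb hT hNT hB' ⟨ψ, hψB, φ₀, hψ φ₀ hφ₀, hφ₀⟩ hind
  obtain ⟨hd, -⟩ := stab_block_defect hM hB' hind.2.1 hiff hirr'
  set H : Subgroup T := L.subgroupOf T with hH
  haveI : H.Normal := hL.subgroupOf T
  haveI : Fintype H := Fintype.ofFinite _
  set K : Subgroup H := (N.subgroupOf T).subgroupOf H with hK
  haveI : (N.subgroupOf T).Normal := hN.subgroupOf T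
  haveI : K.Normal := Subgroup.Normal.subgroupOf inferInstance H
  haveI : Fintype K := Fintype.ofFinite _
  have hNH : N.subgroupOf T ≤ H := fun t ht => hNL ht
  set e : K ≃* N := (Subgroup.subgroupOfEquivOfLe hNH).trans (Subgroup.subgroupOfEquivOfLe hNT) with hedef
  set c := pushBlock e.symm b with hcdef
  have hc : IsPBlock M c := isPBlock_pushBlock _ hb
  have hst : ∀ h : H, StabilizesBlock K c h := by
    intro t
    obtain ⟨ht, hfix⟩ := stabilizesBlock_iff.1 (mem_stabSub.1 (t : T).2)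
    refine stabilizesBlock_iff.2 ⟨mem_normalizer_of_normal t, ?_⟩
    have hcomp : e.symm.trans (conjK (mem_normalizer_of_normal (N := K) t)) = (conjK ht).trans e.symm :=
      MulEquiv.ext fun k => Subtype.ext (Subtype.ext (Subtype.ext rfl))
    rw [hcdef, ← pushBlock_trans, hcomp, pushBlock_trans, hfix]
  obtain ⟨k, hk⟩ := hidx
  have hidxK : ∃ j : ℕ, K.index = p ^ j := by
    have hKe : K.index = (N.subgroupOf L).relIndex ((T ⊓ L).subgroupOf L) := by
      rw [Subgroup.relIndex_subgroupOf inf_le_right, hK, ← Subgroup.relIndex, hH,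
        ← Subgroup.inf_subgroupOf_left L T, Subgroup.relIndex_subgroupOf inf_le_left]
    obtain ⟨j, -, hj⟩ := (Nat.dvd_prime_pow hM.1).1
      (hk ▸ Subgroup.relIndex_dvd_index_of_normal (N.subgroupOf L) ((T ⊓ L).subgroupOf L))
    exact ⟨j, hKe.trans hj⟩
  obtain ⟨Bc, hBc, hcoef⟩ := exists_block_above hM hidxK hc hst
  obtain ⟨η, hη⟩ := exists_constituent_restrict H ψ
  have hηBc : η ∈ Bc := by
    obtain ⟨φ, hφ⟩ := exists_constituent_restrict K η
    have hφc : φ ∈ c := by
      refine (mem_pushBlock e.symm).2 (hψ _ ?_)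
      rw [MulEquiv.symm_symm, ← classInner_comp_equiv e]
      have h1 : (fun k : K => resN hNT (ψ : T → ℂ) (e k)) = fun k : K => (fun h : H => (ψ : T → ℂ) h) k := rfl
      have h2 : (fun k : K => (pushChar e φ : N → ℂ) (e k)) = (φ : K → ℂ) := funext fun k => by simp
      rw [h1, h2]
      obtain ⟨R, hR, hsplit⟩ := exists_eq_add_of_constituent
        (CharBasics.isCharacter_restrict (isCharacter_of_irr ψ.2) H) η.2 hη
      rw [hsplit]
      exact classInner_add_ne_zero_left (CharBasics.isCharacter_restrict (isCharacter_of_irr η.2) K)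
        (CharBasics.isCharacter_restrict hR K) (isCharacter_of_irr φ.2) hφ
    have h := omega_extElt_stable hst η hφ
    rw [if_pos hφc, show extElt K (blockElt c) = blockElt Bc from by
      ext x
      rw [coeff_blockElt, hcoef, subgroupBlockCoeff]
      by_cases hx : x ∈ K
      · rw [coeff_extElt_mem K _ hx, coeff_blockElt, dif_pos hx]
      · rw [coeff_extElt_of_notMem K _ hx, dif_neg hx], omega_blockElt] at h
    by_contra hn
    rw [if_neg hn] at h
    exact zero_ne_one h
  obtain ⟨P, hP, hPH, -⟩ := exists_defectGroup_inf hM hBc hB' ⟨ψ, hψB, η, hηBc, hη⟩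
  have hPN : P.map T.subtype ≤ N := by
    obtain ⟨D, hD, hDN⟩ := hD
    obtain ⟨g, hg⟩ := exists_conj_eq_defectGroup hM hB hD (stab_defectGroup hM hind hd hP)
    rw [← hg]
    rintro _ ⟨x, hx, rfl⟩
    exact hN.conj_mem _ (hDN hx) g
  have htop := (defectGroup_above hM hidxK hc hst hBc hcoef hPH).1
  rw [sup_eq_left.2 (show (P ⊓ H).subgroupOf H ≤ K from fun x hx => hPN ⟨(x : T), hx.1, rfl⟩)] at htop
  refine le_antisymm (fun x hx => ?_) (le_inf hNT hNL)
  have : (⟨⟨x, hx.1⟩, hx.2⟩ : H) ∈ K := htop ▸ Subgroup.mem_top _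
  exact this

end CfsgLib.Blocks
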