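import Cfsg.Agent.Blocks.PairsConj
import Cfsg.Agent.ZStar.Principal
import Cfsg.Agent.ZStar.Second
import Cfsg.Agent.Blocks.Idempotent
import Cfsg.Agent.Transfer.Frobenius
import Cfsg.Prelude.Def_BlockRank

/-!
# Brauer pairs of the principal block
-/

set_option linter.unusedSectionVars false
set_option linter.style.haveILetI false

namespace CfsgLib.Blocks

open Cfsg CfsgLib.CharBasics CfsgLib.ZStar
open scoped ComplexConjugate

universe u

theorem pushBlock_principal {A B : Type*} [Group A] [Group B] [Fintype A] [Fintype B] {p : ℕ} {M : Ideal AlgInt}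
    (hM : IsPModular p M) (φ : A ≃* B) : pushBlock φ (principalBlock M A) = principalBlock M B :=
  IsPBlock.eq_of_mem hM (isPBlock_pushBlock φ isPBlock_principal) isPBlock_principal
    (χ := (oneChar : IrrCharacter B))
    ((mem_pushBlock φ).2 (by
      have : pushChar φ.symm (oneChar : IrrCharacter B) = oneChar := Subtype.ext (funext fun _ => rfl)
      rw [this]; exact oneChar_mem_principal hM))
    (oneChar_mem_principal hM)

variable {G : Type u} [Group G] [Fintype G] {p : ℕ} {M : Ideal AlgInt}

theorem isBrauerPairOf_principal_iff (hM : IsPModular p M) {Q : Subgroup G} (hQ : IsPGroup p Q)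
    {f : Set (IrrCharacter (Subgroup.centralizer (Q : Set G)))} :
    IsBrauerPairOf p M (principalBlock M G) Q f ↔ f = principalBlock M (Subgroup.centralizer (Q : Set G)) := by
  classical
  haveI := Fintype.ofFinite (Subgroup.centralizer (Q : Set G))
  have hH : ∀ g, g ∈ Subgroup.centralizer (Q : Set G) ↔ ∀ q ∈ Q, q * g = g * q := fun g => Subgroup.mem_centralizer_iff
  constructor
  · intro h
    obtain ⟨ξ, hξ⟩ := IsPBlock.nonempty hM h.1.2
    have h1 := (isBrauerPairOf_iff hM hQ isPBlock_principal h.1.2 hξ).1 h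
    refine IsPBlock.eq_of_mem hM h.1.2 isPBlock_principal hξ ?_
    by_contra hn
    exact not_memLocalIdeal_one hM (by simpa using memLocalIdeal_sub hM ((omega_res_principal hM hQ hH ξ).2 hn) h1)
  · rintro rfl
    exact (isBrauerPairOf_iff hM hQ isPBlock_principal isPBlock_principal (oneChar_mem_principal hM)).2
      ((omega_res_principal hM hQ hH oneChar).1 (oneChar_mem_principal hM))

theorem stabilizesBlock_principal (hM : IsPModular p M) {K : Subgroup G} {x : G}
    (hx : x ∈ Subgroup.normalizer (K : Set G)) : StabilizesBlock K (principalBlock M K) x := by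
  haveI := Fintype.ofFinite K
  exact stabilizesBlock_iff.2 ⟨hx, pushBlock_principal hM _⟩

/-- The principal block is nilpotent exactly when `p`-regular normalizing elements centralize. -/
theorem isNilpotentBlock_principal_iff (hM : IsPModular p M) :
    IsNilpotentBlock p M (principalBlock M G) ↔ Transfer.LocallyTrivial p G := by
  constructor
  · intro h Q hQ g hg ho
    refine h.2 Q _ ((isBrauerPairOf_principal_iff hM hQ).2 rfl) g hg
      (stabilizesBlock_principal hM (le_normalizer_centralizer Q hg)) fun hd => ?_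
    exact hM.1.one_lt.ne' (Nat.eq_one_of_dvd_coprimes ho hd dvd_rfl)
  · intro h
    exact ⟨isPBlock_principal, fun Q e he x hx _ hreg =>
      h Q he.1.1 x hx ((hM.1.coprime_iff_not_dvd.2 hreg).symm)⟩

theorem locallyTrivial_iff (hM : IsPModular p M) : Transfer.LocallyTrivial p G ↔ HasNormalPComplement p G :=
  haveI := Fact.mk hM.1
  ⟨Transfer.frobenius_normal_complement, Transfer.locallyTrivial_of_hasNormalPComplement⟩

/-- A single regular part spans the principal block exactly under a normal `p`-complement. -/
theorem locallyTrivial_iff_blockRank (hM : IsPModular p M) :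
    Transfer.LocallyTrivial p G ↔ blockRank p (principalBlock M G) = 1 := by
  classical
  haveI := Fact.mk hM.1
  haveI : Fintype (IrrCharacter G) := @Fintype.ofFinite _ finite_irrCharacter
  set one : G → ℂ := pRegularPart p ((oneChar : IrrCharacter G) : G → ℂ) with hone
  have h1mem : one ∈ (fun χ : IrrCharacter G => pRegularPart p (χ : G → ℂ)) '' principalBlock M G :=
    ⟨oneChar, oneChar_mem_principal hM, rfl⟩
  have hone0 : one ≠ 0 := fun h => by
    have := congrFun h 1
    rw [hone, pRegularPart, if_pos (show IsPRegular p (1 : G) by rw [IsPRegular, orderOf_one]; exact hM.1.not_dvd_one)] at this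
    exact one_ne_zero this
  constructor
  · intro h
    have hcomp := Transfer.frobenius_normal_complement h
    have hker : ∀ g : G, IsPRegular p g → g ∈ pPrimeCore p G := fun g hg =>
      le_sSup (show Cfsg.pResidual p G ∈ {N : Subgroup G | N.Normal ∧ (Nat.card N).Coprime p} from
        ⟨Transfer.pResidual_normal, CfsgLib.PCore.coprime_of_not_dvd (Transfer.hasNormalPComplement_iff.1 hcomp)⟩)
        (Transfer.mem_pResidual_of_coprime (CfsgLib.PCore.coprime_of_not_dvd hg))
    have hsub : (fun χ : IrrCharacter G => pRegularPart p (χ : G → ℂ)) '' principalBlock M G ⊆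
        (Submodule.span ℂ {one} : Submodule ℂ (G → ℂ)) := by
      rintro _ ⟨χ, hχ, rfl⟩
      refine Submodule.mem_span_singleton.2 ⟨(χ : G → ℂ) 1, funext fun g => ?_⟩
      rw [Pi.smul_apply, hone, smul_eq_mul]
      simp only [pRegularPart]
      split_ifs with hg
      · rw [pPrimeCore_le_ker hM hχ (hker g hg)]
        exact mul_one _
      · exact mul_zero _
    have hspan : Submodule.span ℂ ((fun χ : IrrCharacter G => pRegularPart p (χ : G → ℂ)) '' principalBlock M G) =
        Submodule.span ℂ {one} :=
      le_antisymm (Submodule.span_le.2 hsub) (Submodule.span_mono (Set.singleton_subset_iff.2 h1mem))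
    rw [blockRank, hspan, finrank_span_singleton hone0]
  · intro hr
    obtain ⟨v, hv0, hv⟩ := finrank_eq_one_iff'.1 (show Module.finrank ℂ
      ↥(Submodule.span ℂ ((fun χ : IrrCharacter G => pRegularPart p (χ : G → ℂ)) '' principalBlock M G)) = 1 from hr)
    have hval : ∀ χ ∈ principalBlock M G, ∀ g : G, IsPRegular p g → (χ : G → ℂ) g = (χ : G → ℂ) 1 := by
      intro χ hχ g hg
      obtain ⟨a, ha⟩ := hv ⟨one, Submodule.subset_span h1mem⟩
      obtain ⟨b, hb⟩ := hv ⟨pRegularPart p (χ : G → ℂ), Submodule.subset_span ⟨χ, hχ, rfl⟩⟩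
      have ha' : ∀ x, a * (v : G → ℂ) x = one x := fun x => congrFun (congrArg Subtype.val ha) x
      have hb' : ∀ x, b * (v : G → ℂ) x = pRegularPart p (χ : G → ℂ) x :=
        fun x => congrFun (congrArg Subtype.val hb) x
      have h1r : IsPRegular p (1 : G) := by rw [IsPRegular, orderOf_one]; exact hM.1.not_dvd_one
      have a1 := ha' 1
      have ag := ha' g
      have b1 := hb' 1
      have bg := hb' g
      rw [hone, pRegularPart, if_pos h1r] at a1
      rw [hone, pRegularPart, if_pos hg] at ag
      rw [pRegularPart, if_pos h1r] at b1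
      rw [pRegularPart, if_pos hg] at bg
      change a * (v : G → ℂ) 1 = 1 at a1
      change a * (v : G → ℂ) g = 1 at ag
      have ha0 : a ≠ 0 := fun h0 => by rw [h0, zero_mul] at a1; exact zero_ne_one a1
      rw [← bg, ← b1, mul_left_cancel₀ ha0 (ag.trans a1.symm)]
    intro Q hQ g hg ho
    rw [Subgroup.mem_centralizer_iff]
    intro q hq
    have hreg : IsPRegular p g := fun hd => hM.1.one_lt.ne' (Nat.eq_one_of_dvd_coprimes ho hd dvd_rfl)
    have hregq : IsPRegular p (q * g * q⁻¹) := by
      rw [IsPRegular, ← MulAut.conj_apply, MulEquiv.orderOf_eq]; exact hreg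
    have hinv : IsPRegular p g⁻¹ := by rwa [IsPRegular, orderOf_inv]
    have hk : ∀ χ ∈ principalBlock M G, (χ : G → ℂ) (q * g * q⁻¹ * g⁻¹) = (χ : G → ℂ) 1 := fun χ hχ => by
      rw [apply_mul_of_apply_eq (isCharacter_of_irr χ.2) (hval χ hχ _ hregq), hval χ hχ _ hinv]
    have hQel : q * g * q⁻¹ * g⁻¹ ∈ Q := by
      have := (Subgroup.mem_normalizer_iff.mp hg q⁻¹).mp (Q.inv_mem hq)
      simpa [mul_assoc] using Q.mul_mem hq this
    have h1 : q * g * q⁻¹ * g⁻¹ = 1 := by
      by_contra hne
      obtain ⟨k, hk'⟩ := hQ ⟨_, hQel⟩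
      have hdvd : orderOf (q * g * q⁻¹ * g⁻¹) ∣ p ^ k := orderOf_dvd_of_pow_eq_one (congrArg Subtype.val hk')
      obtain ⟨j, -, hj⟩ := (Nat.dvd_prime_pow hM.1).1 hdvd
      have hp : p ∣ orderOf (q * g * q⁻¹ * g⁻¹) := by
        rw [hj]
        refine dvd_pow_self p fun h0 => hne (orderOf_eq_one_iff.1 ?_)
        rw [hj, h0, pow_zero]
      have h := weak_block_orth hM isPBlock_principal (x := (1 : G)) (by rw [orderOf_one]; exact hM.1.not_dvd_one) hp
      rw [finsum_mem_def, finsum_eq_sum_of_fintype] at h
      have h2 : (∑ χ : IrrCharacter G, if χ ∈ principalBlock M G then (((charDegree (χ : G → ℂ) : ℕ) : ℝ) ^ 2) else 0 : ℝ) = 0 := by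
        have h3 : ((∑ χ : IrrCharacter G, if χ ∈ principalBlock M G then (((charDegree (χ : G → ℂ) : ℕ) : ℝ) ^ 2) else 0 : ℝ) : ℂ) = 0 := by
          rw [← h, Complex.ofReal_sum]
          refine Finset.sum_congr rfl fun χ _ => ?_
          rw [Set.indicator_apply]
          split_ifs with hχ
          · have hd : (χ : G → ℂ) 1 = ((charDegree (χ : G → ℂ) : ℕ) : ℂ) := CharBasics.apply_one (isCharacter_of_irr χ.2)
            rw [hk χ hχ, hd, Complex.conj_natCast]
            push_cast
            ring
          · exact Complex.ofReal_zero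
        exact_mod_cast h3
      have h4 := (Finset.sum_eq_zero_iff_of_nonneg (fun χ _ => by split_ifs <;> positivity)).1 h2 oneChar (Finset.mem_univ _)
      rw [if_pos (oneChar_mem_principal hM)] at h4
      simp [charDegree, oneChar] at h4
    rwa [mul_inv_eq_one, mul_inv_eq_iff_eq_mul] at h1

end CfsgLib.Blocks
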