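import Cfsg.Agent.Blocks.Idempotent
import Cfsg.Agent.Blocks.Local
import Cfsg.Agent.Clifford.EigenProd
import Cfsg.Agent.Clifford.LinChar
import Cfsg.Agent.CharBasics.Basic

/-!
# Faithful characters of small degree in the principal block of a perfect group
-/

set_option autoImplicit false
set_option linter.style.haveILetI false

namespace CfsgLib.Blocks

open Cfsg CfsgLib.CharBasics

variable {G : Type*} [Group G] {p : ℕ} {M : Ideal AlgInt}

/-- On elements whose class size is prime to `p`, a member of the principal block is congruent to its degree. -/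
theorem sub_degree_mem_of_principal [Finite G] (hM : IsPModular p M) {χ : IrrCharacter G}
    (hχ : χ ∈ principalBlock M G) {w : G} (hw : ¬ p ∣ (Subgroup.centralizer ({w} : Set G)).index) :
    MemLocalIdeal M ((χ : G → ℂ) w - (χ : G → ℂ) 1) := by
  set N := (Subgroup.centralizer ({w} : Set G)).index with hN
  have h : MemLocalIdeal M (centralChar (fun _ : G => (1 : ℂ)) w - centralChar (χ : G → ℂ) w) := hχ w
  simp only [centralChar, mul_one, div_one, ← hN] at h
  have h0 := apply_one_ne_zero χ.2
  have hN0 : (N : ℂ) ≠ 0 := Nat.cast_ne_zero.2 fun e => hw (by rw [e]; exact dvd_zero p)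
  have h1 := memLocalIdeal_mul_left hM (memLocalRing_of_isIntegral hM (isIntegral_apply (isCharacter_of_irr χ.2) 1)) h
  have h2 := memLocalIdeal_mul_left hM (memLocalRing_natCast_inv hM hw) h1
  have e : (N : ℂ)⁻¹ * ((χ : G → ℂ) 1 * ((N : ℂ) - (N : ℂ) * (χ : G → ℂ) w / (χ : G → ℂ) 1)) =
      (χ : G → ℂ) 1 - (χ : G → ℂ) w := by field_simp
  rw [e] at h2
  simpa using memLocalIdeal_neg h2

/-- An element of prime order `q ≠ p` centralizing a Sylow `p`-subgroup of a perfect group is killed by every
member of degree below `2 p` of the principal block. -/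
theorem apply_eq_one_of_small_degree [Finite G] (hM : IsPModular p M) (hperf : commutator G = ⊤)
    {χ : IrrCharacter G} (hχ : χ ∈ principalBlock M G) (hdeg : charDegree (χ : G → ℂ) < 2 * p) {v : G} {q : ℕ}
    (hq : q.Prime) (hqp : q ≠ p) (hv : v ^ q = 1)
    (hidx : ∀ j : ℕ, ¬ p ∣ (Subgroup.centralizer ({v ^ j} : Set G)).index) :
    (χ : G → ℂ) v = (χ : G → ℂ) 1 := by
  classical
  obtain ⟨n, ρ, hρi, hρ⟩ := id χ.2
  obtain ⟨ι, _, μ, hcard, hμ, hdet, htr⟩ := EigenProd.exists_eigenbasis (A := ρ v) hq.ne_zero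
    (by rw [← map_pow, hv, map_one])
  have hval : ∀ j : ℕ, (χ : G → ℂ) (v ^ j) = ∑ i, μ i ^ j := fun j => by
    rw [← hρ, ← htr, ← map_pow]
    rfl
  have hd : Fintype.card ι = charDegree (χ : G → ℂ) := by
    have h := hval 0
    rw [pow_zero, apply_one (isCharacter_of_irr χ.2)] at h
    simp at h
    exact h.symm
  have hsum : ∀ j : ℕ, MemLocalIdeal M ((χ : G → ℂ) (v ^ j) - (χ : G → ℂ) 1) := fun j =>
    sub_degree_mem_of_principal hM hχ (hidx j)
  have hfib : ∀ z : ℂ, z ^ q = 1 → z ≠ 1 → p ∣ (Finset.univ.filter fun i => μ i = z).card := by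
    intro z hz hz1
    have hzr : z ∈ Polynomial.nthRootsFinset q (1 : ℂ) := (Polynomial.mem_nthRootsFinset hq.pos _).2 hz
    have hcount := EigenProd.powerSum_count hq.ne_zero μ hμ hzr
    have hgeo : ∑ j ∈ Finset.range q, z⁻¹ ^ j = 0 := by
      have hne : z⁻¹ ≠ 1 := by simpa using hz1
      rw [geom_sum_eq hne, inv_pow, hz, inv_one, sub_self, zero_div]
    have hz0 : z ≠ 0 := fun e => by rw [e, zero_pow hq.ne_zero] at hz; exact zero_ne_one hz
    have hmem : MemLocalIdeal M ((((Finset.univ.filter fun i => μ i = z).card * q : ℕ) : ℂ)) := by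
      rw [Nat.cast_mul, hcount]
      have e : ∑ j ∈ Finset.range q, z⁻¹ ^ j * ∑ i, μ i ^ j =
          ∑ j ∈ Finset.range q, z⁻¹ ^ j * ((χ : G → ℂ) (v ^ j) - (χ : G → ℂ) 1) := by
        simp only [mul_sub, ← hval, Finset.sum_sub_distrib, ← Finset.sum_mul, hgeo, zero_mul, sub_zero]
      rw [e]
      refine memLocalIdeal_sum hM _ fun j _ => memLocalIdeal_mul_left hM
        (memLocalRing_pow hM (memLocalRing_of_isIntegral hM ?_) j) (hsum j)
      exact IsIntegral.of_pow hq.pos (by rw [inv_pow, hz, inv_one]; exact isIntegral_one)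
    rw [memLocalIdeal_natCast_iff hM] at hmem
    exact (hM.1.dvd_mul.1 hmem).resolve_right fun h => hqp ((Nat.prime_dvd_prime_iff_eq hM.1 hq).1 h).symm
  by_cases hall : ∀ i, μ i = 1
  · have h := hval 1
    rw [pow_one] at h
    rw [h, apply_one (isCharacter_of_irr χ.2), ← hd]
    simp [hall]
  exfalso
  push Not at hall
  obtain ⟨i₀, hi₀⟩ := hall
  set z := μ i₀ with hz
  set F := Finset.univ.filter fun i => μ i = z with hF
  have hFc : F.card = p := by
    obtain ⟨c, hc⟩ := hfib z (hμ i₀) hi₀
    rw [← hF] at hc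
    have hle : F.card ≤ Fintype.card ι := Finset.card_le_univ F
    have hpos : 0 < F.card := Finset.card_pos.2 ⟨i₀, by simp [hF, hz]⟩
    have : c = 1 := by
      rcases Nat.lt_or_ge c 2 with h | h
      · rcases Nat.eq_zero_or_pos c with rfl | h'
        · simp at hc; simp [hc] at hpos
        · omega
      · have := Nat.mul_le_mul_left p h
        omega
    rw [hc, this, mul_one]
  have hrest : ∀ i ∉ F, μ i = 1 := by
    intro i hi
    by_contra h1
    have hne : μ i ≠ z := fun e => hi (by simp [hF, e])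
    set F' := Finset.univ.filter fun j => μ j = μ i with hF'
    have hdis : Disjoint F F' := by
      rw [Finset.disjoint_left]
      intro j hj hj'
      simp only [hF, hF', Finset.mem_filter, Finset.mem_univ, true_and] at hj hj'
      exact hne (hj'.symm.trans hj)
    have hpos : 0 < F'.card := Finset.card_pos.2 ⟨i, by simp [hF']⟩
    have hp' := Nat.le_of_dvd hpos (hfib _ (hμ i) h1)
    have hle : (F ∪ F').card ≤ Fintype.card ι := Finset.card_le_univ _
    rw [Finset.card_union_of_disjoint hdis] at hle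
    omega
  have hprod : ∏ i, μ i = z ^ p := by
    rw [← Finset.prod_subset (Finset.subset_univ F) (fun i _ hi => hrest i hi),
      Finset.prod_congr rfl (fun i hi => (Finset.mem_filter.1 hi).2), Finset.prod_const, hFc]
  have hdet1 : LinearMap.det (ρ v) = 1 := by
    let f : G →* ℂ := LinearMap.det.comp ρ
    have h : v ∈ f.toHomUnits.ker := by
      have hle : commutator G ≤ f.toHomUnits.ker := Abelianization.commutator_subset_ker _
      exact hle (hperf ▸ Subgroup.mem_top v)
    exact congrArg Units.val h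
  have hzp : z ^ p = 1 := by rw [← hprod, ← hdet, hdet1]
  have hcop : Nat.gcd p q = 1 :=
    hM.1.coprime_iff_not_dvd.2 fun h => hqp ((Nat.prime_dvd_prime_iff_eq hM.1 hq).1 h).symm
  have h1 : z ^ Nat.gcd p q = 1 := pow_gcd_eq_one.2 ⟨hzp, hμ i₀⟩
  rw [hcop, pow_one] at h1
  exact hi₀ h1

end CfsgLib.Blocks
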