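import Cfsg.Agent.Blocks.Weight
import Cfsg.Agent.Blocks.FongReynolds
import Cfsg.Agent.Blocks.RegularRank
import Cfsg.Agent.Clifford.CoprimeDegree
import Cfsg.Agent.Clifford.Gallagher
import Cfsg.Agent.PCore.PConstrained
import Cfsg.Agent.S4492

/-!
# The height bound for blocks of `p`-solvable groups
-/

set_option autoImplicit false
set_option linter.style.haveILetI false
set_option linter.unusedSectionVars false

namespace CfsgLib.Blocks

open Cfsg CfsgLib.CharBasics CfsgLib.Clifford

universe u

variable {p : ℕ} {M : Ideal AlgInt}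

/-- Isomorphic groups have centres of the same index. -/
theorem center_index_congr {X Y : Type*} [Group X] [Group Y] (e : X ≃* Y) :
    (Subgroup.center X).index = (Subgroup.center Y).index := by
  have h : (Subgroup.center Y).comap e.toMonoidHom = Subgroup.center X := by
    ext x
    simp only [Subgroup.mem_comap, Subgroup.mem_center_iff, MulEquiv.coe_toMonoidHom]
    exact ⟨fun h y => e.injective (by rw [map_mul, map_mul]; exact h (e y)), fun h y => by
      rw [← e.apply_symm_apply y, ← map_mul, ← map_mul, h]⟩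
  rw [← h, Subgroup.index_comap_of_surjective _ e.surjective]

/-- A constituent on an intermediate subgroup lying over a given constituent. -/
theorem exists_intermediate_constituent {G : Type u} [Group G] [Fintype G] {K A : Subgroup G} [Fintype K]
    [Fintype A] (hKA : K ≤ A) (χ : IrrCharacter G) {θ : K → ℂ}
    (h : classInner (fun n : K => (χ : G → ℂ) n) θ ≠ 0) :
    ∃ φ : IrrCharacter A, classInner (fun a : A => (χ : G → ℂ) a) (φ : A → ℂ) ≠ 0 ∧
      classInner (fun n : K => (φ : A → ℂ) ⟨n, hKA n.2⟩) θ ≠ 0 := by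
  classical
  obtain ⟨r, f, hf, hdec⟩ := exists_decomp (CharBasics.isCharacter_restrict (isCharacter_of_irr χ.2) A)
  have hres : (fun n : K => (χ : G → ℂ) n) = ∑ i, fun n : K => f i ⟨n, hKA n.2⟩ := by
    funext n
    have := congrFun hdec ⟨(n : G), hKA n.2⟩
    simpa [Finset.sum_apply] using this
  obtain ⟨i, hi⟩ : ∃ i, classInner (fun n : K => f i ⟨n, hKA n.2⟩) θ ≠ 0 := by
    by_contra hne
    push Not at hne
    exact h (by rw [hres, classInner_sum_left]; exact Finset.sum_eq_zero fun i _ => hne i)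
  refine ⟨⟨f i, hf i⟩, ?_, hi⟩
  obtain ⟨k, hk⟩ := classInner_characters_nat
    (CharBasics.isCharacter_sum (Finset.univ.erase i) f fun j _ => isCharacter_of_irr (hf j))
    (isCharacter_of_irr (hf i))
  rw [hdec, ← Finset.add_sum_erase _ _ (Finset.mem_univ i), classInner_add_left, classInner_self (hf i), hk]
  exact_mod_cast (by omega : 1 + k ≠ 0)

/-- Over an invariant character of a normal `p'`-subgroup `K`, with abelian `p`-quotient, degrees are prime to `p`. -/
theorem not_dvd_degree_over {A : Type u} [Group A] [Fintype A] (hp : p.Prime) (K : Subgroup A) [K.Normal]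
    [Fintype K] (hpK : ¬ p ∣ Nat.card K) (hidx : ∃ n, K.index = p ^ n) [IsMulCommutative (A ⧸ K)]
    {θ : IrrCharacter K} (hinv : ∀ a : A, conjFun a (θ : K → ℂ) = (θ : K → ℂ))
    {φ : IrrCharacter A} (h : classInner (fun n : K => (φ : A → ℂ) n) (θ : K → ℂ) ≠ 0) :
    ¬ p ∣ charDegree (φ : A → ℂ) := by
  classical
  obtain ⟨n, hn⟩ := hidx
  have hcop : K.index.Coprime (Nat.card K) := hn ▸ ((hp.coprime_iff_not_dvd.2 hpK).pow_left n)
  obtain ⟨η, hη⟩ := CoprimeDegree.exists_extension hcop θ hinv
  have hone : (fun _ : K => (1 : ℂ)) * (θ : K → ℂ) = (θ : K → ℂ) := by funext x; simp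
  have hbij := gallagher_bijOn (G := A) (N := K) (φ := fun _ : K => (1 : ℂ)) (θ := (θ : K → ℂ))
    isIrrCharacter_one (fun g => rfl) (by rw [hone]; exact θ.2) (isCharacter_of_irr η.2) hη
  rw [hone] at hbij
  obtain ⟨β, ⟨hβ, hβne⟩, he⟩ := hbij.surjOn (show (φ : A → ℂ) ∈ _ from ⟨φ.2, by
    rw [classInner_indFun K _ (isClassFunction (isCharacter_of_irr φ.2)), classInner_comm, Ne, map_eq_zero]
    exact h⟩)
  obtain ⟨β', hβ'⟩ := exists_quotient_irr ⟨β, hβ⟩ K ((mem_over_one_iff hβ).1 hβne)
  have hβ1 : β 1 = 1 := (hβ' 1).symm.trans (by rw [QuotientGroup.mk_one]; exact (irr_comm_hom β'.2).1)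
  have hd : charDegree (φ : A → ℂ) = charDegree (θ : K → ℂ) := by
    have h1 : (φ : A → ℂ) 1 = β 1 * (η : A → ℂ) 1 := (congrFun he 1).symm
    rw [charDegree, charDegree, h1, hβ1, one_mul, ← hη 1, Subgroup.coe_one]
  rw [hd]
  exact fun hdvd => hpK (hdvd.trans (degree_dvd θ))

/-- A block of a group of order prime to `p` is a singleton. -/
theorem eq_of_mem_block_coprime {K : Type u} [Group K] [Fintype K] (hM : IsPModular p M) (hpK : ¬ p ∣ Nat.card K)
    {b : Set (IrrCharacter K)} (hb : IsPBlock M b) {χ ψ : IrrCharacter K} (hχ : χ ∈ b) (hψ : ψ ∈ b) : χ = ψ :=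
  subsingleton_of_defect_zero hM hb
    (by rw [blockDefect, Nat.factorization_eq_zero_of_not_dvd hpK, Nat.zero_sub]) hχ hψ

/-- The invariant case: the degree exponent is bounded by the index of the centre of a Sylow subgroup. -/
theorem degExp_le_of_invariant {G : Type u} [Group G] [Fintype G] (hM : IsPModular p M) (hsolv : IsPSolvable p G)
    (K : Subgroup G) [K.Normal] [Fintype K] (hK : K = pPrimeCore p G) {θ : IrrCharacter K}
    (hinv : ∀ g : G, conjFun g (θ : K → ℂ) = (θ : K → ℂ))
    {χ : IrrCharacter G} (hne : classInner (fun n : K => (χ : G → ℂ) n) (θ : K → ℂ) ≠ 0)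
    (P : Sylow p G) : degExp p χ ≤ (Subgroup.center (P : Subgroup G)).index.factorization p := by
  classical
  haveI := Fact.mk hM.1
  have hcore : pPrimeCore p (G ⧸ K) = ⊥ := by subst hK; exact CfsgLib.PCore.pPrimeCore_quotient
  have hcopK : (Nat.card K).Coprime p := hK ▸ CfsgLib.PCore.pPrimeCore_coprime p G
  set π := QuotientGroup.mk' K with hπ
  have hπs : Function.Surjective π := QuotientGroup.mk'_surjective K
  set f : (P : Subgroup G) →* G ⧸ K := π.comp (P : Subgroup G).subtype with hf
  have hfi : Function.Injective f := by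
    rw [injective_iff_map_eq_one]
    intro x hx
    have h1 : (x : G) ∈ (P : Subgroup G) ⊓ K := ⟨x.2, (QuotientGroup.eq_one_iff (x : G)).1 hx⟩
    rw [CfsgLib.PCore.inf_eq_bot_of_isPGroup_of_coprime P.2 hcopK,
      Subgroup.mem_bot] at h1
    exact Subtype.ext h1
  set O := pCore p (G ⧸ K) with hO
  set Z := (Subgroup.center O).map O.subtype with hZ
  haveI hOn : O.Normal := pCore_normal p _
  haveI hZn : Z.Normal := by rw [hZ]; infer_instance
  have hR : f.range = (P : Subgroup G).map π := by
    rw [hf, MonoidHom.range_comp, Subgroup.range_subtype]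
  have hOR : O ≤ f.range := by
    rw [hR]; exact CfsgLib.PCore.pCore_le_sylow (P.mapSurjective hπs)
  have hsub : (Subgroup.center (P : Subgroup G)).map f ≤ Z := by
    rintro _ ⟨z, hz, rfl⟩
    have hcent : f z ∈ Subgroup.centralizer (O : Set (G ⧸ K)) := Subgroup.mem_centralizer_iff.2 fun o ho => by
      obtain ⟨x, rfl⟩ := hOR ho
      rw [← map_mul, ← map_mul, Subgroup.mem_center_iff.1 hz x]
    have hzO : f z ∈ O :=
      CfsgLib.PCore.hall_higman (CfsgLib.PCore.isPSolvable_quotient hsolv K) hcore hcent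
    exact ⟨⟨f z, hzO⟩, Subgroup.mem_center_iff.2 fun o =>
      Subtype.ext (Subgroup.mem_centralizer_iff.1 hcent o o.2), rfl⟩
  set A := Z.comap π with hA
  haveI := Fintype.ofFinite A
  have hKA : K ≤ A := fun k hk => by
    rw [hA, Subgroup.mem_comap, hπ, QuotientGroup.mk'_apply, (QuotientGroup.eq_one_iff k).2 hk]
    exact Z.one_mem
  set K' := K.subgroupOf A with hK'
  haveI := Fintype.ofFinite K'
  let E : K' ≃* K := Subgroup.subgroupOfEquivOfLe hKA
  have hpK : ¬ p ∣ Nat.card K' := by
    rw [Nat.card_congr E.toEquiv]; exact hM.1.coprime_iff_not_dvd.1 hcopK.symm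
  haveI : IsMulCommutative (A ⧸ K') := ⟨⟨fun a b => by
    induction a using QuotientGroup.induction_on with | H a =>
    induction b using QuotientGroup.induction_on with | H b =>
    rw [← QuotientGroup.mk_mul, ← QuotientGroup.mk_mul, QuotientGroup.eq, hK', Subgroup.mem_subgroupOf]
    obtain ⟨za, hza, ea⟩ := (show π a ∈ Z from a.2)
    obtain ⟨zb, hzb, eb⟩ := (show π b ∈ Z from b.2)
    refine (QuotientGroup.eq (a := (a : G) * b) (b := (b : G) * a)).1 ?_
    show π ((a : G) * b) = π ((b : G) * a)
    rw [map_mul, map_mul, ← ea, ← eb, ← map_mul, ← map_mul]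
    exact congrArg O.subtype (Subgroup.mem_center_iff.1 hzb za)⟩⟩
  have hidx : ∃ n, K'.index = p ^ n := by
    obtain ⟨n, hn⟩ := IsPGroup.iff_card.1 (((CfsgLib.PCore.isPGroup_pCore p (G ⧸ K)).to_subgroup
      (Subgroup.center O)).map O.subtype)
    refine ⟨n, ?_⟩
    have h1 : K'.index * Nat.card K' = Nat.card A := K'.index_mul_card
    have h2 : Nat.card A = Nat.card K * Nat.card Z := CfsgLib.PCore.card_comap_mk' K Z
    rw [Nat.card_congr E.toEquiv, h2, mul_comm (Nat.card K)] at h1
    exact (Nat.eq_of_mul_eq_mul_right Nat.card_pos h1).trans hn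
  obtain ⟨φ, hφ, hφK⟩ := exists_intermediate_constituent hKA χ hne
  have hθ' : IsIrrCharacter K' (fun m => (θ : K → ℂ) (E m)) :=
    CfsgLib.Clifford.isIrrCharacter_comp θ.2 E.toMonoidHom E.surjective
  have hφ0 : ¬ p ∣ charDegree (φ : A → ℂ) := by
    refine not_dvd_degree_over hM.1 K' hpK hidx (θ := ⟨_, hθ'⟩) (fun a => funext fun m => ?_) ?_
    · exact congrFun (hinv (a : G)) (E m)
    · show classInner (fun m : K' => (φ : A → ℂ) m) (fun m => (θ : K → ℂ) (E m)) ≠ 0
      exact (classInner_comp_equiv E (fun n : K => (φ : A → ℂ) ⟨n, hKA n.2⟩) (θ : K → ℂ)).trans_ne hφK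
  haveI : A.Normal := by rw [hA]; infer_instance
  have hdvd := degree_dvd_constituent_mul_index χ.2 A φ.2 hφ
  have hA0 : A.index ≠ 0 := Subgroup.index_ne_zero_of_finite
  have h2 : degExp p χ ≤ A.index.factorization p := by
    have := (Nat.factorization_le_iff_dvd (charDegree_pos χ.2).ne' (mul_ne_zero (charDegree_pos φ.2).ne' hA0)).2 hdvd p
    rw [Nat.factorization_mul (charDegree_pos φ.2).ne' hA0, Finsupp.add_apply,
      Nat.factorization_eq_zero_of_not_dvd hφ0, zero_add] at this
    exact this
  refine h2.trans ?_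
  have h3 : A.index ∣ (Subgroup.center (P : Subgroup G)).index * ((P : Subgroup G).map π).index := by
    rw [hA, Subgroup.index_comap_of_surjective _ hπs, ← hR]
    refine (Subgroup.index_dvd_of_le hsub).trans (dvd_of_eq ?_)
    rw [← Subgroup.relIndex_mul_index (show (Subgroup.center (P : Subgroup G)).map f ≤ f.range from Subgroup.map_le_range f _)]
    congr 1
    rw [MonoidHom.range_eq_map, Subgroup.relIndex_map_map_of_injective _ _ hfi, Subgroup.relIndex_top_right]
  have h4 : ¬ p ∣ ((P : Subgroup G).map π).index := (P.mapSurjective hπs).not_dvd_index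
  have h5 : (Subgroup.center (P : Subgroup G)).index ≠ 0 := Subgroup.index_ne_zero_of_finite
  have h6 : ((P : Subgroup G).map π).index ≠ 0 := Subgroup.index_ne_zero_of_finite
  have := (Nat.factorization_le_iff_dvd hA0 (mul_ne_zero h5 h6)).2 h3 p
  rwa [Nat.factorization_mul h5 h6, Finsupp.add_apply, Nat.factorization_eq_zero_of_not_dvd h4, add_zero] at this

theorem blockHeight_le_aux : ∀ (n : ℕ) (G : Type u) [Group G] [Finite G] (p : ℕ) [Fact p.Prime] (M : Ideal AlgInt),
    IsPModular p M → IsPSolvable p G → Nat.card G ≤ n → ∀ (B : Set (IrrCharacter G)), IsPBlock M B →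
      ∀ P : Subgroup G, IsDefectGroup p M B P → ∀ χ ∈ B,
        blockHeight p B (χ : G → ℂ) ≤ (Subgroup.center P).index.factorization p := by
  intro n
  induction n with
  | zero => intro G _ _ p _ M _ _ hn; have := Nat.card_pos (α := G); omega
  | succ n ih =>
    intro G _ _ p _ M hM hsolv hn B hB P hP χ hχ
    classical
    haveI := Fintype.ofFinite G
    haveI : (pPrimeCore p G).Normal := pPrimeCore_normal p G
    haveI := Fintype.ofFinite (pPrimeCore p G)
    have hpK := CfsgLib.PCore.not_dvd_card_pPrimeCore p G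
    obtain ⟨θ, hθ⟩ := exists_constituent_restrict (pPrimeCore p G) χ
    set b := blockOf M (θ : pPrimeCore p G → ℂ) with hbdef
    have hb : IsPBlock M b := isPBlock_blockOf M θ
    have hθb : θ ∈ b := mem_blockOf_self hM θ
    set T : Subgroup G := inertia (θ : pPrimeCore p G → ℂ) with hTdef
    haveI := Fintype.ofFinite T
    have hT : IsStab b T := by
      intro g
      rw [hTdef, mem_inertia]
      constructor
      · intro hg φ hφ φ' hφ'
        rw [eq_of_mem_block_coprime hM hpK hb hφ hθb, hg] at hφ'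
        exact (Subtype.ext hφ' : φ' = θ) ▸ hθb
      · intro hg
        have := hg θ hθb ⟨_, isIrrCharacter_conjFun g θ.2⟩ rfl
        exact congrArg Subtype.val (eq_of_mem_block_coprime hM hpK hb this hθb)
    have hNT : pPrimeCore p G ≤ T := le_inertia (isClassFunction (isCharacter_of_irr θ.2))
    rcases eq_or_ne T ⊤ with hTop | hTop
    · have hinv : ∀ g : G, conjFun g (θ : pPrimeCore p G → ℂ) = (θ : pPrimeCore p G → ℂ) := fun g =>
        mem_inertia.1 (show g ∈ T from hTop ▸ Subgroup.mem_top g)
      obtain ⟨B₁, hB₁, hmem, -, hD⟩ := Cfsg.Agent.S4492.result p M hM hsolv (pPrimeCore p G) rfl θ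
        (fun g m => congrFun (hinv g) m)
      obtain rfl : B = B₁ := IsPBlock.eq_of_mem hM hB hB₁ hχ ((hmem χ).2 hθ)
      obtain ⟨S, rfl⟩ := hD P hP
      exact (Nat.sub_le _ _).trans (degExp_le_of_invariant hM hsolv _ rfl hinv hθ S)
    · obtain ⟨ψ, hψN, hχψ⟩ := exists_eq_indFun_stab hM hb hT hNT χ hθb hθ
      set B' := blockOf M (ψ : T → ℂ) with hB'def
      have hB' : IsPBlock M B' := isPBlock_blockOf M ψ
      have hψB : ψ ∈ B' := mem_blockOf_self hM ψ
      have hirr : IsIrrCharacter G (indFun T (ψ : T → ℂ)) := hχψ ▸ χ.2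
      have hind : IsInducedBlock M T B' B := by
        have h := isInduced_stab hM hB' hψB hirr
        rwa [← hχψ, ← IsPBlock.eq_blockOf hM hB hχ] at h
      obtain ⟨φ, hφ⟩ := resN_constituent hNT ψ
      obtain ⟨-, hirrs, hiff⟩ := stab_block_spec hM hb hT hNT hB' ⟨ψ, hψB, φ, hψN φ hφ, hφ⟩ hind
      obtain ⟨hdef, hht⟩ := stab_block_defect hM hB' hB hiff hirrs
      obtain ⟨g, hg⟩ := exists_defectClass hM hB'
      obtain ⟨S⟩ : Nonempty (Sylow p (Subgroup.centralizer ({g} : Set T))) := inferInstance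
      have hD : IsDefectGroup p M B'
          ((S : Subgroup _).map (Subgroup.centralizer ({g} : Set T)).subtype) := ⟨g, hg, S, rfl⟩
      set D := (S : Subgroup _).map (Subgroup.centralizer ({g} : Set T)).subtype
      obtain ⟨c, hc⟩ := exists_conj_eq_defectGroup hM hB (stab_defectGroup hM hind hdef hD) hP
      have e : D ≃* P := (D.equivMapOfInjective _ T.subtype_injective).trans
        (((D.map T.subtype).equivMapOfInjective _ (MulAut.conj c).injective).trans (MulEquiv.subgroupCongr hc))
      have hlt : Nat.card T < Nat.card G :=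
        lt_of_le_of_ne (Subgroup.card_le_card_group T) fun h => hTop (Subgroup.eq_top_of_card_eq T h)
      have := ih T p M hM (CfsgLib.PCore.isPSolvable_subgroup hsolv T) (by omega) B' hB' D hD ψ hψB
      rw [← center_index_congr e]
      rw [hχψ, hht ψ hψB]
      exact this

end CfsgLib.Blocks
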