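import Cfsg.Agent.Blocks.Pairs
import Cfsg.Agent.Blocks.HeightZero
import Cfsg.Agent.Blocks.DefectGroup
import Cfsg.Agent.Blocks.Glauberman
import Cfsg.Agent.Transfer.Frobenius

/-!
# A character of height zero fixed by a Sylow subgroup of the stabilizer
-/

set_option linter.unusedSectionVars false
set_option linter.style.haveILetI false

namespace CfsgLib.Blocks

open Cfsg CfsgLib.CharBasics
open scoped ComplexConjugate

/-- The fixed point congruence for a sum invariant modulo the ideal. -/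
theorem sum_fixed_not_mem {p : ℕ} {M : Ideal AlgInt} (hM : IsPModular p M) {S W : Type*} [Group S] [Finite S]
    [Fintype W] [MulAction S W] (hS : IsPGroup p S) (F : W → ℂ)
    (hF : ∀ (s : S) (w : W), MemLocalIdeal M (F (s • w) - F w)) (hR : ∀ w, MemLocalRing M (F w))
    (h : ¬ MemLocalIdeal M (∑ w, F w)) : ∃ w, (∀ s : S, s • w = w) ∧ ¬ MemLocalIdeal M (F w) := by
  classical
  set F' : W → ℂ := fun w => F (Quotient.out (Quotient.mk (MulAction.orbitRel S W) w)) with hF'
  have hF'eq : ∀ w, MemLocalIdeal M (F' w - F w) := by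
    intro w
    have hr : (MulAction.orbitRel S W).r (Quotient.out (Quotient.mk (MulAction.orbitRel S W) w)) w :=
      Quotient.exact (Quotient.out_eq _)
    obtain ⟨s, hs⟩ := MulAction.orbitRel_apply.1 hr
    simp only [hF', ← hs]
    exact hF s w
  have hF'inv : ∀ (s : S) (w : W), F' (s • w) = F' w := fun s w => by
    simp only [hF']
    rw [Quotient.sound (s := MulAction.orbitRel S W) (MulAction.orbitRel_apply.2 ⟨s, rfl⟩)]
  have h1 := sum_sub_fixed_mem hM hS F' hF'inv fun w => hR _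
  by_contra hcon
  push Not at hcon
  refine h ?_
  have h2 : MemLocalIdeal M (∑ w, if (∀ s : S, s • w = w) then F' w else 0) := by
    refine memLocalIdeal_sum hM _ fun w _ => ?_
    split_ifs with hw
    · simpa using memLocalIdeal_add hM (hF'eq w) (hcon w hw)
    · exact memLocalIdeal_zero hM
  have h3 : MemLocalIdeal M (∑ w, F' w - ∑ w, F w) := by
    rw [← Finset.sum_sub_distrib]
    exact memLocalIdeal_sum hM _ fun w _ => hF'eq w
  have h4 := memLocalIdeal_sub hM (memLocalIdeal_add hM h1 h2) h3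
  simpa using h4

variable {A B : Type*} [Group A] [Group B] [Fintype A] [Fintype B]

theorem regSum_push (p : ℕ) (φ : A ≃* B) (χ ρ : IrrCharacter A) :
    regSum p (pushChar φ χ : B → ℂ) (pushChar φ ρ : B → ℂ) = regSum p (χ : A → ℂ) (ρ : A → ℂ) := by
  simp only [regSum]
  refine (Fintype.sum_equiv φ.toEquiv _ _ fun a => ?_).symm
  simp only [MulEquiv.toEquiv_eq_coe, MulEquiv.coe_toEquiv, pushChar_apply, MulEquiv.symm_apply_apply,
    MulEquiv.orderOf_eq]

theorem omega_regElt_push (p : ℕ) (φ : A ≃* B) (χ ρ : IrrCharacter A) :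
    omega (pushChar φ χ : B → ℂ) (regElt p (pushChar φ ρ : B → ℂ)) = omega (χ : A → ℂ) (regElt p (ρ : A → ℂ)) := by
  rw [omega_regElt, omega_regElt, regSum_push, pushChar_apply, map_one]

variable {G : Type*} [Group G] [Fintype G] {p : ℕ} {M : Ideal AlgInt} {H : Subgroup G} [hH : H.Normal] [Fintype H]

set_option maxHeartbeats 1600000 in
/-- Some member of height zero has stabilizer of `p'`-index in the stabilizer of the block. -/
theorem exists_fixed_heightZero (hM : IsPModular p M) {b : Set (IrrCharacter H)} (hb : IsPBlock M b)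
    (T : Subgroup G) (hT : ∀ g, g ∈ T → StabilizesBlock H b g) (hHT : H ≤ T) (S : Sylow p T) :
    ∃ θ ∈ b, blockHeight p b (θ : H → ℂ) = 0 ∧
      ∀ s ∈ (S : Subgroup T).map T.subtype, ∀ h h' : H, (h' : G) = s * h * s⁻¹ →
        (θ : H → ℂ) h' = (θ : H → ℂ) h := by
  classical
  haveI := Fact.mk hM.1
  haveI : Fintype (IrrCharacter H) := @Fintype.ofFinite _ finite_irrCharacter
  haveI : Fintype (ConjClasses H) := Fintype.ofFinite _
  have hnorm : ∀ x : G, x ∈ Subgroup.normalizer (H : Set G) := fun x => by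
    rw [Subgroup.normalizer_eq_top]; exact Subgroup.mem_top x
  obtain ⟨Sg, hSg⟩ : ∃ Sg : Subgroup G, Sg = (S : Subgroup T).map T.subtype := ⟨_, rfl⟩
  rw [← hSg]
  have hSgp : IsPGroup p Sg := hSg ▸ S.2.map _
  have hSgT : Sg ≤ T := hSg ▸ Subgroup.map_subtype_le _
  have hfix : ∀ x ∈ T, pushBlock (conjK (hnorm x)) b = b := fun x hx => (stabilizesBlock_iff.1 (hT x hx)).2
  obtain ⟨θ₀, hθ₀, hmin, hsInf⟩ := exists_min_degExp hM hb
  -- a defect class of `b` fixed by the Sylow subgroup
  let cmap : G → ConjClasses H → ConjClasses H := fun x => ConjClasses.map (conjK (hnorm x)).toMonoidHom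
  letI : MulAction Sg (ConjClasses H) :=
    { smul := fun x K => cmap (x : G) K
      one_smul := fun K => by
        obtain ⟨k, rfl⟩ := ConjClasses.exists_rep K
        show ConjClasses.mk _ = ConjClasses.mk k
        congr 1
        exact Subtype.ext (by simp [coe_conjK])
      mul_smul := fun x y K => by
        obtain ⟨k, rfl⟩ := ConjClasses.exists_rep K
        show ConjClasses.mk _ = ConjClasses.mk _
        congr 1
        exact Subtype.ext (by simp [coe_conjK, mul_assoc]) }
  let F : ConjClasses H → ℂ := fun K => blockCoeff b K.out * centralChar (θ₀ : H → ℂ) K.out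
  have hFconj : ∀ k k' : H, IsConj k k' → blockCoeff b k * centralChar (θ₀ : H → ℂ) k =
      blockCoeff b k' * centralChar (θ₀ : H → ℂ) k' := by
    intro k k' hk
    obtain ⟨c, rfl⟩ := isConj_iff.1 hk
    have e1 : blockCoeff b (c * k * c⁻¹) = blockCoeff b k := by
      rw [← coeff_blockElt, ← coeff_blockElt]; exact coeff_conj (isClassElt_blockElt b) k c
    have e2 : centralChar (θ₀ : H → ℂ) (c * k * c⁻¹) = centralChar (θ₀ : H → ℂ) k := by
      rw [← omega_classElt θ₀.2, ← omega_classElt θ₀.2]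
      congr 1
      ext z
      simp only [coeff_classElt]
      exact if_congr ⟨fun h => (isConj_iff.2 ⟨c, rfl⟩ : IsConj k _).trans h,
        fun h => (isConj_iff.2 ⟨c, rfl⟩ : IsConj k _).symm.trans h⟩ rfl rfl
    rw [e1, e2]
  have hout : ∀ k : H, IsConj (ConjClasses.mk k).out k := fun k =>
    ConjClasses.mk_eq_mk_iff_isConj.1 (Quotient.out_eq _)
  have hFinv : ∀ (x : Sg) (K : ConjClasses H), MemLocalIdeal M (F (x • K) - F K) := by
    intro x K
    obtain ⟨k, rfl⟩ := ConjClasses.exists_rep K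
    have e : F (x • ConjClasses.mk k) = blockCoeff b (conjK (hnorm (x : G)) k) *
        centralChar (θ₀ : H → ℂ) (conjK (hnorm (x : G)) k) := hFconj _ _ (hout _)
    have e' : F (ConjClasses.mk k) = blockCoeff b k * centralChar (θ₀ : H → ℂ) k := hFconj _ _ (hout _)
    have e1 : blockCoeff b (conjK (hnorm (x : G)) k) = blockCoeff b k := by
      conv_lhs => rw [← hfix _ (hSgT x.2)]
      exact blockCoeff_pushBlock _ _ _
    have e2 : centralChar (θ₀ : H → ℂ) (conjK (hnorm (x : G)) k) =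
        centralChar (pushChar (conjK (hnorm (x : G))).symm θ₀ : H → ℂ) k := by
      conv_lhs => rw [← pushChar_symm (conjK (hnorm (x : G))) θ₀, centralChar_pushChar]
    have hmem : pushChar (conjK (hnorm (x : G))).symm θ₀ ∈ b := by
      rw [← mem_pushBlock, hfix _ (hSgT x.2)]; exact hθ₀
    rw [e, e', e1, e2, ← mul_sub]
    exact memLocalIdeal_mul_left hM (memLocalRing_blockCoeff hM hb k) ((IsPBlock.mem_iff hM hb hmem).1 hθ₀ k)
  obtain ⟨K, hKfix, hKu⟩ := sum_fixed_not_mem hM hSgp F hFinv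
    (fun K => memLocalRing_mul hM (memLocalRing_blockCoeff hM hb _) (memLocalRing_centralChar hM θ₀ _)) (by
      have h := omega_eq_sum_classes θ₀ (isClassElt_blockElt b)
      rw [omega_blockElt, if_pos hθ₀] at h
      simp only [coeff_blockElt] at h
      rw [show ∑ K, F K = 1 from h.symm]
      exact not_memLocalIdeal_one hM)
  set y : H := K.out with hy
  have hyreg : ¬ p ∣ orderOf y := fun hd => hKu (by
    show MemLocalIdeal M (blockCoeff b y * _)
    rw [blockCoeff_eq_zero hM hb hd, zero_mul]; exact memLocalIdeal_zero hM)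
  have hyu : ¬ MemLocalIdeal M (centralChar (θ₀ : H → ℂ) y) := fun h =>
    hKu (memLocalIdeal_mul_left hM (memLocalRing_blockCoeff hM hb _) h)
  -- the centralizer inside `Sg ⊔ H`
  obtain ⟨U, hU⟩ : ∃ U : Subgroup G, U = (Sg ⊔ H) ⊓ Subgroup.centralizer ({(y : G)} : Set G) := ⟨_, rfl⟩
  have hcover : ∀ s ∈ Sg, ∃ h : H, (h : G)⁻¹ * s ∈ U := by
    intro s hs
    have h1 := hKfix ⟨s, hs⟩
    have h2 : ConjClasses.mk (conjK (hnorm s) y) = ConjClasses.mk y := by
      conv_rhs => rw [hy, show ConjClasses.mk K.out = K from Quotient.out_eq K, ← h1]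
      conv_rhs => rw [← show ConjClasses.mk K.out = K from Quotient.out_eq K]
      rfl
    obtain ⟨h, hh⟩ := isConj_iff.1 (ConjClasses.mk_eq_mk_iff_isConj.1 h2).symm
    refine ⟨h, ?_⟩
    rw [hU]
    refine ⟨mul_mem (Subgroup.mem_sup_right (inv_mem h.2)) (Subgroup.mem_sup_left hs), ?_⟩
    show _ ∈ Subgroup.centralizer _
    rw [Subgroup.mem_centralizer_singleton_iff]
    have e : (h : G) * y * (h : G)⁻¹ = s * y * s⁻¹ := congrArg Subtype.val hh
    calc (h : G)⁻¹ * s * y = (h : G)⁻¹ * (s * y * s⁻¹) * s := by simp [mul_assoc]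
      _ = y * ((h : G)⁻¹ * s) := by rw [← e]; simp [mul_assoc]
  obtain ⟨S₁⟩ : Nonempty (Sylow p U) := inferInstance
  haveI : (H.subgroupOf U).Normal := Subgroup.Normal.subgroupOf inferInstance U
  obtain ⟨Q₁, hQ₁⟩ := CfsgLib.Transfer.exists_sylow_map_eq_inf S₁ (H.subgroupOf U)
  -- `U` modulo `H` is a `p`-group, so `S₁` and `H` cover `Sg`
  have hidx : ∃ k, (H.subgroupOf U).index = p ^ k := by
    obtain ⟨k, hk⟩ := IsPGroup.iff_card.1 hSgp
    have h1 : (H.subgroupOf U).index ∣ (H.subgroupOf Sg).index := by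
      have hUle : U ≤ Sg ⊔ H := hU ▸ inf_le_left
      have e : H.relIndex (Sg ⊔ H) = H.relIndex Sg := Subgroup.relIndex_sup_right Sg H
      haveI : (H.subgroupOf (Sg ⊔ H)).Normal := Subgroup.Normal.subgroupOf inferInstance _
      have h2 := Subgroup.relIndex_dvd_index_of_normal (H.subgroupOf (Sg ⊔ H)) (U.subgroupOf (Sg ⊔ H))
      rw [Subgroup.relIndex_subgroupOf hUle] at h2
      exact h2.trans e.dvd
    obtain ⟨j, -, hj⟩ := (Nat.dvd_prime_pow hM.1).1 (hk ▸ h1.trans (Subgroup.index_dvd_card _))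
    exact ⟨j, hj⟩
  obtain ⟨k, hk⟩ := hidx
  have htop := CfsgLib.Transfer.sup_sylow_eq_top hk S₁
  obtain ⟨S₂, hS₂⟩ : ∃ S₂ : Subgroup G, S₂ = (S₁ : Subgroup U).map U.subtype := ⟨_, rfl⟩
  have hS₂U : S₂ ≤ U := hS₂ ▸ Subgroup.map_subtype_le _
  have hS₂T : S₂ ≤ T := hS₂U.trans ((hU ▸ inf_le_left : U ≤ Sg ⊔ H).trans (sup_le hSgT hHT))
  have hSgle : Sg ≤ S₂ ⊔ H := by
    intro s hs
    obtain ⟨h, hh⟩ := hcover s hs
    have : (⟨_, hh⟩ : U) ∈ H.subgroupOf U ⊔ (S₁ : Subgroup U) := htop ▸ Subgroup.mem_top _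
    have h3 : (h : G)⁻¹ * s ∈ (H.subgroupOf U ⊔ (S₁ : Subgroup U)).map U.subtype := ⟨_, this, rfl⟩
    rw [Subgroup.map_sup, ← hS₂] at h3
    have h4 : (h : G)⁻¹ * s ∈ S₂ ⊔ H := by
      rw [sup_comm]
      exact sup_le_sup_right (Subgroup.map_le_iff_le_comap.2 le_rfl) _ h3
    have h5 := mul_mem (Subgroup.mem_sup_right h.2 : (h : G) ∈ S₂ ⊔ H) h4
    simpa using h5
  obtain ⟨Q, hQ⟩ : ∃ Q : Subgroup H, Q = (S₂.subgroupOf H) := ⟨_, rfl⟩
  have hQm : ∀ u : H, u ∈ Q ↔ (u : G) ∈ S₂ := fun u => by rw [hQ]; rfl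
  haveI : Fintype Q := Fintype.ofFinite Q
  have hS₂p : IsPGroup p S₂ := hS₂ ▸ S₁.2.map _
  have hQp : IsPGroup p Q := by
    refine IsPGroup.iff_orderOf.2 fun u => ?_
    obtain ⟨j, hj⟩ := IsPGroup.iff_orderOf.1 hS₂p ⟨((u : H) : G), (hQm _).1 u.2⟩
    exact ⟨j, by rw [← Subgroup.orderOf_coe, ← Subgroup.orderOf_coe]; rw [← Subgroup.orderOf_coe] at hj; exact hj⟩
  have hcentU : ∀ u ∈ U, u * (y : G) = y * u := fun u hu => by
    rw [hU] at hu; exact Subgroup.mem_centralizer_singleton_iff.1 hu.2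
  have hQy : ∀ u ∈ Q, y * u = u * y := fun u hu => Subtype.ext (by
    exact (hcentU _ (hS₂U ((hQm _).1 hu))).symm)
  have hcardC : (Nat.card (Subgroup.centralizer ({y} : Set H))).factorization p = (Nat.card Q).factorization p := by
    let e1 : Subgroup.centralizer ({y} : Set H) ≃ H.subgroupOf U :=
      { toFun := fun c => ⟨⟨((c : H) : G), by
            rw [hU]
            exact ⟨Subgroup.mem_sup_right (c : H).2, Subgroup.mem_centralizer_singleton_iff.2
              (congrArg Subtype.val (Subgroup.mem_centralizer_singleton_iff.1 c.2))⟩⟩, (c : H).2⟩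
        invFun := fun u => ⟨⟨((u : U) : G), u.2⟩, Subgroup.mem_centralizer_singleton_iff.2
          (Subtype.ext (hcentU _ (u : U).2))⟩
        left_inv := fun _ => rfl
        right_inv := fun _ => rfl }
    rw [Nat.card_congr e1]
    have hcQ : Nat.card Q = Nat.card ((H.subgroupOf U ⊓ (S₁ : Subgroup U) : Subgroup U)) := by
      refine Nat.card_congr ?_
      exact
        { toFun := fun u => ⟨⟨((u : H) : G), hS₂U ((hQm _).1 u.2)⟩, (u : H).2, by
            have := (hQm _).1 u.2
            rw [hS₂] at this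
            obtain ⟨v, hv, hve⟩ := this
            rw [show (⟨((u : H) : G), _⟩ : U) = v from Subtype.ext hve.symm]
            exact hv⟩
          invFun := fun u => ⟨⟨((u : U) : G), u.2.1⟩, by
            rw [hQm, hS₂]; exact ⟨_, u.2.2, rfl⟩⟩
          left_inv := fun _ => rfl
          right_inv := fun _ => rfl }
    have hQ1c : Nat.card (Q₁ : Subgroup (H.subgroupOf U)) = Nat.card ((H.subgroupOf U ⊓ (S₁ : Subgroup U) : Subgroup U)) := by
      rw [inf_comm, ← hQ₁, Subgroup.card_map_of_injective (H.subgroupOf U).subtype_injective]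
    rw [hcQ, ← hQ1c, Q₁.card_eq_multiplicity, hM.1.factorization_pow, Finsupp.single_eq_same]
  -- the characters
  letI : MulAction S₂ (IrrCharacter H) :=
    { smul := fun x ρ => pushChar (conjK (hnorm (x : G))) ρ
      one_smul := fun ρ => Subtype.ext (funext fun k => by
        show (ρ : H → ℂ) _ = _
        refine congrArg _ ?_
        apply (conjK (hnorm ((1 : S₂) : G))).injective
        rw [MulEquiv.apply_symm_apply]
        exact Subtype.ext (by simp [coe_conjK]))
      mul_smul := fun x z ρ => by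
        show pushChar (conjK (hnorm ((x * z : S₂) : G))) ρ =
          pushChar (conjK (hnorm (x : G))) (pushChar (conjK (hnorm (z : G))) ρ)
        rw [← pushChar_trans]
        congr 1
        exact MulEquiv.ext fun k => Subtype.ext (by simp [coe_conjK, mul_assoc]) }
  let Φ : IrrCharacter H → ℂ := fun ρ =>
    ((Nat.card Q : ℂ)⁻¹ * ∑ u : Q, (ρ : H → ℂ) (y * u)) * omega (θ₀ : H → ℂ) (regElt p (ρ : H → ℂ))
  have hav : ∀ ρ : IrrCharacter H, MemLocalRing M ((Nat.card Q : ℂ)⁻¹ * ∑ u : Q, (ρ : H → ℂ) (y * u)) := fun ρ =>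
    memLocalRing_of_isIntegral hM (isIntegral_coset_avg y Q hQy (isCharacter_of_irr ρ.2))
  have hωR : ∀ (θ ρ : IrrCharacter H), MemLocalRing M (omega (θ : H → ℂ) (regElt p (ρ : H → ℂ))) := fun θ ρ =>
    memLocalRing_omega hM θ (isClassElt_regElt (isCharacter_of_irr ρ.2)) (isIntegralElt_regElt hM (isCharacter_of_irr ρ.2))
  have hΦinv : ∀ (x : S₂) (ρ : IrrCharacter H), MemLocalIdeal M (Φ (x • ρ) - Φ ρ) := by
    intro x ρ
    set φ := conjK (hnorm (x : G)) with hφ
    have hQinv : ∀ u : H, u ∈ Q ↔ φ u ∈ Q := fun u => by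
      rw [hQm, hQm, hφ, coe_conjK]
      exact ⟨fun h => mul_mem (mul_mem x.2 h) (inv_mem x.2), fun h => by
        have := mul_mem (mul_mem (inv_mem x.2) h) x.2
        simpa [mul_assoc] using this⟩
    have hφy : φ y = y := Subtype.ext (by rw [hφ, coe_conjK, hcentU _ (hS₂U x.2), mul_inv_cancel_right])
    have e1 : ∑ u : Q, (pushChar φ ρ : H → ℂ) (y * u) = ∑ u : Q, (ρ : H → ℂ) (y * u) := by
      refine (Fintype.sum_equiv
        { toFun := fun u : Q => (⟨φ u, (hQinv _).1 u.2⟩ : Q)
          invFun := fun u => ⟨φ.symm u, (hQinv _).2 (by rw [MulEquiv.apply_symm_apply]; exact u.2)⟩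
          left_inv := fun u => Subtype.ext (φ.symm_apply_apply _)
          right_inv := fun u => Subtype.ext (φ.apply_symm_apply _) } _ _ fun u => ?_).symm
      show _ = (ρ : H → ℂ) (φ.symm (y * φ u))
      conv_rhs => rw [← hφy, ← map_mul, MulEquiv.symm_apply_apply]
    have hmem : pushChar φ.symm θ₀ ∈ b := by
      rw [← mem_pushBlock, hfix _ (hS₂T x.2)]; exact hθ₀
    show MemLocalIdeal M (((Nat.card Q : ℂ)⁻¹ * ∑ u : Q, (pushChar φ ρ : H → ℂ) (y * u)) *
      omega (θ₀ : H → ℂ) (regElt p (pushChar φ ρ : H → ℂ)) - Φ ρ)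
    conv => arg 2; arg 1; rw [e1, ← pushChar_symm φ θ₀, omega_regElt_push]
    rw [← mul_sub]
    exact memLocalIdeal_mul_left hM (hav ρ) (omega_sub_mem_of_sameBlock hM ((IsPBlock.mem_iff hM hb hmem).1 hθ₀)
      (isClassElt_regElt (isCharacter_of_irr ρ.2)) (isIntegralElt_regElt hM (isCharacter_of_irr ρ.2)))
  obtain ⟨ρ, hρfix, hρu⟩ := sum_fixed_not_mem hM hS₂p Φ hΦinv (fun ρ => memLocalRing_mul hM (hav ρ) (hωR θ₀ ρ)) (by
    intro h
    rw [← centralChar_eq_sum_regElt hyreg Q hQp hQy θ₀] at h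
    rw [IsPGroup.iff_card] at hQp
    obtain ⟨j, hj⟩ := hQp
    have e : ((Nat.card (Subgroup.centralizer ({y} : Set H)) : ℂ) / Nat.card Q) =
        ((Nat.card (Subgroup.centralizer ({y} : Set H)) / p ^ (Nat.card (Subgroup.centralizer ({y} : Set H))).factorization p : ℕ) : ℂ) := by
      rw [hcardC, hj, hM.1.factorization_pow, Finsupp.single_eq_same, Nat.cast_div ?_
        (Nat.cast_ne_zero.2 (pow_ne_zero _ hM.1.ne_zero))]
      have := Nat.ordProj_dvd (Nat.card (Subgroup.centralizer ({y} : Set H))) p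
      rwa [hcardC, hj, hM.1.factorization_pow, Finsupp.single_eq_same] at this
    rw [e] at h
    rcases memLocalIdeal_of_mul hM (memLocalRing_natCast hM _) (memLocalRing_centralChar hM θ₀ y) h with h' | h'
    · exact Nat.not_dvd_ordCompl hM.1 Nat.card_pos.ne' ((memLocalIdeal_natCast_iff hM _).1 h')
    · exact hyu h')
  have hωu : ¬ MemLocalIdeal M (omega (θ₀ : H → ℂ) (regElt p (ρ : H → ℂ))) := fun h =>
    hρu (memLocalIdeal_mul_left hM (hav ρ) h)
  rw [omega_regElt_mem_iff hM] at hωu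
  have hρb : ρ ∈ b := by
    by_contra hn
    exact hωu (by rw [regInt_eq_zero_of_notMem hM hb hθ₀ hn]; exact dvd_zero _)
  refine ⟨ρ, hρb, ?_, ?_⟩
  · have h1 := pow_dvd_regInt hM ρ θ₀
    rw [regInt_comm hM.1] at h1
    have h2 : degExp p ρ ≤ degExp p θ₀ := by
      by_contra hlt
      exact hωu ((pow_dvd_pow _ (by omega : degExp p θ₀ + 1 ≤ degExp p ρ)).trans h1)
    rw [blockHeight_eq hsInf]
    omega
  · intro s hs
    -- the stabilizer contains `S₂` and `H`
    let St : Subgroup G :=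
      { carrier := {g | pushChar (conjK (hnorm g)) ρ = ρ}
        one_mem' := by
          show pushChar _ ρ = ρ
          rw [show conjK (hnorm (1 : G)) = MulEquiv.refl H from MulEquiv.ext fun k => Subtype.ext (by simp [coe_conjK]),
            pushChar_refl]
        mul_mem' := fun {a c} ha hc => by
          show pushChar _ ρ = ρ
          rw [show conjK (hnorm (a * c)) = (conjK (hnorm c)).trans (conjK (hnorm a)) from
            MulEquiv.ext fun k => Subtype.ext (by simp [coe_conjK, mul_assoc]), pushChar_trans]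
          rw [show pushChar (conjK (hnorm c)) ρ = ρ from hc]
          exact ha
        inv_mem' := fun {a} ha => by
          show pushChar _ ρ = ρ
          conv_lhs => rw [← show pushChar (conjK (hnorm a)) ρ = ρ from ha]
          rw [← pushChar_trans, show (conjK (hnorm a)).trans (conjK (hnorm a⁻¹)) = MulEquiv.refl H from
            MulEquiv.ext fun k => Subtype.ext (by simp [coe_conjK, mul_assoc]), pushChar_refl] }
    have hsSt : s ∈ St := by
      refine (sup_le ?_ ?_ : S₂ ⊔ H ≤ St) (hSgle hs)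
      · exact fun x hx => hρfix ⟨x, hx⟩
      · intro x hx
        show pushChar _ ρ = ρ
        refine Subtype.ext (funext fun k => ?_)
        obtain ⟨l, rfl⟩ := (conjK (hnorm x)).surjective k
        rw [pushChar_apply, MulEquiv.symm_apply_apply,
          show conjK (hnorm x) l = ⟨x, hx⟩ * l * (⟨x, hx⟩ : H)⁻¹ from Subtype.ext rfl,
          isClassFunction (isCharacter_of_irr ρ.2)]
    intro h h' hh'
    rw [show h' = conjK (hnorm s) h from Subtype.ext hh']
    conv_lhs => rw [← show pushChar (conjK (hnorm s)) ρ = ρ from hsSt]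
    rw [pushChar_apply, MulEquiv.symm_apply_apply]

end CfsgLib.Blocks
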