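import Cfsg.Agent.Blocks.StableCover
import Cfsg.Agent.S4653

/-!
# Blocks over the centralizer of a normal `p`-subgroup
-/

set_option linter.unusedSectionVars false
set_option linter.style.haveILetI false

namespace CfsgLib.Blocks

open Cfsg CfsgLib.CharBasics CfsgLib.ZStar CfsgLib.Clifford
open scoped ComplexConjugate

universe u

variable {G : Type u} [Group G] [Fintype G] {p : ℕ} {M : Ideal AlgInt}
  {N : Subgroup G} [hN : N.Normal] [Fintype N]

/-- When idempotents live on a normal subgroup, blocks below determine blocks above. -/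
theorem sameBlock_of_supported (hM : IsPModular p M)
    (hsup : ∀ B : Set (IrrCharacter G), IsPBlock M B → ∀ g, g ∉ N → blockCoeff B g = 0)
    {χ ψ : IrrCharacter G} {θ φ : IrrCharacter N} (h : SameBlock M (θ : N → ℂ) (φ : N → ℂ))
    (hθ : classInner (fun n : N => (χ : G → ℂ) n) (θ : N → ℂ) ≠ 0)
    (hφ : classInner (fun n : N => (ψ : G → ℂ) n) (φ : N → ℂ) ≠ 0) :
    SameBlock M (χ : G → ℂ) (ψ : G → ℂ) := by
  classical
  have hB := isPBlock_blockOf M χ
  have hc := isClassElt_blockElt (blockOf M (χ : G → ℂ))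
  have hsupp : ∀ g, g ∉ N → (blockElt (blockOf M (χ : G → ℂ))).coeff g = 0 := fun g hg => by
    rw [coeff_blockElt]; exact hsup _ hB g hg
  have h1 := omega_sub_mem_of_sameBlock hM h (ZStar.isClassElt_res hc N)
    (ZStar.isIntegralElt_res (isIntegralElt_blockElt hM hB) N)
  rw [← omega_eq_res_constituent hc hsupp χ θ hθ, ← omega_eq_res_constituent hc hsupp ψ φ hφ,
    omega_blockElt, omega_blockElt, if_pos (mem_blockOf_self hM χ)] at h1
  by_contra hne
  rw [if_neg (show ψ ∉ blockOf M (χ : G → ℂ) from hne), sub_zero] at h1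
  exact not_memLocalIdeal_one hM h1

/-- A stable block carrying all idempotents has one block above, with the same idempotent. -/
theorem exists_block_above_supported (hM : IsPModular p M)
    (hsup : ∀ B : Set (IrrCharacter G), IsPBlock M B → ∀ g, g ∉ N → blockCoeff B g = 0)
    {c : Set (IrrCharacter N)} (hc : IsPBlock M c) (hst : ∀ x : G, StabilizesBlock N c x) :
    ∃ B : Set (IrrCharacter G), IsPBlock M B ∧ ∀ g : G, blockCoeff B g = subgroupBlockCoeff N c g := by
  classical
  obtain ⟨θ₀, hθ₀⟩ := IsPBlock.nonempty hM hc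
  obtain ⟨χ₀, hχ₀⟩ := exists_over_character (G := G) θ₀
  have hB := isPBlock_blockOf M χ₀
  refine ⟨_, hB, fun g => ?_⟩
  have key : blockElt (blockOf M (χ₀ : G → ℂ)) = extElt N (blockElt c) := by
    refine eq_of_omega_eq (isClassElt_blockElt _) (isClassElt_extElt_stable hst) fun ψ => ?_
    rw [omega_blockElt]
    by_cases hψ : ψ ∈ blockOf M (χ₀ : G → ℂ)
    · obtain ⟨θ, hθ, hne⟩ := exists_constituent_mem_block hM hc hB (mem_blockOf_self hM χ₀) hθ₀ hχ₀ hψ
      rw [if_pos hψ, omega_extElt_stable hst ψ hne, if_pos hθ]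
    · obtain ⟨φ, hφ⟩ := exists_constituent_restrict N ψ
      rw [if_neg hψ, omega_extElt_stable hst ψ hφ, if_neg]
      exact fun h => hψ (sameBlock_of_supported hM hsup ((IsPBlock.mem_iff hM hc hθ₀).1 h) hχ₀ hφ)
  rw [← coeff_blockElt, key, subgroupBlockCoeff]
  by_cases hg : g ∈ N
  · rw [coeff_extElt_mem N _ hg, coeff_blockElt, dif_pos hg]
  · rw [coeff_extElt_of_notMem N _ hg, dif_neg hg]

/-- The idempotent of a block as a multiple of the conjugates of a covered one. -/
theorem blockCoeff_eq_average (hM : IsPModular p M)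
    (hsup : ∀ B : Set (IrrCharacter G), IsPBlock M B → ∀ g, g ∉ N → blockCoeff B g = 0)
    {B : Set (IrrCharacter G)} (hB : IsPBlock M B) {e : Set (IrrCharacter N)} (he : IsPBlock M e)
    {χ₀ : IrrCharacter G} (hχ₀ : χ₀ ∈ B) {θ₀ : IrrCharacter N} (hθ₀ : θ₀ ∈ e)
    (h₀ : classInner (fun n : N => (χ₀ : G → ℂ) n) (θ₀ : N → ℂ) ≠ 0)
    (T : Subgroup G) (hT : ∀ x : G, x ∈ T ↔ StabilizesBlock N e x) (g : G) :
    blockCoeff B g = (Nat.card T : ℂ)⁻¹ * ∑ x : G, subgroupBlockCoeff N e (x⁻¹ * g * x) := by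
  classical
  haveI := Fintype.ofFinite T
  obtain ⟨z, hz⟩ : ∃ z : MonoidAlgebra ℂ G,
      z = ofFun fun g => ∑ x : G, subgroupBlockCoeff N e (x⁻¹ * g * x) := ⟨_, rfl⟩
  have hsub : ∀ y, subgroupBlockCoeff N e y = (extElt N (blockElt e)).coeff y := fun y => by
    unfold subgroupBlockCoeff
    by_cases hy : y ∈ N
    · rw [dif_pos hy, coeff_extElt_mem N _ hy, coeff_blockElt]
    · rw [dif_neg hy, coeff_extElt_of_notMem N _ hy]
  have hzc : IsClassElt z := by
    intro y h
    simp only [hz, coeff_ofFun]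
    refine Fintype.sum_equiv (Equiv.mulLeft h⁻¹) _ _ fun x => ?_
    simp [mul_assoc]
  have hzsupp : ∀ y, y ∉ N → z.coeff y = 0 := fun y hy => by
    rw [hz, coeff_ofFun]
    refine Finset.sum_eq_zero fun x _ => ?_
    rw [hsub, coeff_extElt_of_notMem N _ fun h => hy ?_]
    have := hN.conj_mem _ h x
    simpa [mul_assoc] using this
  have hnorm : ∀ x : G, x ∈ Subgroup.normalizer (N : Set G) := fun x => by
    rw [Subgroup.normalizer_eq_top]; exact Subgroup.mem_top x
  have hω : ∀ θ : IrrCharacter N, omega (θ : N → ℂ) (res N z) =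
      ((Finset.univ.filter fun x : G => θ ∈ pushBlock (conjK (hnorm x)) e).card : ℂ) := by
    intro θ
    have hres : res N z = ∑ x : G, blockElt (pushBlock (conjK (hnorm x)) e) := by
      ext n
      simp only [coeff_res, hz, coeff_ofFun, MonoidAlgebra.coeff_sum, Finsupp.finsetSum_apply, coeff_blockElt]
      refine Finset.sum_congr rfl fun x _ => ?_
      obtain ⟨m, rfl⟩ := (conjK (hnorm x)).surjective n
      rw [blockCoeff_pushBlock, coe_conjK]
      rw [show x⁻¹ * (x * (m : G) * x⁻¹) * x = (m : G) by simp [mul_assoc]]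
      rw [subgroupBlockCoeff, dif_pos m.2]
    rw [hres, ZStar.omega_sum, Finset.sum_congr rfl fun x _ => omega_blockElt _ θ, Finset.sum_boole]
  have hcount : ∀ θ ∈ e, (Finset.univ.filter fun x : G => θ ∈ pushBlock (conjK (hnorm x)) e).card = Nat.card T := by
    intro θ hθ
    rw [Nat.card_eq_fintype_card, Fintype.card_subtype]
    congr 1
    ext x
    simp only [Finset.mem_filter, Finset.mem_univ, true_and, hT, stabilizesBlock_iff]
    exact ⟨fun h => ⟨hnorm x, IsPBlock.eq_of_mem hM (isPBlock_pushBlock _ he) he h hθ⟩, fun ⟨_, h⟩ => h.symm ▸ hθ⟩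
  have hT0 : (Nat.card T : ℂ) ≠ 0 := Nat.cast_ne_zero.2 Nat.card_pos.ne'
  have key : blockElt B = (Nat.card T : ℂ)⁻¹ • z := by
    refine eq_of_omega_eq (isClassElt_blockElt B) (hzc.smul _) fun ψ => ?_
    rw [omega_blockElt, omega_smul]
    by_cases hψ : ψ ∈ B
    · obtain ⟨θ, hθ, hne⟩ := exists_constituent_mem_block hM he hB hχ₀ hθ₀ h₀ hψ
      rw [if_pos hψ, omega_eq_res_constituent hzc hzsupp ψ θ hne, hω, hcount θ hθ, inv_mul_cancel₀ hT0]
    · obtain ⟨φ, hφ⟩ := exists_constituent_restrict N ψ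
      rw [if_neg hψ, omega_eq_res_constituent hzc hzsupp ψ φ hφ, hω, Finset.card_eq_zero.2, Nat.cast_zero, mul_zero]
      refine Finset.filter_eq_empty_iff.2 fun x _ hx => hψ ?_
      rw [mem_pushBlock] at hx
      -- the conjugate constituent lies in `e`
      have hconst : classInner (fun n : N => (ψ : G → ℂ) n) (pushChar (conjK (hnorm x)).symm φ : N → ℂ) ≠ 0 := by
        have he' : (pushChar (conjK (hnorm x)).symm φ : N → ℂ) = conjFun x (φ : N → ℂ) := funext fun n => by
          rw [pushChar_apply, conjFun_apply]; rfl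
        rw [he', ← conjFun_restrict (isClassFunction (isCharacter_of_irr ψ.2)) x, classInner_conjFun]
        exact hφ
      exact (IsPBlock.mem_iff hM hB hχ₀).2 (sameBlock_of_supported hM hsup ((IsPBlock.mem_iff hM he hθ₀).1 hx) h₀ hconst)
  rw [← coeff_blockElt, key, MonoidAlgebra.coeff_smul, Finsupp.smul_apply, hz, coeff_ofFun, smul_eq_mul]

end CfsgLib.Blocks
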