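import Cfsg.Agent.Blocks.MaximalCriterion
import Cfsg.Agent.Blocks.LocalInduction
import Cfsg.Agent.S0920

/-!
# Counting blocks of full defect
-/

set_option linter.unusedSectionVars false
set_option linter.style.haveILetI false

namespace CfsgLib.Blocks

open Cfsg CfsgLib.CharBasics CfsgLib.Clifford
open scoped ComplexConjugate

universe u

variable {A : Type u} [Group A] [Fintype A] {p : ℕ} {M : Ideal AlgInt}

theorem exists_regular_part_centralizer (hp : p.Prime) {P : Subgroup A} [P.Normal] (hP : IsPGroup p P)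
    (hidx : ¬ p ∣ P.index) :
    ∃ Q : Subgroup A, Q.Normal ∧ ¬ p ∣ Nat.card Q ∧
      ∀ x : A, x ∈ Q ↔ ¬ p ∣ orderOf x ∧ x ∈ Subgroup.centralizer (P : Set A) := by
  classical
  haveI := Fact.mk hp
  obtain ⟨C, hC⟩ : ∃ C, C = Subgroup.centralizer (P : Set A) := ⟨_, rfl⟩
  haveI : C.Normal := ⟨fun x hx g => by
    rw [hC, Subgroup.mem_centralizer_iff] at hx ⊢
    intro z hz
    have h := hx (g⁻¹ * z * g) (by simpa using (inferInstance : P.Normal).conj_mem z hz g⁻¹)
    calc z * (g * x * g⁻¹) = g * (g⁻¹ * z * g * x) * g⁻¹ := by group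
      _ = g * x * g⁻¹ * z := by rw [h]; group⟩
  have hZp : IsPGroup p (P.subgroupOf C) := by
    rw [← Subgroup.inf_subgroupOf_right]
    exact (hP.to_le inf_le_left).of_equiv (Subgroup.subgroupOfEquivOfLe inf_le_right).symm
  have hZi : ¬ p ∣ (P.subgroupOf C).index := fun h =>
    hidx (h.trans (Subgroup.relIndex_dvd_index_of_normal P C))
  obtain ⟨n, hn⟩ := hZp.exists_card_eq
  have hcop : Nat.Coprime (Nat.card (P.subgroupOf C)) (P.subgroupOf C).index :=
    hn ▸ Nat.Coprime.pow_left n (hp.coprime_iff_not_dvd.2 hZi)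
  obtain ⟨K, hK⟩ := Subgroup.exists_right_complement'_of_coprime hcop
  have hKcard : Nat.card K = (P.subgroupOf C).index := by
    have h := hK.card_mul_card
    rw [← Subgroup.card_mul_index (P.subgroupOf C)] at h
    exact Nat.eq_of_mul_eq_mul_left Nat.card_pos h
  have hcomm : ∀ z ∈ P.subgroupOf C, ∀ c : C, z * c = c * z := fun z hz c => Subtype.ext <| by
    have hc : (c : A) ∈ Subgroup.centralizer (P : Set A) := hC ▸ c.2
    exact Subgroup.mem_centralizer_iff.1 hc _ (Subgroup.mem_subgroupOf.1 hz)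
  haveI : K.Normal := ⟨fun k hk c => by
    obtain ⟨⟨⟨z, hz⟩, ⟨j, hj⟩⟩, rfl⟩ := hK.2 c
    have e : z * j * k * (z * j)⁻¹ = j * k * j⁻¹ := by
      calc z * j * k * (z * j)⁻¹ = z * (j * k * j⁻¹) * z⁻¹ := by group
        _ = _ := by rw [hcomm z hz, mul_inv_cancel_right]
    rw [show (z * j : C) * k * (z * j)⁻¹ = j * k * j⁻¹ from e]
    exact K.mul_mem (K.mul_mem hj hk) (K.inv_mem hj)⟩
  have hKi : K.index = p ^ n := by
    have h := Subgroup.card_mul_index K
    rw [← hK.card_mul_card, hn, mul_comm (p ^ n)] at h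
    exact Nat.eq_of_mul_eq_mul_left Nat.card_pos h
  have hmem : ∀ x : A, x ∈ K.map C.subtype ↔ ¬ p ∣ orderOf x ∧ x ∈ Subgroup.centralizer (P : Set A) := by
    intro x
    constructor
    · rintro ⟨c, hc, rfl⟩
      refine ⟨fun h => hZi ?_, hC ▸ c.2⟩
      have h1 : orderOf (C.subtype c) ∣ Nat.card K := by
        rw [Subgroup.subtype_apply, Subgroup.orderOf_coe, ← Subgroup.orderOf_mk c hc]
        exact orderOf_dvd_natCard _
      exact hKcard ▸ h.trans h1
    · rintro ⟨hr, hx⟩
      refine ⟨⟨x, hC.symm ▸ hx⟩, ?_, rfl⟩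
      rw [SetLike.mem_coe, ← QuotientGroup.eq_one_iff, ← orderOf_eq_one_iff, ← Nat.dvd_one]
      have h1 : orderOf ((⟨x, hC.symm ▸ hx⟩ : C) : C ⧸ K) ∣ orderOf x := by
        have h := orderOf_map_dvd (QuotientGroup.mk' K) (⟨x, hC.symm ▸ hx⟩ : C)
        rwa [Subgroup.orderOf_mk] at h
      have h2 : orderOf ((⟨x, hC.symm ▸ hx⟩ : C) : C ⧸ K) ∣ p ^ n := by
        rw [← hKi, Subgroup.index_eq_card]; exact orderOf_dvd_natCard _
      rw [← (Nat.Coprime.pow_left n (hp.coprime_iff_not_dvd.2 hr))]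
      exact Nat.dvd_gcd h2 h1
  refine ⟨K.map C.subtype, ⟨fun x hx g => (hmem _).2 ?_⟩, ?_, hmem⟩
  · obtain ⟨h1, h2⟩ := (hmem x).1 hx
    refine ⟨?_, (hC ▸ (inferInstance : C.Normal)).conj_mem x h2 g⟩
    rwa [show g * x * g⁻¹ = MulAut.conj g x from rfl, MulEquiv.orderOf_eq]
  · rw [Subgroup.card_map_of_injective C.subtype_injective, hKcard]
    exact hZi

variable {Q : Subgroup A} [Q.Normal] [Fintype Q]

/-- Irreducible characters with non-orthogonal restrictions restrict proportionally. -/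
theorem restrict_proportional {χ ψ : IrrCharacter A}
    (h : ∃ θ : IrrCharacter Q, classInner (fun n : Q => (χ : A → ℂ) n) (θ : Q → ℂ) ≠ 0 ∧
      classInner (fun n : Q => (ψ : A → ℂ) n) (θ : Q → ℂ) ≠ 0) (n : Q) :
    (χ : A → ℂ) n * (ψ : A → ℂ) 1 = (ψ : A → ℂ) n * (χ : A → ℂ) 1 := by
  classical
  obtain ⟨θ, h1, h2⟩ := h
  have e1 := restrict_eq_orbit_sum χ.2 θ.2 h1
  have e2 := restrict_eq_orbit_sum ψ.2 θ.2 h2
  have a1 := congrFun e1 n
  have a2 := congrFun e2 n
  have b1 := congrFun e1 1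
  have b2 := congrFun e2 1
  simp only [Pi.smul_apply, smul_eq_mul, OneMemClass.coe_one] at a1 a2 b1 b2
  rw [a1, a2, b1, b2]
  ring

theorem exists_common_constituent {χ ψ : IrrCharacter A}
    (h : classInner (fun n : Q => (χ : A → ℂ) n) (fun n : Q => (ψ : A → ℂ) n) ≠ 0) :
    ∃ θ : IrrCharacter Q, classInner (fun n : Q => (χ : A → ℂ) n) (θ : Q → ℂ) ≠ 0 ∧
      classInner (fun n : Q => (ψ : A → ℂ) n) (θ : Q → ℂ) ≠ 0 := by
  classical
  haveI : Fintype (IrrCharacter Q) := @Fintype.ofFinite _ finite_irrCharacter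
  by_contra hn
  push Not at hn
  refine h ?_
  conv_lhs => arg 1; rw [classFun_expand (isClassFunction (CharBasics.isCharacter_restrict (isCharacter_of_irr χ.2) Q))]
  rw [classInner_eq]
  simp only [Finset.sum_apply, Pi.smul_apply, smul_eq_mul, Finset.sum_mul, mul_assoc]
  rw [Finset.sum_comm, Finset.mul_sum]
  refine Finset.sum_eq_zero fun θ _ => ?_
  rw [← Finset.mul_sum, mul_left_comm, ← classInner_eq, classInner_comm (fun n : Q => (ψ : A → ℂ) n) (θ : Q → ℂ)]
  by_cases h1 : classInner (fun n : Q => (χ : A → ℂ) n) (θ : Q → ℂ) = 0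
  · rw [h1, zero_mul]
  · rw [hn θ h1, map_zero, mul_zero]

/-- Blocks are told apart on the `p`-regular elements centralizing a normal `p`-subgroup. -/
theorem sameBlock_of_regular_centralizer (hM : IsPModular p M) {P : Subgroup A} [P.Normal] (hP : IsPGroup p P)
    {χ ψ : IrrCharacter A}
    (h : ∀ x : A, ¬ p ∣ orderOf x → x ∈ Subgroup.centralizer (P : Set A) →
      centralChar (χ : A → ℂ) x = centralChar (ψ : A → ℂ) x) :
    SameBlock M (χ : A → ℂ) (ψ : A → ℂ) := by
  classical
  haveI : Fintype (ConjClasses A) := Fintype.ofFinite _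
  haveI := Fintype.ofFinite P
  have hB := isPBlock_blockOf M χ
  have hχ := mem_blockOf_self hM χ
  suffices hψ : ψ ∈ blockOf M (χ : A → ℂ) from hψ
  by_contra hψ
  refine not_memLocalIdeal_one hM ?_
  have e : MemLocalIdeal M (omega (χ : A → ℂ) (blockElt (blockOf M (χ : A → ℂ))) -
      omega (ψ : A → ℂ) (blockElt (blockOf M (χ : A → ℂ)))) := by
    rw [omega_eq_sum_classes χ (isClassElt_blockElt _), omega_eq_sum_classes ψ (isClassElt_blockElt _),
      ← Finset.sum_sub_distrib]
    refine memLocalIdeal_sum hM _ fun K _ => ?_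
    rw [← mul_sub]
    by_cases h1 : p ∣ orderOf K.out
    · rw [coeff_blockElt, blockCoeff_eq_zero hM hB h1, zero_mul]
      exact memLocalIdeal_zero hM
    refine memLocalIdeal_mul_left hM (isIntegralElt_blockElt hM hB _) ?_
    by_cases h2 : K.out ∈ Subgroup.centralizer (P : Set A)
    · rw [h _ h1 h2, sub_self]
      exact memLocalIdeal_zero hM
    · exact memLocalIdeal_sub hM (centralChar_mem_of_notMem_centralizer hM P hP χ h2)
        (centralChar_mem_of_notMem_centralizer hM P hP ψ h2)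
  rwa [omega_blockElt, omega_blockElt, if_pos hχ, if_neg hψ, sub_zero] at e

omit Q in
/-- The number of blocks of a group with normal Sylow `p`-subgroup. -/
theorem card_blocks_normal_sylow (hM : IsPModular p M) {P : Subgroup A} [P.Normal] (hP : IsPGroup p P)
    (hidx : ¬ p ∣ P.index) :
    Nat.card {B : Set (IrrCharacter A) // IsPBlock M B} =
      Nat.card {c : ConjClasses A // ∀ x : A, ConjClasses.mk x = c →
        ¬ p ∣ orderOf x ∧ x ∈ Subgroup.centralizer (P : Set A)} := by
  classical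
  obtain ⟨Q, hQn, hQp, hQ⟩ := exists_regular_part_centralizer hM.1 hP hidx
  haveI := Fintype.ofFinite Q
  haveI : Fintype (IrrCharacter A) := @Fintype.ofFinite _ finite_irrCharacter
  haveI : Finite (Set (IrrCharacter A)) := inferInstance
  haveI := Fintype.ofFinite {B : Set (IrrCharacter A) // IsPBlock M B}
  have hout : ∀ c : ConjClasses A, ConjClasses.mk c.out = c := fun c => Quotient.out_eq c
  have hS : ∀ c : ConjClasses A, c.out ∈ Q → ∀ x : A, ConjClasses.mk x = c →
      ¬ p ∣ orderOf x ∧ x ∈ Subgroup.centralizer (P : Set A) := by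
    intro c hc x hx
    obtain ⟨g, hg⟩ := isConj_iff.1 (ConjClasses.mk_eq_mk_iff_isConj.1 ((hout c).trans hx.symm))
    exact (hQ x).1 (hg ▸ hQn.conj_mem _ hc g)
  haveI := Fintype.ofFinite {c : ConjClasses A // ∀ x : A, ConjClasses.mk x = c →
    ¬ p ∣ orderOf x ∧ x ∈ Subgroup.centralizer (P : Set A)}
  have hprop : ∀ χ ψ : IrrCharacter A, SameBlock M (χ : A → ℂ) (ψ : A → ℂ) → ∀ n : Q,
      (χ : A → ℂ) n * (ψ : A → ℂ) 1 = (ψ : A → ℂ) n * (χ : A → ℂ) 1 := fun χ ψ hs n => by
    refine restrict_proportional ?_ n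
    haveI : Fintype (IrrCharacter Q) := @Fintype.ofFinite _ finite_irrCharacter
    obtain ⟨θ, hθ⟩ : ∃ θ : IrrCharacter Q, classInner (fun n : Q => (χ : A → ℂ) n) (θ : Q → ℂ) ≠ 0 := by
      by_contra hn
      push Not at hn
      have := congrFun (classFun_expand (isClassFunction (CharBasics.isCharacter_restrict (isCharacter_of_irr χ.2) Q))) 1
      simp only [hn, zero_smul, Finset.sum_const_zero, Pi.zero_apply] at this
      exact apply_one_ne_zero χ.2 this
    exact ⟨θ, hθ, constituent_of_sameBlock hM hQp hs hθ⟩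
  have hsep : ∀ χ ψ : IrrCharacter A,
      classInner (fun n : Q => (χ : A → ℂ) n) (fun n : Q => (ψ : A → ℂ) n) ≠ 0 →
        SameBlock M (χ : A → ℂ) (ψ : A → ℂ) := fun χ ψ hne => by
    refine sameBlock_of_regular_centralizer hM hP fun x h1 h2 => ?_
    have := restrict_proportional (exists_common_constituent hne) ⟨x, (hQ x).2 ⟨h1, h2⟩⟩
    rw [centralChar, centralChar, div_eq_div_iff (apply_one_ne_zero χ.2) (apply_one_ne_zero ψ.2), mul_assoc,
      mul_assoc]
    exact congrArg _ this
  choose pick hpick using fun B : {B : Set (IrrCharacter A) // IsPBlock M B} => IsPBlock.nonempty hM B.2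
  let g : {B : Set (IrrCharacter A) // IsPBlock M B} →
      {c : ConjClasses A // ∀ x : A, ConjClasses.mk x = c → ¬ p ∣ orderOf x ∧
        x ∈ Subgroup.centralizer (P : Set A)} → ℂ :=
    fun B c => (pick B : A → ℂ) c.1.out / (pick B : A → ℂ) 1
  have hli : LinearIndependent ℂ g := by
    rw [Fintype.linearIndependent_iff]
    intro a ha B₀
    have hz : ∀ n : Q, ∑ B, a B / (pick B : A → ℂ) 1 * (pick B : A → ℂ) n = 0 := fun n => by
      have hc : (ConjClasses.mk (n : A)).out ∈ Q := by
        obtain ⟨y, hy⟩ := isConj_iff.1 (ConjClasses.mk_eq_mk_iff_isConj.1 (hout (ConjClasses.mk (n : A))).symm)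
        exact hy ▸ hQn.conj_mem _ n.2 y
      have h := congrFun ha ⟨_, hS _ hc⟩
      simp only [Finset.sum_apply, Pi.smul_apply, smul_eq_mul, Pi.zero_apply, g] at h
      rw [← h]
      refine Finset.sum_congr rfl fun B _ => ?_
      obtain ⟨y, hy⟩ := isConj_iff.1 (ConjClasses.mk_eq_mk_iff_isConj.1 (hout (ConjClasses.mk (n : A))).symm)
      rw [← isClassFunction (isCharacter_of_irr (pick B).2) n y, hy]
      ring
    have h1 : ∑ B, a B / (pick B : A → ℂ) 1 *
        classInner (fun n : Q => (pick B : A → ℂ) n) (fun n : Q => (pick B₀ : A → ℂ) n) = 0 := by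
      simp only [classInner_eq, Finset.mul_sum]
      rw [Finset.sum_comm]
      refine Finset.sum_eq_zero fun n _ => ?_
      calc _ = (Nat.card Q : ℂ)⁻¹ * conj ((pick B₀ : A → ℂ) n) *
            ∑ B, a B / (pick B : A → ℂ) 1 * (pick B : A → ℂ) n := by
              rw [Finset.mul_sum]; exact Finset.sum_congr rfl fun B _ => by ring
        _ = 0 := by rw [hz n, mul_zero]
    rw [Finset.sum_eq_single B₀] at h1
    · have hne : classInner (fun n : Q => (pick B₀ : A → ℂ) n) (fun n : Q => (pick B₀ : A → ℂ) n) ≠ 0 := by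
        rw [classInner_eq]
        refine mul_ne_zero (inv_ne_zero (Nat.cast_ne_zero.2 Nat.card_pos.ne')) ?_
        simp only [Complex.mul_conj]
        rw [← Complex.ofReal_sum, Complex.ofReal_ne_zero]
        exact (Finset.sum_pos' (fun n _ => Complex.normSq_nonneg _)
          ⟨1, Finset.mem_univ _, Complex.normSq_pos.2 (by simpa using apply_one_ne_zero (pick B₀).2)⟩).ne'
      exact ((div_eq_zero_iff.1 ((mul_eq_zero.1 h1).resolve_right hne)).resolve_right (apply_one_ne_zero (pick B₀).2))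
    · intro B _ hB
      refine mul_eq_zero_of_right _ (by_contra fun hne => hB (Subtype.ext ?_))
      refine IsPBlock.eq_of_mem hM B.2 B₀.2 (hpick B) ?_
      exact (IsPBlock.mem_iff hM B₀.2 (hpick B₀)).2 (sameBlock_symm (hsep _ _ hne))
    · simp
  have hspan : ⊤ ≤ Submodule.span ℂ (Set.range g) := by
    intro f _
    have hF : IsClassFunction A
        (fun x : A => if h : (ConjClasses.mk x).out ∈ Q then f ⟨_, hS _ h⟩ else 0) := fun x y => by
      have e : ConjClasses.mk (y * x * y⁻¹) = ConjClasses.mk x :=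
        ConjClasses.mk_eq_mk_iff_isConj.2 (isConj_iff.2 ⟨y⁻¹, by group⟩)
      simp only [e]
    have key : f = ∑ χ : IrrCharacter A,
        (classInner (fun x : A => if h : (ConjClasses.mk x).out ∈ Q then f ⟨_, hS _ h⟩ else 0) (χ : A → ℂ) *
          (χ : A → ℂ) 1) • g ⟨blockOf M (χ : A → ℂ), isPBlock_blockOf M χ⟩ := by
      funext c
      have hc : c.1.out ∈ Q := (hQ _).2 (c.2 _ (hout c.1))
      have h1 := congrFun (classFun_expand hF) c.1.out
      have hcc : (ConjClasses.mk c.1.out).out ∈ Q := by rwa [hout]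
      simp only [Finset.sum_apply, Pi.smul_apply, smul_eq_mul, g, dif_pos hcc] at h1 ⊢
      refine (Eq.trans ?_ h1).trans (Finset.sum_congr rfl fun χ _ => ?_)
      · congr 1
        exact Subtype.ext (hout c.1).symm
      · have hp1 := hprop χ (pick ⟨blockOf M (χ : A → ℂ), isPBlock_blockOf M χ⟩)
          (hpick ⟨blockOf M (χ : A → ℂ), isPBlock_blockOf M χ⟩) ⟨_, hc⟩
        rw [mul_assoc]
        refine congrArg _ ?_
        rw [mul_div_assoc', eq_div_iff (apply_one_ne_zero (pick _).2)]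
        exact hp1.trans (mul_comm _ _)
    rw [key]
    exact Submodule.sum_mem _ fun χ _ => Submodule.smul_mem _ _ (Submodule.subset_span ⟨_, rfl⟩)
  have h := Module.finrank_eq_card_basis (Module.Basis.mk hli hspan)
  rw [Module.finrank_fintype_fun_eq_card] at h
  rw [Nat.card_eq_fintype_card, Nat.card_eq_fintype_card, h]

variable {G : Type u} [Group G] [Fintype G]

/-- The number of blocks with a given Sylow defect group. -/
theorem card_blocks_sylow_defect (hM : IsPModular p M) [Fact p.Prime] (P : Sylow p G) :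
    Nat.card {B : Set (IrrCharacter G) // IsPBlock M B ∧ IsDefectGroup p M B (P : Subgroup G)} =
      Nat.card {C : ConjClasses (Subgroup.normalizer ((P : Subgroup G) : Set G)) //
        ∀ n : Subgroup.normalizer ((P : Subgroup G) : Set G), ConjClasses.mk n = C →
          ¬ p ∣ orderOf n ∧ (n : G) ∈ Subgroup.centralizer ((P : Subgroup G) : Set G)} := by
  classical
  obtain ⟨N, hN⟩ : ∃ N, N = Subgroup.normalizer ((P : Subgroup G) : Set G) := ⟨_, rfl⟩
  haveI := Fintype.ofFinite (Subgroup.normalizer ((P : Subgroup G) : Set G))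
  have hPN : (P : Subgroup G) ≤ Subgroup.normalizer ((P : Subgroup G) : Set G) := Subgroup.le_normalizer
  haveI hPn : ((P : Subgroup G).subgroupOf (Subgroup.normalizer ((P : Subgroup G) : Set G))).Normal :=
    (Subgroup.normal_subgroupOf_iff_le_normalizer hPN).2 le_rfl
  have hPp : IsPGroup p ((P : Subgroup G).subgroupOf (Subgroup.normalizer ((P : Subgroup G) : Set G))) :=
    P.isPGroup'.of_equiv (Subgroup.subgroupOfEquivOfLe hPN).symm
  have hidx : ¬ p ∣ ((P : Subgroup G).subgroupOf (Subgroup.normalizer ((P : Subgroup G) : Set G))).index :=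
    fun h => P.not_dvd_index (h.trans (Subgroup.relIndex_dvd_index_of_le hPN))
  have hdef : ∀ b : Set (IrrCharacter (Subgroup.normalizer ((P : Subgroup G) : Set G))), IsPBlock M b →
      IsDefectGroup p M b ((P : Subgroup G).subgroupOf (Subgroup.normalizer ((P : Subgroup G) : Set G))) := by
    intro b hb
    obtain ⟨y, hy⟩ := exists_defectClass hM hb
    obtain ⟨S⟩ : Nonempty (Sylow p
      (Subgroup.centralizer ({y} : Set (Subgroup.normalizer ((P : Subgroup G) : Set G))))) := inferInstance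
    obtain ⟨D, hD⟩ : ∃ D, IsDefectGroup p M b D := ⟨_, y, hy, S, rfl⟩
    have hle := (CfsgLib.PCore.le_pCore hPn hPp).trans (Cfsg.Agent.S0912.result p M hM b hb D hD)
    convert hD
    refine Subgroup.eq_of_le_of_card_ge hle ?_
    obtain ⟨k, hk⟩ := (isPGroup_of_isDefectGroup hD).exists_card_eq
    have h1 := Subgroup.card_subgroup_dvd_card D
    rw [← Subgroup.card_mul_index
      ((P : Subgroup G).subgroupOf (Subgroup.normalizer ((P : Subgroup G) : Set G))), hk] at h1
    exact hk ▸ Nat.le_of_dvd Nat.card_pos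
      ((Nat.Coprime.pow_left k (hM.1.coprime_iff_not_dvd.2 hidx)).dvd_of_dvd_mul_right h1)
  obtain ⟨h1, h2⟩ := Cfsg.Agent.S0920.result p M hM (P : Subgroup G) P.isPGroup'
  choose up hup using fun b : {b : Set (IrrCharacter (Subgroup.normalizer ((P : Subgroup G) : Set G))) //
    IsPBlock M b} => h1 b.1 b.2 (hdef b.1 b.2)
  have e : Nat.card {b : Set (IrrCharacter (Subgroup.normalizer ((P : Subgroup G) : Set G))) // IsPBlock M b} =
      Nat.card {B : Set (IrrCharacter G) // IsPBlock M B ∧ IsDefectGroup p M B (P : Subgroup G)} := by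
    refine Nat.card_eq_of_bijective (fun b => ⟨up b, (hup b).1, (hup b).2.1⟩) ⟨fun b b' hbb => ?_, fun B => ?_⟩
    · have hu : up b = up b' := congrArg Subtype.val hbb
      exact Subtype.ext ((h2 (up b) (hup b).1 (hup b).2.1).unique ⟨b.2, hdef _ b.2, (hup b).2.2⟩
        ⟨b'.2, hdef _ b'.2, hu ▸ (hup b').2.2⟩)
    · obtain ⟨b, ⟨hb, -, hbi⟩, -⟩ := h2 B.1 B.2.1 B.2.2
      exact ⟨⟨b, hb⟩, Subtype.ext (induced_block_unique hM (hup ⟨b, hb⟩).2.2 hbi)⟩
  rw [← e, card_blocks_normal_sylow hM hPp hidx]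
  refine Nat.card_congr (Equiv.subtypeEquivRight fun c => forall_congr' fun x => imp_congr_right fun _ => ?_)
  refine and_congr_right fun _ => ?_
  simp only [Subgroup.mem_centralizer_iff]
  exact ⟨fun h y hy => congrArg Subtype.val (h ⟨y, hPN hy⟩ hy), fun h y hy => Subtype.ext (h _ hy)⟩

end CfsgLib.Blocks
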